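import Mathlib
import Cfsg.Agent.Lib.helper1.Carter
import Cfsg.Agent.Lib.helper1.Hall
import Cfsg.Agent.Lib.helper3.HallSystem4
import Cfsg.Agent.Lib.helper8.CoprimeAction

set_option autoImplicit false
set_option linter.style.haveILetI false
open Pointwise

namespace Cfsg.Agent.Lib.helper14

open Cfsg.Agent.Lib.helper1 Cfsg.Agent.Lib.helper3 Cfsg.Agent.Lib.helper8

universe u

theorem eq_one_of_pow_coprime {G : Type*} [Group G] {x : G} {m n : ℕ} (hm : x ^ m = 1)
    (hn : x ^ n = 1) (h : m.Coprime n) : x = 1 := by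
  have h1 := Nat.dvd_gcd (orderOf_dvd_of_pow_eq_one hm) (orderOf_dvd_of_pow_eq_one hn)
  rw [Nat.Coprime] at h
  rw [h, Nat.dvd_one] at h1
  exact orderOf_eq_one_iff.mp h1

theorem pow_card_eq_one_of_mem {G : Type*} [Group G] [Finite G] {H : Subgroup G} {x : G}
    (hx : x ∈ H) : x ^ Nat.card H = 1 := by
  have h1 : (⟨x, hx⟩ : H) ^ Nat.card H = 1 := pow_card_eq_one'
  exact congrArg Subtype.val h1

/-- Hall decomposition data of a nilpotent subgroup. -/
structure NilDec {G : Type*} [Group G] (C : Subgroup G) (p : ℕ) (P Q : Subgroup G) : Prop where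
  hP : P ≤ C
  hQ : Q ≤ C
  pP : IsPGroup p P
  cQ : (Nat.card Q).Coprime p
  card : Nat.card P * Nat.card Q = Nat.card C
  comm : ∀ t ∈ Q, ∀ s ∈ P, s * t = t * s
  prod : ∀ c ∈ C, ∃ u ∈ P, ∃ v ∈ Q, c = u * v
  norm : ∀ c ∈ C, ∀ t ∈ Q, c * t * c⁻¹ ∈ Q

theorem NilDec.exists' {G : Type*} [Group G] [Finite G] (C : Subgroup G)
    (hC : Group.IsNilpotent C) (p : ℕ) [Fact p.Prime] : ∃ P Q : Subgroup G, NilDec C p P Q := by
  obtain ⟨P, Q, h1, h2, h3, h4, h5, h6, h7, h8⟩ := nilp_decomp C hC p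
  exact ⟨P, Q, ⟨h1, h2, h3, h4, h5, h6, h7, h8⟩⟩

theorem NilDec.mem_Q {G : Type*} [Group G] [Finite G] {C P Q : Subgroup G} {p : ℕ}
    [Fact p.Prime] (h : NilDec C p P Q) {c : G} (hc : c ∈ C) (hcp : (orderOf c).Coprime p) :
    c ∈ Q := by
  obtain ⟨u, hu, v, hv, rfl⟩ := h.prod c hc
  have huv : Commute u v := h.comm v hv u hu
  obtain ⟨k, hk⟩ := h.pP ⟨u, hu⟩
  have hk' : u ^ (p ^ k) = 1 := congrArg Subtype.val hk
  have h1 : u ^ (orderOf (u * v) * Nat.card Q) = 1 := by
    have e1 : (u * v) ^ (orderOf (u * v) * Nat.card Q) = 1 := by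
      rw [pow_mul, pow_orderOf_eq_one, one_pow]
    have e2 : v ^ (orderOf (u * v) * Nat.card Q) = 1 := by
      rw [mul_comm, pow_mul, pow_card_eq_one_of_mem hv, one_pow]
    rw [huv.mul_pow, e2, mul_one] at e1
    exact e1
  have hcop : (orderOf (u * v) * Nat.card Q).Coprime (p ^ k) :=
    Nat.Coprime.pow_right k (Nat.Coprime.mul_left hcp h.cQ)
  have hu1 : u = 1 := eq_one_of_pow_coprime h1 hk' hcop
  rw [hu1, one_mul]; exact hv

theorem NilDec.mem_P {G : Type*} [Group G] [Finite G] {C P Q : Subgroup G} {p : ℕ}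
    [Fact p.Prime] (h : NilDec C p P Q) {c : G} (hc : c ∈ C) {k : ℕ} (hck : c ^ (p ^ k) = 1) :
    c ∈ P := by
  obtain ⟨u, hu, v, hv, rfl⟩ := h.prod c hc
  have huv : Commute u v := h.comm v hv u hu
  obtain ⟨a, ha⟩ := h.pP ⟨u, hu⟩
  have ha' : u ^ (p ^ a) = 1 := congrArg Subtype.val ha
  have h1 : v ^ (p ^ (k + a)) = 1 := by
    have e1 : (u * v) ^ (p ^ (k + a)) = 1 := by
      rw [pow_add, pow_mul, hck, one_pow]
    have e2 : u ^ (p ^ (k + a)) = 1 := by
      rw [pow_add, mul_comm, pow_mul, ha', one_pow]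
    rw [huv.mul_pow, e2, one_mul] at e1
    exact e1
  have hcop : (p ^ (k + a)).Coprime (Nat.card Q) := Nat.Coprime.pow_left _ h.cQ.symm
  have hv1 : v = 1 := eq_one_of_pow_coprime h1 (pow_card_eq_one_of_mem hv) hcop
  rw [hv1, mul_one]; exact hu

/-- The image of a Carter subgroup in a quotient is a Carter subgroup. -/
theorem isCar_map {G : Type u} [Group G] [Finite G] [Group.IsSolvable G] {C : Subgroup G}
    (hC : IsCar C) (N : Subgroup G) [N.Normal] : IsCar (C.map (QuotientGroup.mk' N)) := by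
  haveI := hC.1
  refine ⟨Group.nilpotent_of_surjective ((QuotientGroup.mk' N).subgroupMap C)
    ((QuotientGroup.mk' N).subgroupMap_surjective C), ?_⟩
  apply le_antisymm _ Subgroup.le_normalizer
  intro q hq
  obtain ⟨g, rfl⟩ := QuotientGroup.mk'_surjective N q
  have hg : g ∈ Subgroup.normalizer ((C ⊔ N : Subgroup G) : Set G) := by
    have h1 : g ∈ (Subgroup.normalizer ((C.map (QuotientGroup.mk' N) : Subgroup (G ⧸ N)) :
        Set (G ⧸ N))).comap (QuotientGroup.mk' N) := hq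
    rw [Subgroup.comap_normalizer_eq_of_surjective _ (QuotientGroup.mk'_surjective N),
      Subgroup.comap_map_eq, QuotientGroup.ker_mk'] at h1
    exact h1
  have hL : MulAut.conj g • (C ⊔ N) = C ⊔ N := ((mem_normalizer_iff_conj_smul g _).mp hg)
  have hgC : MulAut.conj g • C ≤ C ⊔ N := by
    rw [← hL]
    exact Subgroup.pointwise_smul_le_pointwise_smul_iff.mpr le_sup_left
  obtain ⟨a, haL, ha⟩ := isCar_conj_of_le (L := C ⊔ N) (carter ↥(C ⊔ N)).2 hC (isCar_conj hC g)
    le_sup_left hgC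
  have h2 : a⁻¹ * g ∈ C := by
    have h3 : a⁻¹ * g ∈ Subgroup.normalizer (C : Set G) := by
      rw [mem_normalizer_iff_conj_smul, conj_mul_smul, ← ha, ← conj_mul_smul, inv_mul_cancel,
        map_one, one_smul]
    rw [hC.2] at h3
    exact h3
  have hgL : g ∈ C ⊔ N := by
    have : g = a * (a⁻¹ * g) := by group
    rw [this]
    exact Subgroup.mul_mem _ haL (Subgroup.mem_sup_left h2)
  have h4 : QuotientGroup.mk' N g ∈ (C ⊔ N).map (QuotientGroup.mk' N) :=
    Subgroup.mem_map_of_mem _ hgL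
  have hN : N.map (QuotientGroup.mk' N) = ⊥ :=
    (Subgroup.map_eq_bot_iff _).mpr (by rw [QuotientGroup.ker_mk'])
  rw [Subgroup.map_sup, hN, sup_bot_eq] at h4
  exact h4


theorem index_eq_pow_factorization {G : Type*} [Group G] [Finite G] (K : Subgroup G) (q : ℕ)
    (hq : q.Prime) (a : ℕ) (hK : K.index = q ^ a) (hc : ¬ q ∣ Nat.card K) :
    K.index = q ^ (Nat.card G).factorization q := by
  have h3 := Subgroup.card_mul_index K
  rw [hK] at h3
  have h4 : (Nat.card G).factorization q = a := by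
    rw [← h3, Nat.factorization_mul Nat.card_pos.ne' (pow_ne_zero _ hq.ne_zero),
      Finsupp.add_apply, Nat.factorization_eq_zero_of_not_dvd hc, Nat.factorization_pow,
      Finsupp.smul_apply, hq.factorization_self]
    simp
  rw [hK, h4]

theorem card_sup_dvd_mul {G : Type*} [Group G] [Finite G] (C N : Subgroup G) [N.Normal] :
    Nat.card ↥(C ⊔ N) ∣ Nat.card N * Nat.card C := by
  have e1 : Nat.card ↥(C ⊔ N) = Nat.card N * N.relIndex (C ⊔ N) := by
    have := Subgroup.card_mul_index (N.subgroupOf (C ⊔ N))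
    rw [Nat.card_congr (Subgroup.subgroupOfEquivOfLe (le_sup_right : N ≤ C ⊔ N)).toEquiv] at this
    exact this.symm
  rw [e1, Subgroup.relIndex_sup_right]
  exact Nat.mul_dvd_mul_left _ (Subgroup.relIndex_dvd_card N C)

/-- Key step: an element of `C N` normalizing a Hall `p'`-subgroup over that of `C` lies in `C`. -/
theorem carter_key {G : Type u} [Group G] [Finite G] {C P Q : Subgroup G} {p : ℕ} [Fact p.Prime]
    (hC : IsCar C) (hd : NilDec C p P Q) (N : Subgroup G) [hNn : N.Normal] (hN : IsPGroup p N)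
    (Kp : Subgroup G) (hKp : (Nat.card Kp).Coprime p) (hQK : Q ≤ Kp) (x : G)
    (hx : x ∈ Subgroup.normalizer (Kp : Set G)) (hxL : x ∈ C ⊔ N) : x ∈ C := by
  have hp : p.Prime := Fact.out
  obtain ⟨a, ha⟩ := IsPGroup.iff_card.mp hN
  obtain ⟨b, hb⟩ := IsPGroup.iff_card.mp hd.pP
  have hB : Kp ⊓ (C ⊔ N) = Q := by
    symm
    apply Subgroup.eq_of_le_of_card_ge (le_inf hQK (hd.hQ.trans le_sup_left))
    have h1 : Nat.card ↥(Kp ⊓ (C ⊔ N)) ∣ Nat.card ↥(C ⊔ N) := Subgroup.card_dvd_of_le inf_le_right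
    have h3 : Nat.card ↥(Kp ⊓ (C ⊔ N)) ∣ Nat.card N * Nat.card P * Nat.card Q := by
      rw [mul_assoc, hd.card]; exact h1.trans (card_sup_dvd_mul C N)
    have h4 : (Nat.card ↥(Kp ⊓ (C ⊔ N))).Coprime (Nat.card N * Nat.card P) := by
      rw [ha, hb, ← pow_add]
      apply Nat.Coprime.pow_right
      exact Nat.Coprime.coprime_dvd_left (Subgroup.card_dvd_of_le inf_le_left) hKp
    exact Nat.le_of_dvd Nat.card_pos (h4.dvd_of_dvd_mul_left h3)
  have hxQ : ∀ t ∈ Q, x * t * x⁻¹ ∈ Q := by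
    intro t ht
    rw [← hB]
    refine Subgroup.mem_inf.mpr ⟨conj_mem_of_mem_normalizer hx (hQK ht), ?_⟩
    exact Subgroup.mul_mem _ (Subgroup.mul_mem _ hxL (Subgroup.mem_sup_left (hd.hQ ht)))
      (Subgroup.inv_mem _ hxL)
  obtain ⟨c, hc, n, hn, rfl⟩ := Subgroup.mem_sup_of_normal_right.mp hxL
  have hnQ : ∀ t ∈ Q, n * t * n⁻¹ ∈ Q := by
    intro t ht
    have h1 := hd.norm c⁻¹ (C.inv_mem hc) _ (hxQ t ht)
    have e : c⁻¹ * (c * n * t * (c * n)⁻¹) * c⁻¹⁻¹ = n * t * n⁻¹ := by group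
    rwa [e] at h1
  have hcopQN : (Nat.card Q).Coprime (Nat.card N) := by
    rw [ha]; exact Nat.Coprime.pow_right a hd.cQ
  have hcomm : ∀ t ∈ Q, n * t = t * n := by
    intro t ht
    have h1 : n * t * n⁻¹ * t⁻¹ ∈ Q := Q.mul_mem (hnQ t ht) (Q.inv_mem ht)
    have h2 : n * t * n⁻¹ * t⁻¹ ∈ N := by
      have e : n * t * n⁻¹ * t⁻¹ = n * (t * n⁻¹ * t⁻¹) := by group
      rw [e]
      exact N.mul_mem hn (hNn.conj_mem _ (N.inv_mem hn) t)
    have h3 := eq_one_of_coprime hcopQN h1 h2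
    calc n * t = (n * t * n⁻¹ * t⁻¹) * (t * n) := by group
      _ = t * n := by rw [h3, one_mul]
  -- N₀ = C_N(Q)
  have hnN₀ : n ∈ N ⊓ Subgroup.centralizer (Q : Set G) := by
    refine Subgroup.mem_inf.mpr ⟨hn, ?_⟩
    rw [Subgroup.mem_centralizer_iff]
    intro t ht
    exact (hcomm t ht).symm
  have hPN₀ : P ≤ Subgroup.normalizer ((N ⊓ Subgroup.centralizer (Q : Set G) : Subgroup G) :
      Set G) := by
    apply Cfsg.Agent.Lib.helper8.le_normalizer_of_conj_mem
    intro u hu m hm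
    obtain ⟨hm1, hm2⟩ := Subgroup.mem_inf.mp hm
    refine Subgroup.mem_inf.mpr ⟨hNn.conj_mem _ hm1 u, ?_⟩
    rw [Subgroup.mem_centralizer_iff] at hm2 ⊢
    intro t ht
    have e1 : u * t = t * u := hd.comm t ht u hu
    have e2 : t * m = m * t := hm2 t ht
    have e3 : u⁻¹ * t = t * u⁻¹ := by
      calc u⁻¹ * t = u⁻¹ * (t * u) * u⁻¹ := by group
        _ = u⁻¹ * (u * t) * u⁻¹ := by rw [e1]
        _ = t * u⁻¹ := by group
    calc t * (u * m * u⁻¹) = (t * u) * m * u⁻¹ := by group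
      _ = u * (t * m) * u⁻¹ := by rw [← e1]; group
      _ = u * m * (t * u⁻¹) := by rw [e2]; group
      _ = u * m * u⁻¹ * t := by rw [← e3]; group
  have hN₀P : N ⊓ Subgroup.centralizer (Q : Set G) ≤ P := by
    by_contra hcon
    have hlt : P < P ⊔ (N ⊓ Subgroup.centralizer (Q : Set G)) := by
      refine lt_of_le_of_ne le_sup_left (fun h => hcon ?_)
      rw [h]; exact le_sup_right
    have hpg : IsPGroup p ↥(P ⊔ (N ⊓ Subgroup.centralizer (Q : Set G))) :=
      IsPGroup.to_sup_of_normal_right' hd.pP (hN.to_le inf_le_left) hPN₀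
    obtain ⟨s, hsA, hsN, hsP⟩ := normalizer_grows hpg hlt
    rw [sup_comm, mem_sup_iff_of_le_normalizer hPN₀] at hsA
    obtain ⟨m, hm, u, hu, rfl⟩ := hsA
    have hmNP : m ∈ Subgroup.normalizer (P : Set G) := by
      have : m = (m * u) * u⁻¹ := by group
      rw [this]
      exact Subgroup.mul_mem _ hsN (Subgroup.inv_mem _ (Subgroup.le_normalizer hu))
    have hmP : m ∉ P := fun h => hsP (P.mul_mem h hu)
    obtain ⟨hm1, hm2⟩ := Subgroup.mem_inf.mp hm
    rw [Subgroup.mem_centralizer_iff] at hm2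
    have hmC : m ∈ Subgroup.normalizer (C : Set G) := by
      apply mem_normalizer_of_forall_conj_mem
      intro c' hc'
      obtain ⟨u', hu', v', hv', rfl⟩ := hd.prod c' hc'
      have e0 : m * v' * m⁻¹ = v' := by rw [← hm2 v' hv']; group
      have e : m * (u' * v') * m⁻¹ = (m * u' * m⁻¹) * (m * v' * m⁻¹) := by group
      rw [e, e0]
      exact C.mul_mem (hd.hP (conj_mem_of_mem_normalizer hmNP hu')) (hd.hQ hv')
    rw [hC.2] at hmC
    obtain ⟨k, hk⟩ := hN ⟨m, hm1⟩
    have hk' : m ^ (p ^ k) = 1 := congrArg Subtype.val hk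
    exact hmP (hd.mem_P hmC hk')
  exact C.mul_mem hc (hd.hP (hN₀P hnN₀))


/-- A Hall subgroup of a preimage containing a given `p'`-subgroup. -/
theorem exists_hall_ge {G : Type u} [Group G] [Finite G] [Group.IsSolvable G] (N : Subgroup G)
    [N.Normal] (p : ℕ) (hp : p.Prime) (hN : IsPGroup p N) (S : Subgroup (G ⧸ N))
    (hS : ¬ p ∣ Nat.card S) (Q : Subgroup G) (hQ : (Nat.card Q).Coprime p)
    (hQM : Q ≤ S.comap (QuotientGroup.mk' N)) :
    ∃ Kp : Subgroup G, Kp ≤ S.comap (QuotientGroup.mk' N) ∧ Q ≤ Kp ∧ Nat.card Kp = Nat.card S := by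
  haveI : Fact p.Prime := ⟨hp⟩
  obtain ⟨a, ha⟩ := IsPGroup.iff_card.mp hN
  obtain ⟨M, hM⟩ : ∃ M, M = S.comap (QuotientGroup.mk' N) := ⟨_, rfl⟩
  rw [← hM] at hQM ⊢
  have hcM : Nat.card M = Nat.card S * Nat.card N := by rw [hM]; exact card_comap_mk N S
  have hcop : (Nat.card S).Coprime (Nat.card N) := by
    rw [ha]
    exact Nat.Coprime.pow_right a ((Nat.Prime.coprime_iff_not_dvd hp).mpr hS).symm
  obtain ⟨H, hH⟩ := hall_exists (G := ↥M) (Nat.card S) (Nat.card N) hcM hcop
  have hQc : (Nat.card (Q.subgroupOf M)).Coprime (Nat.card N) := by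
    rw [Nat.card_congr (Subgroup.subgroupOfEquivOfLe hQM).toEquiv, ha]
    exact Nat.Coprime.pow_right a hQ
  obtain ⟨g, hg⟩ := hall_dominance (G := ↥M) (Nat.card S) (Nat.card N) hcM hcop H
    (Q.subgroupOf M) hH hQc
  refine ⟨(MulAut.conj g • H).map M.subtype, Subgroup.map_subtype_le _, ?_, ?_⟩
  · intro t ht
    exact ⟨⟨t, hQM ht⟩, hg (Subgroup.mem_subgroupOf.mpr ht), rfl⟩
  · rw [Subgroup.card_map_of_injective M.subtype_injective, card_conj_smul, hH]

theorem carter_sysnorm_aux (n : ℕ) : ∀ (G : Type u) [Group G] [Finite G] [Group.IsSolvable G],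
    Nat.card G ≤ n → ∀ C : Subgroup G, IsCar C →
    ∃ K : Nat.Primes → Subgroup G, Cfsg.IsComplementSystem K ∧ Cfsg.systemNormalizer K ≤ C ∧
      ∀ (q : Nat.Primes) (x : G), x ∈ C → (orderOf x).Coprime q → x ∈ K q := by
  induction n with
  | zero =>
    intro G _ _ _ h
    have := Nat.card_pos (α := G)
    omega
  | succ n ih =>
    intro G _ _ _ hcard C hC
    by_cases hnt : Nontrivial G
    swap
    · rw [not_nontrivial_iff_subsingleton] at hnt
      refine ⟨fun _ => ⊤, ?_, ?_, ?_⟩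
      · intro q
        have h1 : Nat.card G = 1 := Nat.card_eq_one_iff_unique.mpr ⟨hnt, ⟨1⟩⟩
        simp
      · intro x _
        rw [Subsingleton.elim x 1]; exact C.one_mem
      · intro q x _ _
        exact Subgroup.mem_top x
    obtain ⟨p, hp, N, hNn, hNp, hNbot⟩ := exists_normal_pgroup_ne_bot G
    haveI := hNn
    haveI : Fact p.Prime := ⟨hp⟩
    obtain ⟨a, ha⟩ := IsPGroup.iff_card.mp hNp
    have hcardq : Nat.card (G ⧸ N) ≤ n := by
      have h1 := Subgroup.card_eq_card_quotient_mul_card_subgroup N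
      have h2 : 1 < Nat.card N := by
        have h4 : Nat.card N ≠ 1 := fun h => hNbot (Subgroup.card_eq_one.mp h)
        have h5 : 0 < Nat.card N := Nat.card_pos
        omega
      have h3 : 0 < Nat.card (G ⧸ N) := Nat.card_pos
      nlinarith
    obtain ⟨Kb, hKb, hDb, hRb⟩ := ih (G ⧸ N) hcardq (C.map (QuotientGroup.mk' N)) (isCar_map hC N)
    obtain ⟨P, Q, hd⟩ := NilDec.exists' C hC.1 p
    have hKbp : ¬ p ∣ Nat.card (Kb ⟨p, hp⟩) := not_dvd_card_of_complementSystem hKb ⟨p, hp⟩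
    have hQM : Q ≤ (Kb ⟨p, hp⟩).comap (QuotientGroup.mk' N) := by
      intro t ht
      rw [Subgroup.mem_comap]
      apply hRb ⟨p, hp⟩ _ (Subgroup.mem_map_of_mem _ (hd.hQ ht))
      have h1 : orderOf (QuotientGroup.mk' N t) ∣ orderOf t := orderOf_map_dvd _ t
      have h2 : orderOf t ∣ Nat.card Q := orderOf_dvd_of_pow_eq_one (pow_card_eq_one_of_mem ht)
      exact Nat.Coprime.coprime_dvd_left (h1.trans h2) hd.cQ
    obtain ⟨Kp, hKpM, hQKp, hKpcard⟩ := exists_hall_ge N p hp hNp (Kb ⟨p, hp⟩) hKbp Q hd.cQ hQM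
    have hKpcop : (Nat.card Kp).Coprime p := by
      rw [hKpcard]; exact ((Nat.Prime.coprime_iff_not_dvd hp).mpr hKbp).symm
    classical
    obtain ⟨K, hKdef⟩ : ∃ K : Nat.Primes → Subgroup G, K = fun q : Nat.Primes =>
        if (q : ℕ) = p then Kp else (Kb q).comap (QuotientGroup.mk' N) := ⟨_, rfl⟩
    have hKp_eq : K ⟨p, hp⟩ = Kp := by rw [hKdef]; simp
    have hKq_eq : ∀ q : Nat.Primes, (q : ℕ) ≠ p → K q = (Kb q).comap (QuotientGroup.mk' N) := by
      intro q hq; rw [hKdef]; simp [hq]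
    have hqp : ∀ q : Nat.Primes, (q : ℕ) = p → q = ⟨p, hp⟩ := fun q hq => Subtype.ext hq
    have hcG : Nat.card G = Nat.card (G ⧸ N) * Nat.card N :=
      Subgroup.card_eq_card_quotient_mul_card_subgroup N
    have hK : Cfsg.IsComplementSystem K := by
      intro q
      by_cases hq : (q : ℕ) = p
      · rw [hqp q hq, hKp_eq]
        show Kp.index = p ^ (Nat.card G).factorization p
        obtain ⟨v, hv⟩ : ∃ v, Nat.card (Kb ⟨p, hp⟩) * p ^ v = Nat.card (G ⧸ N) :=
          ⟨_, by have := Subgroup.card_mul_index (Kb ⟨p, hp⟩); rw [hKb ⟨p, hp⟩] at this; exact this⟩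
        apply index_eq_pow_factorization Kp p hp (v + a)
        · have h1 := Subgroup.card_mul_index Kp
          have h3 : Nat.card Kp * Kp.index = Nat.card Kp * p ^ (v + a) := by
            rw [h1, hcG, ← hv, ha, hKpcard, pow_add]
            ring
          exact Nat.eq_of_mul_eq_mul_left Nat.card_pos h3
        · exact fun h => (Nat.Prime.coprime_iff_not_dvd hp).mp hKpcop.symm h
      · rw [hKq_eq q hq]
        apply index_eq_pow_factorization _ (q : ℕ) q.2 ((Nat.card (G ⧸ N)).factorization q)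
        · rw [Subgroup.index_comap_of_surjective _ (QuotientGroup.mk'_surjective N)]
          exact hKb q
        · rw [card_comap_mk, ha]
          intro h
          rcases (Nat.Prime.dvd_mul q.2).mp h with h1 | h1
          · exact not_dvd_card_of_complementSystem hKb q h1
          · exact hq ((Nat.prime_dvd_prime_iff_eq q.2 hp).mp (q.2.dvd_of_dvd_pow h1))
    have hmapK : (fun q => (K q).map (QuotientGroup.mk' N)) = Kb := by
      funext q
      by_cases hq : (q : ℕ) = p
      · rw [hqp q hq, hKp_eq]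
        apply Subgroup.eq_of_le_of_card_ge (Subgroup.map_le_iff_le_comap.mpr hKpM)
        have hdisj : Disjoint Kp N := by
          apply Subgroup.disjoint_of_coprime_natCard
          rw [ha]; exact Nat.Coprime.pow_right a hKpcop
        rw [card_map_mk_of_disjoint N Kp hdisj, hKpcard]
      · rw [hKq_eq q hq]
        exact Subgroup.map_comap_eq_self_of_surjective (QuotientGroup.mk'_surjective N) _
    refine ⟨K, hK, ?_, ?_⟩
    · intro x hx
      have h1 : QuotientGroup.mk' N x ∈ (Cfsg.systemNormalizer K).map (QuotientGroup.mk' N) :=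
        Subgroup.mem_map_of_mem _ hx
      rw [← systemNormalizer_map K hK N, hmapK] at h1
      have h2 : x ∈ (C.map (QuotientGroup.mk' N)).comap (QuotientGroup.mk' N) := hDb h1
      rw [Subgroup.comap_map_eq, QuotientGroup.ker_mk'] at h2
      have h3 : x ∈ Subgroup.normalizer (Kp : Set G) := by
        have h4 : x ∈ ⨅ q : Nat.Primes, Subgroup.normalizer (K q : Set G) := hx
        rw [Subgroup.mem_iInf] at h4
        have := h4 ⟨p, hp⟩
        rwa [hKp_eq] at this
      exact carter_key hC hd N hNp Kp hKpcop hQKp x h3 h2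
    · intro q x hxC hxq
      by_cases hq : (q : ℕ) = p
      · rw [hqp q hq, hKp_eq]
        apply hQKp
        apply hd.mem_Q hxC
        rw [← hq]; exact hxq
      · rw [hKq_eq q hq, Subgroup.mem_comap]
        apply hRb q _ (Subgroup.mem_map_of_mem _ hxC)
        exact Nat.Coprime.coprime_dvd_left (orderOf_map_dvd _ x) hxq

/-- Every Carter subgroup of a finite solvable group contains a system normalizer. -/
theorem carter_contains_sysnorm {G : Type u} [Group G] [Finite G] [Group.IsSolvable G]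
    (C : Subgroup G) (hC : IsCar C) :
    ∃ K : Nat.Primes → Subgroup G, Cfsg.IsComplementSystem K ∧ Cfsg.systemNormalizer K ≤ C := by
  obtain ⟨K, hK, hD, -⟩ := carter_sysnorm_aux (Nat.card G) G le_rfl C hC
  exact ⟨K, hK, hD⟩

/-- System normalizers of conjugate systems. -/
theorem sysnorm_conj {G : Type u} [Group G] (K L : Nat.Primes → Subgroup G) (g : G)
    (hg : ∀ p : Nat.Primes, MulAut.conj g • K p = L p) :
    Cfsg.systemNormalizer L = MulAut.conj g • Cfsg.systemNormalizer K := by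
  ext x
  rw [Cfsg.Agent.Lib.helper1.mem_conj_smul]
  unfold Cfsg.systemNormalizer
  rw [Subgroup.mem_iInf, Subgroup.mem_iInf]
  constructor
  · intro h p
    have h1 := h p
    rw [← hg p, mem_normalizer_iff_conj_smul, ← conj_mul_smul] at h1
    rw [mem_normalizer_iff_conj_smul]
    have h2 : MulAut.conj g⁻¹ • MulAut.conj (x * g) • K p = MulAut.conj g⁻¹ • MulAut.conj g • K p := by
      rw [h1]
    rw [← conj_mul_smul, ← conj_mul_smul, inv_mul_cancel, map_one, one_smul] at h2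
    have e : g⁻¹ * (x * g) = g⁻¹ * x * g := by group
    rw [e] at h2
    exact h2
  · intro h p
    have h1 := h p
    rw [mem_normalizer_iff_conj_smul] at h1
    rw [← hg p, mem_normalizer_iff_conj_smul, ← conj_mul_smul]
    have e : x * g = g * (g⁻¹ * x * g) := by group
    rw [e, conj_mul_smul, h1]

/-- Every system normalizer of a finite solvable group lies in a Carter subgroup. -/
theorem sysnorm_le_carter {G : Type u} [Group G] [Finite G] [Group.IsSolvable G]
    (K : Nat.Primes → Subgroup G) (hK : Cfsg.IsComplementSystem K) :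
    ∃ C : Subgroup G, IsCar C ∧ Cfsg.systemNormalizer K ≤ C := by
  obtain ⟨C, hC⟩ := (carter G).1
  obtain ⟨K₀, hK₀, hD₀⟩ := carter_contains_sysnorm C hC
  obtain ⟨g, hg⟩ := conj_system K₀ K hK₀ hK
  refine ⟨MulAut.conj g • C, isCar_conj hC g, ?_⟩
  rw [sysnorm_conj K₀ K g hg]
  exact Subgroup.pointwise_smul_le_pointwise_smul_iff.mpr hD₀

end Cfsg.Agent.Lib.helper14
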