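import Mathlib
import Cfsg.Agent.Lib.helper14.CarterSys
import Cfsg.Agent.Lib.helper7.Fitting
import Cfsg.Agent.Lib.helper3.Subnormal

set_option autoImplicit false
set_option linter.style.haveILetI false
open Pointwise

namespace Cfsg.Agent.Lib.helper14

open Cfsg.Agent.Lib.helper1 Cfsg.Agent.Lib.helper3 Cfsg.Agent.Lib.helper8

universe u

/-- In a finite nilpotent group every system normalizer is the whole group. -/
theorem sysnorm_eq_top_of_nilpotent {G : Type u} [Group G] [Finite G] (hG : Group.IsNilpotent G)
    (K : Nat.Primes → Subgroup G) (hK : Cfsg.IsComplementSystem K) :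
    Cfsg.systemNormalizer K = ⊤ := by
  rw [eq_top_iff]
  intro x _
  unfold Cfsg.systemNormalizer
  rw [Subgroup.mem_iInf]
  intro q
  haveI : Fact (q : ℕ).Prime := ⟨q.2⟩
  have hTn : Group.IsNilpotent (⊤ : Subgroup G) := Group.nilpotent_of_mulEquiv Subgroup.topEquiv.symm
  obtain ⟨P, Q, hd⟩ := NilDec.exists' (⊤ : Subgroup G) hTn q
  have hKq : ¬ (q : ℕ) ∣ Nat.card (K q) := not_dvd_card_of_complementSystem hK q
  have hle : K q ≤ Q := by
    intro y hy
    apply hd.mem_Q (Subgroup.mem_top y)
    have h1 : orderOf y ∣ Nat.card (K q) := orderOf_dvd_of_pow_eq_one (pow_card_eq_one_of_mem hy)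
    exact Nat.Coprime.coprime_dvd_left h1 ((Nat.Prime.coprime_iff_not_dvd q.2).mpr hKq).symm
  have heq : K q = Q := by
    apply Subgroup.eq_of_le_of_card_ge hle
    obtain ⟨b, hb⟩ := IsPGroup.iff_card.mp hd.pP
    have h1 := Subgroup.card_mul_index (K q)
    rw [hK q] at h1
    have h2 : Nat.card Q ∣ Nat.card (K q) * (q : ℕ) ^ (Nat.card G).factorization q := by
      rw [h1, ← Subgroup.card_top (G := G), ← hd.card]
      exact dvd_mul_left _ _
    have h3 : (Nat.card Q).Coprime ((q : ℕ) ^ (Nat.card G).factorization q) :=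
      Nat.Coprime.pow_right _ hd.cQ
    exact Nat.le_of_dvd Nat.card_pos (h3.dvd_of_dvd_mul_right h2)
  rw [heq]
  apply mem_normalizer_of_forall_conj_mem
  intro t ht
  exact hd.norm x (Subgroup.mem_top x) t ht


theorem exists_central_in_normal {G : Type*} [Group G] (M : Subgroup G)
    (hM : Group.IsNilpotent M) (N : Subgroup G) [N.Normal] (hNM : N ≤ M) (hN : N ≠ ⊥) :
    ∃ z ∈ N, z ≠ 1 ∧ ∀ m ∈ M, m * z = z * m := by
  haveI := hM
  have hN' : N.subgroupOf M ≠ ⊥ := by
    intro h
    rw [Subgroup.subgroupOf_eq_bot] at h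
    exact hN (by rw [← inf_eq_left.mpr hNM]; exact disjoint_iff.mp h)
  have h1 := Cfsg.Agent.Lib.helper7.nilpotent_normal_inf_center_ne_bot (N.subgroupOf M) hN'
  obtain ⟨a, ha⟩ := (Subgroup.ne_bot_iff_exists_ne_one).mp h1
  obtain ⟨ha1, ha2⟩ := Subgroup.mem_inf.mp a.2
  refine ⟨((a : M) : G), Subgroup.mem_subgroupOf.mp ha1, ?_, ?_⟩
  · intro h
    apply ha
    apply Subtype.ext
    apply Subtype.ext
    exact h
  · intro m hm
    have := (Subgroup.mem_center_iff.mp ha2) ⟨m, hm⟩
    exact congrArg Subtype.val this

theorem carter_eq_sysnorm_aux (n : ℕ) : ∀ (G : Type u) [Group G] [Finite G] [Group.IsSolvable G],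
    Nat.card G ≤ n → ∀ (F : Subgroup G) [F.Normal], Group.IsNilpotent F →
    Group.IsNilpotent (G ⧸ F) →
    ∀ (C : Subgroup G) (K : Nat.Primes → Subgroup G), IsCar C → Cfsg.IsComplementSystem K →
      Cfsg.systemNormalizer K ≤ C → C ≤ Cfsg.systemNormalizer K := by
  induction n with
  | zero =>
    intro G _ _ _ h
    have := Nat.card_pos (α := G)
    omega
  | succ n ih =>
    intro G _ _ _ hcard F hFn hF hGF C K hC hK hD
    by_cases hFb : F = ⊥
    · -- G nilpotent
      have hG : Group.IsNilpotent G := by
        subst hFb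
        exact Group.nilpotent_of_mulEquiv (QuotientGroup.quotientBot (G := G))
      rw [sysnorm_eq_top_of_nilpotent hG K hK]
      exact le_top
    obtain ⟨N, hNmin, hNF⟩ := exists_minNormal_le F hFn hFb
    obtain ⟨hNn, hNbot, hNminimal⟩ := hNmin
    haveI := hNn
    -- F centralizes N
    have hFN : ∀ f ∈ F, ∀ m ∈ N, f * m = m * f := by
      haveI : (Subgroup.centralizer (F : Set G)).Normal := Subgroup.normal_centralizer
      have hZn : (N ⊓ Subgroup.centralizer (F : Set G)).Normal := inferInstance
      obtain ⟨z, hzN, hz1, hzF⟩ := exists_central_in_normal F hF N hNF hNbot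
      have hZ : N ⊓ Subgroup.centralizer (F : Set G) = N := by
        rcases hNminimal _ hZn inf_le_left with h | h
        · exfalso
          apply hz1
          have : z ∈ N ⊓ Subgroup.centralizer (F : Set G) := by
            refine Subgroup.mem_inf.mpr ⟨hzN, ?_⟩
            rw [Subgroup.mem_centralizer_iff]
            exact hzF
          rw [h] at this
          exact Subgroup.mem_bot.mp this
        · exact h
      intro f hf m hm
      have : m ∈ N ⊓ Subgroup.centralizer (F : Set G) := by rw [hZ]; exact hm
      exact (Subgroup.mem_centralizer_iff.mp (Subgroup.mem_inf.mp this).2) f hf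
    -- quotient by N
    have hcardq : Nat.card (G ⧸ N) ≤ n := by
      have h1 := Subgroup.card_eq_card_quotient_mul_card_subgroup N
      have h2 : 1 < Nat.card N := by
        have h4 : Nat.card N ≠ 1 := fun h => hNbot (Subgroup.card_eq_one.mp h)
        have h5 : 0 < Nat.card N := Nat.card_pos
        omega
      have h3 : 0 < Nat.card (G ⧸ N) := Nat.card_pos
      nlinarith
    haveI hFbn : (F.map (QuotientGroup.mk' N)).Normal :=
      Subgroup.Normal.map hFn _ (QuotientGroup.mk'_surjective N)
    have hFbnil : Group.IsNilpotent (F.map (QuotientGroup.mk' N)) := by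
      haveI := hF
      exact Group.nilpotent_of_surjective ((QuotientGroup.mk' N).subgroupMap F)
        ((QuotientGroup.mk' N).subgroupMap_surjective F)
    have hQnil : Group.IsNilpotent ((G ⧸ N) ⧸ F.map (QuotientGroup.mk' N)) := by
      haveI := hGF
      have hle : F ≤ (F.map (QuotientGroup.mk' N)).comap (QuotientGroup.mk' N) :=
        Subgroup.le_comap_map _ _
      apply Group.nilpotent_of_surjective
        (QuotientGroup.map F (F.map (QuotientGroup.mk' N)) (QuotientGroup.mk' N) hle)
      intro y
      obtain ⟨y', rfl⟩ := QuotientGroup.mk'_surjective _ y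
      obtain ⟨g, rfl⟩ := QuotientGroup.mk'_surjective N y'
      exact ⟨QuotientGroup.mk' F g, rfl⟩
    have hKb := complementSystem_map K hK N
    have hDb := systemNormalizer_map K hK N
    have hih := ih (G ⧸ N) hcardq (F.map (QuotientGroup.mk' N)) hFbnil hQnil
      (C.map (QuotientGroup.mk' N)) (fun p => (K p).map (QuotientGroup.mk' N)) (isCar_map hC N) hKb
      (by rw [hDb]; exact Subgroup.map_mono hD)
    rw [hDb] at hih
    -- G = C ⊔ F
    have hCF : C ⊔ F = ⊤ := by
      have h1 := isCar_eq_top_of_nilpotent hGF (isCar_map hC F).2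
      have h2 : (C.map (QuotientGroup.mk' F)).comap (QuotientGroup.mk' F) = ⊤ := by
        rw [h1, Subgroup.comap_top]
      rwa [Subgroup.comap_map_eq, QuotientGroup.ker_mk'] at h2
    -- N ⊓ C ≤ D
    have hNC : N ⊓ C ≤ Cfsg.systemNormalizer K := by
      by_cases hcen : N ≤ Subgroup.center G
      · intro m hm
        have hmc := hcen (Subgroup.mem_inf.mp hm).1
        unfold Cfsg.systemNormalizer
        rw [Subgroup.mem_iInf]
        intro q
        rw [Subgroup.mem_normalizer_iff]
        intro h
        have e : m * h * m⁻¹ = h := by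
          rw [← (Subgroup.mem_center_iff.mp hmc) h]; group
        rw [e]
      · have hnorm : (N ⊓ C).Normal := by
          rw [← Subgroup.normalizer_eq_top_iff, eq_top_iff, ← hCF]
          apply sup_le
          · apply Cfsg.Agent.Lib.helper8.le_normalizer_of_conj_mem
            intro c hc m hm
            obtain ⟨hm1, hm2⟩ := Subgroup.mem_inf.mp hm
            exact Subgroup.mem_inf.mpr ⟨hNn.conj_mem _ hm1 c, C.mul_mem (C.mul_mem hc hm2)
              (C.inv_mem hc)⟩
          · apply Cfsg.Agent.Lib.helper8.le_normalizer_of_conj_mem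
            intro f hf m hm
            obtain ⟨hm1, hm2⟩ := Subgroup.mem_inf.mp hm
            have e : f * m * f⁻¹ = m := by rw [hFN f hf m hm1]; group
            rw [e]; exact hm
        rcases hNminimal _ hnorm inf_le_left with h | h
        · rw [h]; exact bot_le
        · exfalso
          apply hcen
          have hNC' : N ≤ C := by rw [← h]; exact inf_le_right
          obtain ⟨z, hzN, hz1, hzC⟩ := exists_central_in_normal C hC.1 N hNC' hNbot
          have hzcen : z ∈ Subgroup.center G := by
            have h1 : (⊤ : Subgroup G) ≤ Subgroup.centralizer ({z} : Set G) := by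
              rw [← hCF]
              apply sup_le
              · intro c hc
                rw [Subgroup.mem_centralizer_singleton_iff]
                exact hzC c hc
              · intro f hf
                rw [Subgroup.mem_centralizer_singleton_iff]
                exact hFN f hf z hzN
            rw [Subgroup.mem_center_iff]
            intro g
            have := h1 (Subgroup.mem_top g)
            rw [Subgroup.mem_centralizer_singleton_iff] at this
            exact this
          have hZn : (N ⊓ Subgroup.center G).Normal := inferInstance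
          rcases hNminimal _ hZn inf_le_left with h' | h'
          · exfalso
            apply hz1
            have : z ∈ N ⊓ Subgroup.center G := Subgroup.mem_inf.mpr ⟨hzN, hzcen⟩
            rw [h'] at this
            exact Subgroup.mem_bot.mp this
          · rw [← h']; exact inf_le_right
    intro c hc
    have h1 : QuotientGroup.mk' N c ∈ (Cfsg.systemNormalizer K).map (QuotientGroup.mk' N) :=
      hih (Subgroup.mem_map_of_mem _ hc)
    obtain ⟨d, hd, hdc⟩ := Subgroup.mem_map.mp h1
    have h2 : d⁻¹ * c ∈ N := QuotientGroup.eq.mp hdc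
    have h3 : d⁻¹ * c ∈ N ⊓ C := Subgroup.mem_inf.mpr ⟨h2, C.mul_mem (C.inv_mem (hD hd)) hc⟩
    have h4 : c = d * (d⁻¹ * c) := by group
    rw [h4]
    exact Subgroup.mul_mem _ hd (hNC h3)

/-- Nilpotent-by-nilpotent groups: Carter subgroups are exactly the system normalizers. -/
theorem carter_iff_sysnorm {G : Type u} [Group G] [Finite G] (F : Subgroup G) [F.Normal]
    (hF : Group.IsNilpotent F) (hGF : Group.IsNilpotent (G ⧸ F)) (C : Subgroup G) :
    IsCar C ↔ ∃ K : Nat.Primes → Subgroup G, Cfsg.IsComplementSystem K ∧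
      C = Cfsg.systemNormalizer K := by
  haveI : Group.IsSolvable G := by
    haveI := hF
    haveI := hGF
    exact Group.isSolvable_of_ker_le_range F.subtype (QuotientGroup.mk' F)
      (by rw [QuotientGroup.ker_mk', Subgroup.range_subtype])
  have key : ∀ C₀ : Subgroup G, IsCar C₀ → ∃ K : Nat.Primes → Subgroup G,
      Cfsg.IsComplementSystem K ∧ C₀ = Cfsg.systemNormalizer K := by
    intro C₀ hC₀
    obtain ⟨K, hK, hD⟩ := carter_contains_sysnorm C₀ hC₀
    exact ⟨K, hK, le_antisymm
      (carter_eq_sysnorm_aux (Nat.card G) G le_rfl F hF hGF C₀ K hC₀ hK hD) hD⟩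
  constructor
  · exact key C
  · rintro ⟨K, hK, rfl⟩
    obtain ⟨C₀, hC₀⟩ := (carter G).1
    obtain ⟨K₀, hK₀, hCK₀⟩ := key C₀ hC₀
    obtain ⟨g, hg⟩ := conj_system K₀ K hK₀ hK
    rw [sysnorm_conj K₀ K g hg, ← hCK₀]
    exact isCar_conj hC₀ g

end Cfsg.Agent.Lib.helper14
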