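import Mathlib
import Cfsg.Agent.Lib.helper7.DihFus2

set_option autoImplicit false
set_option linter.style.haveILetI false
open scoped Pointwise

namespace Cfsg.Agent.Lib.helper14

open Subgroup Cfsg.Agent.Lib.helper7

theorem mem_map_conj_k4 {X : Type*} [Group X] (U : Subgroup X) (g x : X) :
    x ∈ U.map (MulAut.conj g).toMonoidHom ↔ g⁻¹ * x * g ∈ U := by
  constructor
  · rintro ⟨y, hy, rfl⟩
    have : g⁻¹ * ((MulAut.conj g).toMonoidHom y) * g = y := by
      simp [MulAut.conj_apply, mul_assoc]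
    rw [this]; exact hy
  · intro h
    exact ⟨g⁻¹ * x * g, h, by simp [MulAut.conj_apply, mul_assoc]⟩

theorem map_conj_mul_k4 {X : Type*} [Group X] (V : Subgroup X) (c g : X) :
    (V.map (MulAut.conj g).toMonoidHom).map (MulAut.conj c).toMonoidHom =
      V.map (MulAut.conj (c * g)).toMonoidHom := by
  ext x
  rw [mem_map_conj_k4, mem_map_conj_k4, mem_map_conj_k4]
  have : (c * g)⁻¹ * x * (c * g) = g⁻¹ * (c⁻¹ * x * c) * g := by group
  rw [this]

theorem map_conj_one_k4 {X : Type*} [Group X] (V : Subgroup X) :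
    V.map (MulAut.conj (1 : X)).toMonoidHom = V := by
  ext x
  rw [mem_map_conj_k4]
  simp

theorem klein_map_conj {X : Type*} [Group X] (U : Subgroup X) (hU : IsKleinFour U) (g : X) :
    IsKleinFour (U.map (MulAut.conj g).toMonoidHom) := by
  have e : U ≃* U.map (MulAut.conj g).toMonoidHom :=
    U.equivMapOfInjective _ (MulAut.conj g).injective
  refine ⟨?_, ?_⟩
  · rw [← Nat.card_congr e.toEquiv]; exact hU.card_four
  · rw [← Monoid.exponent_eq_of_mulEquiv e]; exact hU.exponent_two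

theorem conj_le_sylow_two_k4 {X : Type*} [Group X] [Finite X] (S : Sylow 2 X) (V : Subgroup X)
    (hV : IsPGroup 2 V) : ∃ g : X, V.map (MulAut.conj g).toMonoidHom ≤ S := by
  haveI : Fact (Nat.Prime 2) := ⟨Nat.prime_two⟩
  obtain ⟨Q, hQ⟩ := hV.exists_le_sylow
  obtain ⟨g, hg⟩ := MulAction.exists_smul_eq X Q S
  refine ⟨g, ?_⟩
  rintro _ ⟨x, hx, rfl⟩
  have h2 : MulAut.conj g • x ∈ MulAut.conj g • (Q : Subgroup X) :=
    Subgroup.smul_mem_pointwise_smul _ _ _ (hQ hx)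
  rw [← Sylow.coe_subgroup_smul, hg] at h2
  simpa [MulAut.smul_def] using h2

theorem four_conj_k4 {X : Type*} [Group X] (V : Subgroup X) (z u : X)
    (hV : ∀ x, x ∈ V ↔ x = 1 ∨ x = z ∨ x = u ∨ x = z * u) (c : X) (x : X) :
    x ∈ V.map (MulAut.conj c).toMonoidHom ↔
      x = 1 ∨ x = c * z * c⁻¹ ∨ x = c * u * c⁻¹ ∨ x = (c * z * c⁻¹) * (c * u * c⁻¹) := by
  rw [mem_map_conj_k4, hV]
  have e : ∀ y : X, c⁻¹ * x * c = y ↔ x = c * y * c⁻¹ := by
    intro y
    constructor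
    · intro h; rw [← h]; group
    · intro h; rw [h]; group
  rw [e, e, e, e]
  have e1 : c * 1 * c⁻¹ = 1 := by group
  have e2 : c * (z * u) * c⁻¹ = (c * z * c⁻¹) * (c * u * c⁻¹) := by group
  rw [e1, e2]


theorem s1256_part1 {X : Type*} [Group X] [Finite X] (S : Sylow 2 X) (hc : Nat.card S = 4)
    (U V : Subgroup X) (hU : IsKleinFour U) (hV : IsKleinFour V) :
    ∃ x : X, U.map (MulAut.conj x).toMonoidHom = V := by
  have key : ∀ W : Subgroup X, IsKleinFour W →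
      ∃ g : X, W.map (MulAut.conj g).toMonoidHom = (S : Subgroup X) := by
    intro W hW
    have hp : IsPGroup 2 W := by
      apply IsPGroup.of_card (n := 2)
      rw [hW.card_four]; norm_num
    obtain ⟨g, hg⟩ := conj_le_sylow_two_k4 S W hp
    refine ⟨g, Subgroup.eq_of_le_of_card_ge hg ?_⟩
    rw [(klein_map_conj W hW g).card_four]
    exact hc.le
  obtain ⟨g, hg⟩ := key U hU
  obtain ⟨g', hg'⟩ := key V hV
  refine ⟨g'⁻¹ * g, ?_⟩
  rw [← map_conj_mul_k4, hg, ← hg', map_conj_mul_k4, inv_mul_cancel, map_conj_one_k4]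

theorem s1256_part2 {X : Type*} [Group X] [Finite X] (S : Sylow 2 X) (m : ℕ) (hm : 2 ≤ m)
    (eS : (S : Subgroup X) ≃* DihedralGroup m) (hc : 4 < Nat.card S) :
    ∃ U₁ U₂ : Subgroup X, IsKleinFour U₁ ∧ IsKleinFour U₂ ∧
      ¬ (∃ x : X, U₁.map (MulAut.conj x).toMonoidHom = U₂) ∧
      ∀ V : Subgroup X, IsKleinFour V → (∃ x : X, V.map (MulAut.conj x).toMonoidHom = U₁) ∨
        (∃ x : X, V.map (MulAut.conj x).toMonoidHom = U₂) := by
  haveI : Fact (Nat.Prime 2) := ⟨Nat.prime_two⟩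
  obtain ⟨ρ, σ, j, hD, hmj, hcard, hrel, hje⟩ := dih_data2 S m hm eS
  have hcS : Nat.card (S : Subgroup X) = Nat.card S := rfl
  have hm4 : 4 ≤ m := by rw [← hcS, hcard] at hc; omega
  have hje' : Even j := hje hm4
  obtain ⟨v, hvS, hvz, hvu⟩ := hD.exists_v hje'
  have hzσ : ρ ^ j * σ = σ * ρ ^ j := (hD.z_central σ hD.hσ).symm
  have hzτ : ρ ^ j * (ρ * σ) = (ρ * σ) * ρ ^ j := (hD.z_central _ hD.τS).symm
  have hzσ_ne : ρ ^ j ≠ σ := fun h => hD.hσQ (h ▸ hD.zQ)
  have hzτ_ne : ρ ^ j ≠ ρ * σ := fun h => hD.τQ (h ▸ hD.zQ)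
  have hK1 := fourGp_klein (ρ ^ j) σ hD.zz hD.σσ hzσ hD.z_ne hD.σ_ne hzσ_ne
  have hK2 := fourGp_klein (ρ ^ j) (ρ * σ) hD.zz hD.ττ hzτ hD.z_ne hD.τ_ne hzτ_ne
  -- abbreviations
  obtain ⟨z, hz⟩ : ∃ z, z = ρ ^ j := ⟨_, rfl⟩
  obtain ⟨τ, hτ⟩ : ∃ τ, τ = ρ * σ := ⟨_, rfl⟩
  obtain ⟨U₁, hU₁⟩ : ∃ U₁, U₁ = fourGp (ρ ^ j) σ hD.zz hD.σσ hzσ := ⟨_, rfl⟩
  obtain ⟨U₂, hU₂⟩ : ∃ U₂, U₂ = fourGp (ρ ^ j) (ρ * σ) hD.zz hD.ττ hzτ := ⟨_, rfl⟩
  have hm1 : ∀ x, x ∈ U₁ ↔ x = 1 ∨ x = z ∨ x = σ ∨ x = z * σ := by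
    intro x; rw [hU₁, hz]; exact mem_fourGp _ _ _ _ _ x
  have hm2 : ∀ x, x ∈ U₂ ↔ x = 1 ∨ x = z ∨ x = τ ∨ x = z * τ := by
    intro x; rw [hU₂, hz, hτ]; exact mem_fourGp _ _ _ _ _ x
  rw [← hU₁] at hK1
  rw [← hU₂] at hK2
  rw [← hz] at hvz hvu hzσ hzτ hzσ_ne hzτ_ne
  rw [← hτ] at hzτ hzτ_ne
  have hzz : z * z = 1 := by rw [hz]; exact hD.zz
  have hz1 : z ≠ 1 := by rw [hz]; exact hD.z_ne
  have hzS : z ∈ (S : Subgroup X) := by rw [hz]; exact hD.zS
  have hzQ : z ∈ zpowers ρ := by rw [hz]; exact hD.zQ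
  have hzc : ∀ x ∈ (S : Subgroup X), x * z = z * x := by
    intro x hx; rw [hz]; exact hD.z_central x hx
  have hτS : τ ∈ (S : Subgroup X) := by rw [hτ]; exact hD.τS
  have hτQ : τ ∉ zpowers ρ := by rw [hτ]; exact hD.τQ
  have hττ : τ * τ = 1 := by rw [hτ]; exact hD.ττ
  have hσσ : σ * σ = 1 := hD.σσ
  have hσ1 : σ ≠ 1 := hD.σ_ne
  -- products with z stay reflections
  have hzrefl : ∀ u ∈ (S : Subgroup X), u ∉ zpowers ρ →
      z * u ∈ (S : Subgroup X) ∧ z * u ∉ zpowers ρ := by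
    intro u hu huQ
    refine ⟨Subgroup.mul_mem _ hzS hu, fun h => huQ ?_⟩
    have : u = z⁻¹ * (z * u) := by group
    rw [this]; exact Subgroup.mul_mem _ (Subgroup.inv_mem _ hzQ) h
  -- v normalizes the four-groups
  have hvnorm : ∀ (U : Subgroup X) (u : X), u ∈ (S : Subgroup X) → u ∉ zpowers ρ →
      (∀ x, x ∈ U ↔ x = 1 ∨ x = z ∨ x = u ∨ x = z * u) →
      U.map (MulAut.conj v).toMonoidHom = U := by
    intro U u hu huQ hU
    ext x
    rw [four_conj_k4 U z u hU v x, hvz, hvu u hu huQ, hU]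
    have e : z * (z * u) = u := by rw [← mul_assoc, hzz, one_mul]
    rw [e]
    tauto
  have hv1 := hvnorm U₁ σ hD.hσ hD.hσQ hm1
  have hv2 := hvnorm U₂ τ hτS hτQ hm2
  refine ⟨U₁, U₂, hK1, hK2, ?_, ?_⟩
  · rintro ⟨g, hg⟩
    -- Step A: arrange that g centralizes z
    have stepA : ∃ g' : X, U₁.map (MulAut.conj g').toMonoidHom = U₂ ∧ g' * z * g'⁻¹ = z := by
      have hginv : U₂.map (MulAut.conj g⁻¹).toMonoidHom = U₁ := by
        rw [← hg, map_conj_mul_k4, inv_mul_cancel, map_conj_one_k4]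
      have hw : g * z * g⁻¹ ∈ U₂ := by
        rw [← hg, mem_map_conj_k4]
        have : g⁻¹ * (g * z * g⁻¹) * g = z := by group
        rw [this, hm1]; exact Or.inr (Or.inl rfl)
      have hw1 : g * z * g⁻¹ ≠ 1 := by
        intro h
        apply hz1
        have : z = g⁻¹ * (g * z * g⁻¹) * g := by group
        rw [this, h]; group
      by_cases hwz : g * z * g⁻¹ = z
      · exact ⟨g, hg, hwz⟩
      · -- w is a reflection
        have hwrefl : g * z * g⁻¹ ∈ (S : Subgroup X) ∧ g * z * g⁻¹ ∉ zpowers ρ := by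
          rcases (hm2 _).mp hw with h | h | h | h
          · exact absurd h hw1
          · exact absurd h hwz
          · rw [h]; exact ⟨hτS, hτQ⟩
          · rw [h]; exact hzrefl τ hτS hτQ
        -- y = g⁻¹ z g is a reflection in U₁
        have hy : g⁻¹ * z * g ∈ U₁ := by
          rw [← hginv, mem_map_conj_k4]
          have : g⁻¹⁻¹ * (g⁻¹ * z * g) * g⁻¹ = z := by group
          rw [this, hm2]; exact Or.inr (Or.inl rfl)
        have hy1 : g⁻¹ * z * g ≠ 1 := by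
          intro h
          apply hz1
          have : z = g * (g⁻¹ * z * g) * g⁻¹ := by group
          rw [this, h]; group
        have hyz : g⁻¹ * z * g ≠ z := by
          intro h
          apply hwz
          calc g * z * g⁻¹ = g * (g⁻¹ * z * g) * g⁻¹ := by rw [h]
            _ = z := by group
        have hyrefl : g⁻¹ * z * g ∈ (S : Subgroup X) ∧ g⁻¹ * z * g ∉ zpowers ρ := by
          rcases (hm1 _).mp hy with h | h | h | h
          · exact absurd h hy1
          · exact absurd h hyz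
          · rw [h]; exact ⟨hD.hσ, hD.hσQ⟩
          · rw [h]; exact hzrefl σ hD.hσ hD.hσQ
        refine ⟨g * v * g⁻¹ * v * g, ?_, ?_⟩
        · rw [← map_conj_mul_k4 U₁ (g * v * g⁻¹ * v) g, hg, ← map_conj_mul_k4 U₂ (g * v * g⁻¹) v,
            hv2, ← map_conj_mul_k4 U₂ (g * v) g⁻¹, hginv, ← map_conj_mul_k4 U₁ g v, hv1, hg]
        · have e1 : g * v * g⁻¹ * v * g * z * (g * v * g⁻¹ * v * g)⁻¹ =
              g * (v * (g⁻¹ * (v * (g * z * g⁻¹) * v⁻¹) * g) * v⁻¹) * g⁻¹ := by group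
          rw [e1, hvu _ hwrefl.1 hwrefl.2]
          have e2 : g⁻¹ * (z * (g * z * g⁻¹)) * g = (g⁻¹ * z * g) * z := by group
          rw [e2]
          have e3 : v * ((g⁻¹ * z * g) * z) * v⁻¹ =
              (v * (g⁻¹ * z * g) * v⁻¹) * (v * z * v⁻¹) := by group
          rw [e3, hvu _ hyrefl.1 hyrefl.2, hvz]
          have e4 : z * (g⁻¹ * z * g) * z = g⁻¹ * z * g := by
            rw [mul_assoc, hzc _ hyrefl.1, ← mul_assoc, hzz, one_mul]
          rw [e4]; group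
    obtain ⟨g', hg', hgz⟩ := stepA
    -- Step B
    have hb : g' * σ * g'⁻¹ ∈ U₂ := by
      rw [← hg', mem_map_conj_k4]
      have : g'⁻¹ * (g' * σ * g'⁻¹) * g' = σ := by group
      rw [this, hm1]; exact Or.inr (Or.inr (Or.inl rfl))
    have hb1 : g' * σ * g'⁻¹ ≠ 1 := by
      intro h
      apply hσ1
      have : σ = g'⁻¹ * (g' * σ * g'⁻¹) * g' := by group
      rw [this, h]; group
    have hbz : g' * σ * g'⁻¹ ≠ z := by
      intro h
      apply hzσ_ne
      calc z = g'⁻¹ * (g' * z * g'⁻¹) * g' := by group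
        _ = g'⁻¹ * (g' * σ * g'⁻¹) * g' := by rw [hgz, h]
        _ = σ := by group
    have hbS : g' * σ * g'⁻¹ ∈ (S : Subgroup X) := by
      rcases (hm2 _).mp hb with h | h | h | h
      · exact absurd h hb1
      · exact absurd h hbz
      · rw [h]; exact hτS
      · rw [h]; exact (hzrefl τ hτS hτQ).1
    have hSH : (S : Subgroup X) ≤ centralizer ({z} : Set X) := by
      intro x hx
      rw [mem_centralizer_singleton_iff]
      exact hzc x hx
    have hgH : g' ∈ centralizer ({z} : Set X) := by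
      rw [mem_centralizer_singleton_iff]
      calc g' * z = (g' * z * g'⁻¹) * g' := by group
        _ = z * g' := by rw [hgz]
    have hzH : z ∈ centralizer ({z} : Set X) := hSH hzS
    obtain ⟨T', hT'⟩ : ∃ T' : Sylow 2 ↥(centralizer ({z} : Set X)), T' = S.subtype hSH := ⟨_, rfl⟩
    have hT'mem : ∀ x : ↥(centralizer ({z} : Set X)), x ∈ (T' : Subgroup _) ↔
        (x : X) ∈ (S : Subgroup X) := by
      intro x; rw [hT']; exact Subgroup.mem_subgroupOf
    have eT' : ↥(T' : Subgroup ↥(centralizer ({z} : Set X))) ≃* DihedralGroup m := by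
      rw [hT']
      exact (Subgroup.subgroupOfEquivOfLe hSH).trans eS
    have hto : orderOf (⟨z, hzH⟩ : ↥(centralizer ({z} : Set X))) = 2 := by
      rw [invol_iff]
      exact ⟨Subtype.ext hzz, fun h => hz1 (congrArg Subtype.val h)⟩
    have htc : ∀ x : ↥(centralizer ({z} : Set X)), x * ⟨z, hzH⟩ = ⟨z, hzH⟩ * x := by
      intro x
      apply Subtype.ext
      have := x.2
      rw [mem_centralizer_singleton_iff] at this
      exact this
    have hcomp := central_dih_complement T' m hm4 eT' ⟨z, hzH⟩ hto htc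
    obtain ⟨N, hN, hdisj, hprod⟩ := complement_sylow hcomp T'
    haveI := hN
    obtain ⟨s, hs, hsab⟩ := fusion_of_complement (T' : Subgroup _) N hdisj hprod
      ⟨σ, hSH hD.hσ⟩ ⟨g' * σ * g'⁻¹, hSH hbS⟩ ((hT'mem _).mpr hD.hσ) ((hT'mem _).mpr hbS)
      ⟨g', hgH⟩ (Subtype.ext rfl)
    have hsS : (s : X) ∈ (S : Subgroup X) := (hT'mem s).mp hs
    have hsab' : (s : X) * σ * (s : X)⁻¹ = g' * σ * g'⁻¹ := congrArg Subtype.val hsab
    rcases (hm2 _).mp hb with h | h | h | h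
    · exact hb1 h
    · exact hbz h
    · apply hD.not_conj (s : X) hsS
      rw [hsab', h, hτ]
    · apply hD.not_conj (v * (s : X)) (Subgroup.mul_mem _ hvS hsS)
      have e : v * (s : X) * σ * (v * (s : X))⁻¹ = v * ((s : X) * σ * (s : X)⁻¹) * v⁻¹ := by group
      rw [e, hsab', h]
      have e2 : v * (z * τ) * v⁻¹ = (v * z * v⁻¹) * (v * τ * v⁻¹) := by group
      rw [e2, hvz, hvu τ hτS hτQ, ← mul_assoc, hzz, one_mul, hτ]
  · intro V hV
    have hp : IsPGroup 2 V := by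
      apply IsPGroup.of_card (n := 2)
      rw [hV.card_four]; norm_num
    obtain ⟨g, hg⟩ := conj_le_sylow_two_k4 S V hp
    have hK' := klein_map_conj V hV g
    obtain ⟨u, huS, huQ, huu, hUm⟩ := hD.four _ hg hK'
    rw [← hz] at hUm
    obtain ⟨c, hcS, hc⟩ := hD.conj_class u huS huQ
    have hcz : c * z * c⁻¹ = z := by
      calc c * z * c⁻¹ = z * c * c⁻¹ := by rw [hzc c hcS]
        _ = z := by group
    rcases hc with hc | hc
    · left
      refine ⟨c * g, ?_⟩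
      rw [← map_conj_mul_k4]
      ext x
      rw [four_conj_k4 _ z u hUm c x, hcz, hc, hm1]
    · right
      rw [← hτ] at hc
      refine ⟨c * g, ?_⟩
      rw [← map_conj_mul_k4]
      ext x
      rw [four_conj_k4 _ z u hUm c x, hcz, hc, hm2]

end Cfsg.Agent.Lib.helper14
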