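import Mathlib
import Cfsg.Agent.Lib.helper14.FFCoprime

/-!
# Failure of factorization under a coprime abelian operator group, II (library, helper14)
-/

set_option autoImplicit false
set_option linter.style.haveILetI false
set_option linter.unusedVariables false
set_option linter.unusedSectionVars false

namespace Cfsg.Agent.Lib.helper14

open scoped commutatorElement

theorem ffE_card_dvd {G : Type*} [Group G] [Finite G] {p : ℕ} [Fact p.Prime] {V H Q : Subgroup G}
    (hS : FFSetup p V H Q) {a : G} (ha : IsTransv p V H a) : Nat.card ↥(ffE Q a) ∣ 24 := by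
  obtain ⟨hp23, -, -, ⟨e⟩, -⟩ := ffE_main hS ha
  rw [Nat.card_congr e.toEquiv]
  rcases hp23 with rfl | rfl
  · rw [card_sl2_zmod2]; norm_num
  · rw [card_sl2_zmod3]

theorem ffOp_coprime {G : Type*} [Group G] [Finite G] {p : ℕ} [Fact p.Prime] {V H Q : Subgroup G}
    (hS : FFSetup p V H Q) {a : G} (ha : IsTransv p V H a) {q : ℕ} [Fact q.Prime]
    {X : Subgroup G} (hX : FFOp q V H Q X) {m : ℕ} (hm : m ∣ Nat.card X) :
    m.Coprime (Nat.card ↥(ffE Q a)) ∧ m.Coprime p := by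
  obtain ⟨hXV, hXH, hXQ, hXq, hXab, hq2, hq3⟩ := hX
  have hq : q.Prime := Fact.out
  obtain ⟨n, hn⟩ := hXq.exists_card_eq
  rw [hn] at hm
  obtain ⟨j, -, rfl⟩ := (Nat.dvd_prime_pow hq).mp hm
  have h2 : ¬ q ∣ 2 := fun h => hq2 ((Nat.prime_dvd_prime_iff_eq hq Nat.prime_two).mp h)
  have h3 : ¬ q ∣ 3 := fun h => hq3 ((Nat.prime_dvd_prime_iff_eq hq Nat.prime_three).mp h)
  have h24 : ¬ q ∣ 24 := by
    intro h
    have : q ∣ 2 ^ 3 * 3 := h
    rcases (Nat.Prime.dvd_mul hq).mp this with h | h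
    · exact h2 (hq.dvd_of_dvd_pow h)
    · exact h3 h
  constructor
  · apply Nat.Coprime.pow_left
    rw [Nat.Prime.coprime_iff_not_dvd hq]
    exact fun h => h24 (h.trans (ffE_card_dvd hS ha))
  · apply Nat.Coprime.pow_left
    rw [Nat.Prime.coprime_iff_not_dvd hq]
    obtain ⟨hp23, -⟩ := ffE_main hS ha
    rcases hp23 with rfl | rfl
    · exact h2
    · exact h3

theorem ffX_diag_pow {G : Type*} [Group G] [Finite G] {p : ℕ} [Fact p.Prime] {V H Q : Subgroup G}
    (hS : FFSetup p V H Q) {a : G} (ha : IsTransv p V H a) {q : ℕ} [Fact q.Prime]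
    {X : Subgroup G} (hX : FFOp q V H Q X) :
    ∃ m : ℕ, m ∣ Nat.card X ∧ ∀ e ∈ ffE Q a, ∃ c ∈ H ⊓ Subgroup.centralizer (X : Set G),
      ∃ r ∈ H ⊓ Subgroup.centralizer ((⁅V, ffE Q a⁆ : Subgroup G) : Set G), c = e ^ m * r := by
  classical
  haveI : Fintype ↥X := Fintype.ofFinite _
  obtain ⟨hXV, hXH, hXQ, hXq, hXab, hq2, hq3⟩ := id hX
  let P : ↥X → Prop := fun x => (x : G) ∈ Subgroup.normalizer (ffE Q a : Set G)
  refine ⟨(Finset.univ.filter P).card, ?_, ?_⟩
  · have h1 : (Finset.univ.filter P).card = Nat.card {x : ↥X // P x} := by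
      rw [Nat.card_eq_fintype_card, Fintype.card_subtype]
    have h2 : Nat.card {x : ↥X // P x} =
        Nat.card ↥((Subgroup.normalizer (ffE Q a : Set G)).subgroupOf X) := rfl
    rw [h1, h2]
    exact Subgroup.card_subgroup_dvd_card _
  · intro e he
    let z : ↥X → G := fun x => (x : G) * e * (x : G)⁻¹
    have hzH : ∀ x, z x ∈ H := fun x =>
      (Subgroup.mem_normalizer_iff.mp (hXH x.2) e).mp (ffE_le hS ha he)
    have hzcomm : ∀ x y : ↥X, z x * z y = z y * z x := by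
      intro x y
      have hu : (y : G)⁻¹ * x ∈ X := X.mul_mem (X.inv_mem y.2) x.2
      have e1 : (x : G) * e * (x : G)⁻¹ =
          (y : G) * ((y : G)⁻¹ * x * e * ((y : G)⁻¹ * x)⁻¹) * (y : G)⁻¹ := by group
      by_cases hN : (y : G)⁻¹ * x ∈ Subgroup.normalizer (ffE Q a : Set G)
      · have h1 := (ffX_stab hS ha hX hu hN).2 e he
        have h2 : z x = z y := by
          show (x : G) * e * (x : G)⁻¹ = (y : G) * e * (y : G)⁻¹
          rw [e1, h1]
        rw [h2]
      · have h1 := (ffX_moved hS ha hX hu hN).1 e he e he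
        show (x : G) * e * (x : G)⁻¹ * ((y : G) * e * (y : G)⁻¹) =
          (y : G) * e * (y : G)⁻¹ * ((x : G) * e * (x : G)⁻¹)
        rw [e1]
        calc (y : G) * ((y : G)⁻¹ * x * e * ((y : G)⁻¹ * x)⁻¹) * (y : G)⁻¹ *
              ((y : G) * e * (y : G)⁻¹)
            = (y : G) * (((y : G)⁻¹ * x * e * ((y : G)⁻¹ * x)⁻¹) * e) * (y : G)⁻¹ := by group
          _ = (y : G) * (e * ((y : G)⁻¹ * x * e * ((y : G)⁻¹ * x)⁻¹)) * (y : G)⁻¹ := by rw [h1]
          _ = (y : G) * e * (y : G)⁻¹ *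
              ((y : G) * ((y : G)⁻¹ * x * e * ((y : G)⁻¹ * x)⁻¹) * (y : G)⁻¹) := by group
    have hcomm : ∀ s ∈ Set.range z, ∀ t ∈ Set.range z, s * t = t * s := by
      rintro _ ⟨x, rfl⟩ _ ⟨y, rfl⟩
      exact hzcomm x y
    letI : CommGroup ↥(Subgroup.closure (Set.range z)) := Subgroup.closureCommGroupOfComm hcomm
    obtain ⟨Z, hZ⟩ : ∃ Z : Subgroup G, Z = Subgroup.closure (Set.range z) := ⟨_, rfl⟩
    let z' : ↥X → ↥(Subgroup.closure (Set.range z)) :=
      fun x => ⟨z x, Subgroup.subset_closure ⟨x, rfl⟩⟩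
    have hZH : Subgroup.closure (Set.range z) ≤ H := by
      rw [Subgroup.closure_le]
      rintro _ ⟨x, rfl⟩
      exact hzH x
    have hXZ : X ≤ Subgroup.normalizer ((Subgroup.closure (Set.range z) : Subgroup G) : Set G) := by
      apply Cfsg.Agent.Lib.helper8.le_normalizer_of_conj_mem
      intro x₁ hx₁ g hg
      have h1 : (Subgroup.closure (Set.range z)).map (MulAut.conj x₁).toMonoidHom ≤
          Subgroup.closure (Set.range z) := by
        rw [MonoidHom.map_closure, Subgroup.closure_le]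
        rintro _ ⟨_, ⟨x, rfl⟩, rfl⟩
        apply Subgroup.subset_closure
        refine ⟨⟨x₁, hx₁⟩ * x, ?_⟩
        show x₁ * (x : G) * e * (x₁ * (x : G))⁻¹ = x₁ * ((x : G) * e * (x : G)⁻¹) * x₁⁻¹
        group
      exact h1 (Subgroup.mem_map.mpr ⟨g, hg, rfl⟩)
    have hfix : ∀ x₁ ∈ X, x₁ * ((∏ x : ↥X, z' x : ↥(Subgroup.closure (Set.range z))) : G) * x₁⁻¹ =
        ((∏ x : ↥X, z' x : ↥(Subgroup.closure (Set.range z))) : G) := by
      intro x₁ hx₁
      have hθ : ∀ x : ↥X, Subgroup.normalizerMonoidHom (Subgroup.closure (Set.range z))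
          ⟨x₁, hXZ hx₁⟩ (z' x) = z' (⟨x₁, hx₁⟩ * x) := by
        intro x
        apply Subtype.ext
        show x₁ * ((x : G) * e * (x : G)⁻¹) * x₁⁻¹ = x₁ * (x : G) * e * (x₁ * (x : G))⁻¹
        group
      have h2 : Subgroup.normalizerMonoidHom (Subgroup.closure (Set.range z)) ⟨x₁, hXZ hx₁⟩
          (∏ x : ↥X, z' x) = ∏ x : ↥X, z' x := by
        rw [map_prod]
        simp_rw [hθ]
        exact Fintype.prod_equiv (Equiv.mulLeft (⟨x₁, hx₁⟩ : ↥X)) _ _ (fun x => rfl)
      exact congrArg Subtype.val h2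
    have hsplit := Finset.prod_filter_mul_prod_filter_not Finset.univ P z'
    have he1 : e ∈ Subgroup.closure (Set.range z) :=
      Subgroup.subset_closure ⟨1, by show ((1 : ↥X) : G) * e * ((1 : ↥X) : G)⁻¹ = e; simp⟩
    have h1 : ∏ x ∈ Finset.univ.filter P, z' x =
        (⟨e, he1⟩ : ↥(Subgroup.closure (Set.range z))) ^ (Finset.univ.filter P).card := by
      rw [← Finset.prod_const]
      refine Finset.prod_congr rfl (fun x hx => ?_)
      exact Subtype.ext ((ffX_stab hS ha hX x.2 (Finset.mem_filter.mp hx).2).2 e he)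
    have hr : ∏ x ∈ Finset.univ.filter (fun x => ¬ P x), z' x ∈
        (H ⊓ Subgroup.centralizer ((⁅V, ffE Q a⁆ : Subgroup G) : Set G)).subgroupOf
          (Subgroup.closure (Set.range z)) := by
      refine Subgroup.prod_mem _ (fun x hx => ?_)
      rw [Subgroup.mem_subgroupOf]
      exact ⟨hzH x, (ffX_moved hS ha hX x.2 (Finset.mem_filter.mp hx).2).2.1 e he⟩
    refine ⟨((∏ x : ↥X, z' x : ↥(Subgroup.closure (Set.range z))) : G),
      Subgroup.mem_inf.mpr ⟨hZH (Subtype.property _), Subgroup.mem_centralizer_iff.mpr ?_⟩,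
      ((∏ x ∈ Finset.univ.filter (fun x => ¬ P x), z' x :
        ↥(Subgroup.closure (Set.range z))) : G), Subgroup.mem_subgroupOf.mp hr, ?_⟩
    · intro x₁ hx₁
      exact mul_inv_eq_iff_eq_mul.mp (hfix x₁ hx₁)
    · rw [← hsplit, h1]
      rfl

theorem ffX_diag {G : Type*} [Group G] [Finite G] {p : ℕ} [Fact p.Prime] {V H Q : Subgroup G}
    (hS : FFSetup p V H Q) {a : G} (ha : IsTransv p V H a) {q : ℕ} [Fact q.Prime]
    {X : Subgroup G} (hX : FFOp q V H Q X) :
    ∀ e ∈ ffE Q a, ∃ c ∈ H ⊓ Subgroup.centralizer (X : Set G),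
      ∃ r ∈ H ⊓ Subgroup.centralizer ((⁅V, ffE Q a⁆ : Subgroup G) : Set G), c = e * r := by
  obtain ⟨m, hm, hmain⟩ := ffX_diag_pow hS ha hX
  intro e he
  have hcop : m.Coprime (orderOf e) := by
    have h1 := (ffOp_coprime hS ha hX hm).1
    have h2 : orderOf e ∣ Nat.card ↥(ffE Q a) := by
      have := orderOf_dvd_natCard (⟨e, he⟩ : ↥(ffE Q a))
      rwa [Subgroup.orderOf_mk] at this
    exact Nat.Coprime.coprime_dvd_right h2 h1
  obtain ⟨k, hk⟩ := exists_pow_eq_self_of_coprime hcop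
  obtain ⟨c, hc, r, hr, hcr⟩ := hmain (e ^ k) ((ffE Q a).pow_mem he k)
  refine ⟨c, hc, r, hr, ?_⟩
  rw [hcr, ← pow_mul, mul_comm, pow_mul, hk]

end Cfsg.Agent.Lib.helper14
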