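import Mathlib
import Cfsg.Agent.Lib.helper14.FFCoprime2

/-!
# Failure of factorization under a coprime abelian operator group, III (library, helper14)
-/

set_option autoImplicit false
set_option linter.style.haveILetI false
set_option linter.unusedVariables false
set_option linter.unusedSectionVars false

namespace Cfsg.Agent.Lib.helper14

open scoped commutatorElement

theorem ffX_plane {G : Type*} [Group G] [Finite G] {p : ℕ} [Fact p.Prime] {V H Q : Subgroup G}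
    (hS : FFSetup p V H Q) {a : G} (ha : IsTransv p V H a) {q : ℕ} [Fact q.Prime]
    {X : Subgroup G} (hX : FFOp q V H Q X)
    (hHE : H ≤ Subgroup.normalizer (ffE Q a : Set G)) :
    ∃ 𝒲 : Subgroup G, 𝒲 ≤ V ⊓ Subgroup.centralizer (X : Set G) ∧ Nat.card 𝒲 = p ^ 2 ∧
      ∀ c ∈ H ⊓ Subgroup.centralizer (X : Set G), c ∈ Subgroup.normalizer (𝒲 : Set G) ∧
        (c ∈ Subgroup.centralizer (𝒲 : Set G) ↔
          c ∈ Subgroup.centralizer ((⁅V, ffE Q a⁆ : Subgroup G) : Set G)) := by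
  classical
  haveI : Fintype ↥X := Fintype.ofFinite _
  obtain ⟨hXV, hXH, hXQ, hXq, hXab, hq2, hq3⟩ := id hX
  obtain ⟨hV, hHV, hf, hQH, hHQ, hQc, hQself⟩ := id hS
  obtain ⟨hp23, hWcard, hfaith, -, -⟩ := ffE_main hS ha
  have hp : p.Prime := Fact.out
  have hEH := ffE_le hS ha
  have hW₁V : ⁅V, ffE Q a⁆ ≤ V := commutator_le_of_le_normalizer V (ffE Q a) (hEH.trans hHV)
  have hHW : H ≤ Subgroup.normalizer ((⁅V, ffE Q a⁆ : Subgroup G) : Set G) :=
    Cfsg.Agent.Lib.helper8.le_normalizer_commutator hHV hHE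
  letI : CommGroup ↥V :=
    { (inferInstance : Group ↥V) with mul_comm := fun u v => hV.1.is_comm.comm u v }
  let fx : ↥X → (↥(⁅V, ffE Q a⁆) →* ↥V) := fun x =>
    { toFun := fun w => ⟨(x : G) * w * (x : G)⁻¹,
        (Subgroup.mem_normalizer_iff.mp (hXV x.2) _).mp (hW₁V w.2)⟩
      map_one' := Subtype.ext (by simp)
      map_mul' := fun w w' => Subtype.ext (by simp [mul_assoc]) }
  have hfx : ∀ (x : ↥X) (w : ↥(⁅V, ffE Q a⁆)), ((fx x w : ↥V) : G) = (x : G) * w * (x : G)⁻¹ :=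
    fun x w => rfl
  let δ : ↥(⁅V, ffE Q a⁆) →* ↥V := ∏ x : ↥X, fx x
  have hδ : ∀ w, δ w = ∏ x : ↥X, fx x w := fun w => MonoidHom.finsetProd_apply _ _ _
  -- invariance under X
  have hδX : ∀ x₁ ∈ X, ∀ w, x₁ * ((δ w : ↥V) : G) * x₁⁻¹ = ((δ w : ↥V) : G) := by
    intro x₁ hx₁ w
    have hθ : ∀ x : ↥X, Subgroup.normalizerMonoidHom V ⟨x₁, hXV hx₁⟩ (fx x w) =
        fx (⟨x₁, hx₁⟩ * x) w := by
      intro x
      apply Subtype.ext
      show x₁ * ((x : G) * w * (x : G)⁻¹) * x₁⁻¹ = x₁ * (x : G) * w * (x₁ * (x : G))⁻¹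
      group
    have h2 : Subgroup.normalizerMonoidHom V ⟨x₁, hXV hx₁⟩ (δ w) = δ w := by
      rw [hδ, map_prod]
      simp_rw [hθ]
      exact Fintype.prod_equiv (Equiv.mulLeft (⟨x₁, hx₁⟩ : ↥X)) _ _ (fun x => rfl)
    exact congrArg Subtype.val h2
  -- equivariance under `H ⊓ C(X)`
  have hδc : ∀ c ∈ H ⊓ Subgroup.centralizer (X : Set G), ∀ w : ↥(⁅V, ffE Q a⁆),
      ∀ hw' : c * (w : G) * c⁻¹ ∈ ⁅V, ffE Q a⁆,
      c * ((δ w : ↥V) : G) * c⁻¹ = ((δ ⟨c * (w : G) * c⁻¹, hw'⟩ : ↥V) : G) := by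
    intro c hc w hw'
    have hcX : ∀ x ∈ X, x * c = c * x := Subgroup.mem_centralizer_iff.mp hc.2
    have hθ : ∀ x : ↥X, Subgroup.normalizerMonoidHom V ⟨c, hHV hc.1⟩ (fx x w) =
        fx x ⟨c * (w : G) * c⁻¹, hw'⟩ := by
      intro x
      apply Subtype.ext
      show c * ((x : G) * w * (x : G)⁻¹) * c⁻¹ = (x : G) * (c * (w : G) * c⁻¹) * (x : G)⁻¹
      have h1 := hcX x x.2
      have h2 : (x : G)⁻¹ * c⁻¹ = c⁻¹ * (x : G)⁻¹ := by
        rw [← mul_inv_rev, ← mul_inv_rev, h1]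
      calc c * ((x : G) * w * (x : G)⁻¹) * c⁻¹ = (c * (x : G)) * w * ((x : G)⁻¹ * c⁻¹) := by group
        _ = ((x : G) * c) * w * (c⁻¹ * (x : G)⁻¹) := by rw [h1, h2]
        _ = (x : G) * (c * (w : G) * c⁻¹) * (x : G)⁻¹ := by group
    have h2 : Subgroup.normalizerMonoidHom V ⟨c, hHV hc.1⟩ (δ w) =
        δ ⟨c * (w : G) * c⁻¹, hw'⟩ := by
      rw [hδ, hδ, map_prod]
      exact Finset.prod_congr rfl (fun x _ => hθ x)
    exact congrArg Subtype.val h2
  -- the decomposition `δ w = w ^ m * s`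
  let P : ↥X → Prop := fun x => (x : G) ∈ Subgroup.normalizer (ffE Q a : Set G)
  have hmdvd : (Finset.univ.filter P).card ∣ Nat.card X := by
    have h1 : (Finset.univ.filter P).card = Nat.card {x : ↥X // P x} := by
      rw [Nat.card_eq_fintype_card, Fintype.card_subtype]
    have h2 : Nat.card {x : ↥X // P x} =
        Nat.card ↥((Subgroup.normalizer (ffE Q a : Set G)).subgroupOf X) := rfl
    rw [h1, h2]
    exact Subgroup.card_subgroup_dvd_card _
  have hmcop := (ffOp_coprime hS ha hX hmdvd).2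
  have hδinj : Function.Injective δ := by
    rw [injective_iff_map_eq_one]
    intro w hw
    have hsplit := Finset.prod_filter_mul_prod_filter_not Finset.univ P (fun x => fx x w)
    have h1 : ∏ x ∈ Finset.univ.filter P, fx x w =
        (⟨(w : G), hW₁V w.2⟩ : ↥V) ^ (Finset.univ.filter P).card := by
      rw [← Finset.prod_const]
      refine Finset.prod_congr rfl (fun x hx => ?_)
      exact Subtype.ext ((ffX_stab hS ha hX x.2 (Finset.mem_filter.mp hx).2).1 w w.2)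
    have hr : ∏ x ∈ Finset.univ.filter (fun x => ¬ P x), fx x w ∈
        (Subgroup.centralizer (ffE Q a : Set G)).subgroupOf V := by
      refine Subgroup.prod_mem _ (fun x hx => ?_)
      rw [Subgroup.mem_subgroupOf]
      exact (ffX_moved hS ha hX x.2 (Finset.mem_filter.mp hx).2).2.2 w w.2
    rw [hδ, ← hsplit, h1] at hw
    have hw2 := congrArg Subtype.val hw
    rw [Subgroup.coe_mul, Subgroup.coe_pow, Subgroup.coe_one] at hw2
    have hwm : (w : G) ^ (Finset.univ.filter P).card ∈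
        ⁅V, ffE Q a⁆ ⊓ (V ⊓ Subgroup.centralizer (ffE Q a : Set G)) := by
      refine Subgroup.mem_inf.mpr ⟨Subgroup.pow_mem _ w.2 _, ?_⟩
      rw [eq_inv_of_mul_eq_one_left hw2]
      exact Subgroup.inv_mem _ (Subgroup.mem_inf.mpr ⟨Subtype.property _,
        Subgroup.mem_subgroupOf.mp hr⟩)
    rw [(ffE_decomp hS ha).1, Subgroup.mem_bot] at hwm
    have hwp : (w : G) ^ p = 1 := hV.2 _ (hW₁V w.2)
    have h3 : orderOf (w : G) ∣ Nat.gcd (Finset.univ.filter P).card p :=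
      Nat.dvd_gcd (orderOf_dvd_of_pow_eq_one hwm) (orderOf_dvd_of_pow_eq_one hwp)
    rw [hmcop, Nat.dvd_one, orderOf_eq_one_iff] at h3
    exact Subtype.ext h3
  refine ⟨δ.range.map V.subtype, ?_, ?_, ?_⟩
  · rintro _ ⟨_, ⟨w, rfl⟩, rfl⟩
    refine Subgroup.mem_inf.mpr ⟨Subtype.property _, Subgroup.mem_centralizer_iff.mpr ?_⟩
    intro x₁ hx₁
    exact mul_inv_eq_iff_eq_mul.mp (hδX x₁ hx₁ w)
  · rw [Subgroup.card_map_of_injective V.subtype_injective,
      ← Nat.card_congr (MonoidHom.ofInjective hδinj).toEquiv, hWcard]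
  · have hnorm : H ⊓ Subgroup.centralizer (X : Set G) ≤
        Subgroup.normalizer ((δ.range.map V.subtype : Subgroup G) : Set G) := by
      apply Cfsg.Agent.Lib.helper8.le_normalizer_of_conj_mem
      rintro c hc _ ⟨_, ⟨w, rfl⟩, rfl⟩
      have hw' : c * (w : G) * c⁻¹ ∈ ⁅V, ffE Q a⁆ :=
        (Subgroup.mem_normalizer_iff.mp (hHW hc.1) _).mp w.2
      show c * ((δ w : ↥V) : G) * c⁻¹ ∈ _
      rw [hδc c hc w hw']
      exact Subgroup.mem_map.mpr ⟨_, ⟨_, rfl⟩, rfl⟩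
    intro c hc
    refine ⟨hnorm hc, ?_⟩
    constructor
    · intro hcW
      rw [Subgroup.mem_centralizer_iff] at hcW ⊢
      intro w hw
      have hw' : c * w * c⁻¹ ∈ ⁅V, ffE Q a⁆ :=
        (Subgroup.mem_normalizer_iff.mp (hHW hc.1) _).mp hw
      have h1 := hδc c hc ⟨w, hw⟩ hw'
      have h2 : ((δ ⟨w, hw⟩ : ↥V) : G) * c = c * ((δ ⟨w, hw⟩ : ↥V) : G) :=
        hcW _ (Subgroup.mem_map.mpr ⟨_, ⟨_, rfl⟩, rfl⟩)
      have h3 : c * ((δ ⟨w, hw⟩ : ↥V) : G) * c⁻¹ = ((δ ⟨w, hw⟩ : ↥V) : G) := by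
        rw [← h2, mul_inv_cancel_right]
      rw [h3] at h1
      have h4 := hδinj (Subtype.ext h1)
      have h5 := congrArg Subtype.val h4
      simp only at h5
      exact (mul_inv_eq_iff_eq_mul.mp h5.symm).symm
    · intro hcW
      rw [Subgroup.mem_centralizer_iff] at hcW ⊢
      rintro _ ⟨_, ⟨w, rfl⟩, rfl⟩
      have hw' : c * (w : G) * c⁻¹ ∈ ⁅V, ffE Q a⁆ :=
        (Subgroup.mem_normalizer_iff.mp (hHW hc.1) _).mp w.2
      have h1 := hδc c hc w hw'
      have h2 : (⟨c * (w : G) * c⁻¹, hw'⟩ : ↥(⁅V, ffE Q a⁆)) = w := by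
        apply Subtype.ext
        show c * (w : G) * c⁻¹ = w
        rw [← hcW w w.2, mul_inv_cancel_right]
      rw [h2] at h1
      show ((δ w : ↥V) : G) * c = c * ((δ w : ↥V) : G)
      nth_rewrite 1 [← h1]
      rw [inv_mul_cancel_right]

end Cfsg.Agent.Lib.helper14
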