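import Mathlib
import Cfsg.Agent.Lib.helper14.FFCoprime3

/-!
# Failure of factorization under a coprime abelian operator group, IV (library, helper14)
-/

set_option autoImplicit false
set_option linter.style.haveILetI false
set_option linter.unusedVariables false
set_option linter.unusedSectionVars false

namespace Cfsg.Agent.Lib.helper14

open scoped commutatorElement

/-- The fixed points of the operator group contain a plane on which they induce `SL(2, p)`. -/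
theorem ffX_sl2 {G : Type*} [Group G] [Finite G] {p : ℕ} [Fact p.Prime] {V H Q : Subgroup G}
    (hS : FFSetup p V H Q) {a : G} (ha : IsTransv p V H a) {q : ℕ} [Fact q.Prime]
    {X : Subgroup G} (hX : FFOp q V H Q X)
    (hgen : ∀ Y : Subgroup G, (∀ b, IsTransv p V H b → b ∈ Y) → H ≤ Y) :
    (p = 2 ∨ p = 3) ∧ ∃ 𝒲 : Subgroup G, 𝒲 ≤ V ⊓ Subgroup.centralizer (X : Set G) ∧
      Nat.card 𝒲 = p ^ 2 ∧
      H ⊓ Subgroup.centralizer (X : Set G) ≤ Subgroup.normalizer (𝒲 : Set G) ∧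
      ∃ φ : ↥(H ⊓ Subgroup.centralizer (X : Set G)) →*
          Matrix.SpecialLinearGroup (Fin 2) (ZMod p),
        Function.Surjective φ ∧
          ∀ c, φ c = 1 ↔ (c : G) ∈ Subgroup.centralizer (𝒲 : Set G) := by
  obtain ⟨hV, hHV, hf, hQH, hHQ, hQc, hQself⟩ := id hS
  obtain ⟨hHE, hcomm, hinf, hsup, -⟩ := ff_direct_factor hS ha hgen
  obtain ⟨hp23, hWcard, hfaith, ⟨eSL⟩, -⟩ := ffE_main hS ha
  obtain ⟨𝒲, h𝒲le, h𝒲card, h𝒲⟩ := ffX_plane hS ha hX hHE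
  have hEH := ffE_le hS ha
  have hHW : H ≤ Subgroup.normalizer ((⁅V, ffE Q a⁆ : Subgroup G) : Set G) :=
    Cfsg.Agent.Lib.helper8.le_normalizer_commutator hHV hHE
  have h𝒟W : H ⊓ Subgroup.centralizer (X : Set G) ≤
      Subgroup.normalizer ((⁅V, ffE Q a⁆ : Subgroup G) : Set G) := inf_le_left.trans hHW
  have hEW : ffE Q a ≤ Subgroup.normalizer ((⁅V, ffE Q a⁆ : Subgroup G) : Set G) :=
    hEH.trans hHW
  let ρ : ↥(H ⊓ Subgroup.centralizer (X : Set G)) →* MulAut ↥(⁅V, ffE Q a⁆) :=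
    (Subgroup.normalizerMonoidHom (⁅V, ffE Q a⁆)).comp (Subgroup.inclusion h𝒟W)
  let ρE : ↥(ffE Q a) →* MulAut ↥(⁅V, ffE Q a⁆) :=
    (Subgroup.normalizerMonoidHom (⁅V, ffE Q a⁆)).comp (Subgroup.inclusion hEW)
  have hρ : ∀ (c : ↥(H ⊓ Subgroup.centralizer (X : Set G))) (w : ↥(⁅V, ffE Q a⁆)),
      ((ρ c w : ↥(⁅V, ffE Q a⁆)) : G) = (c : G) * w * (c : G)⁻¹ := fun _ _ => rfl
  have hρE : ∀ (e : ↥(ffE Q a)) (w : ↥(⁅V, ffE Q a⁆)),
      ((ρE e w : ↥(⁅V, ffE Q a⁆)) : G) = (e : G) * w * (e : G)⁻¹ := fun _ _ => rfl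
  have hρEinj : Function.Injective ρE := by
    rw [injective_iff_map_eq_one]
    intro e he
    have h1 : (e : G) ∈ ffE Q a ⊓ Subgroup.centralizer ((⁅V, ffE Q a⁆ : Subgroup G) : Set G) := by
      refine Subgroup.mem_inf.mpr ⟨e.2, Subgroup.mem_centralizer_iff.mpr fun w hw => ?_⟩
      have h2 := congrArg Subtype.val (DFunLike.congr_fun he ⟨w, hw⟩)
      rw [hρE] at h2
      exact (mul_inv_eq_iff_eq_mul.mp h2).symm
    rw [hfaith, Subgroup.mem_bot] at h1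
    exact Subtype.ext h1
  -- the action of `e * l` with `l` centralizing the plane is that of `e`
  have hact : ∀ (c : ↥(H ⊓ Subgroup.centralizer (X : Set G))) (e : ↥(ffE Q a)) (l : G),
      l ∈ Subgroup.centralizer ((⁅V, ffE Q a⁆ : Subgroup G) : Set G) → (c : G) = (e : G) * l →
      ρ c = ρE e := by
    intro c e l hl hc
    apply MulEquiv.ext
    intro w
    apply Subtype.ext
    rw [hρ, hρE, hc]
    have h1 : (w : G) * l = l * (w : G) := Subgroup.mem_centralizer_iff.mp hl w w.2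
    calc (e : G) * l * (w : G) * ((e : G) * l)⁻¹ = (e : G) * (l * (w : G)) * l⁻¹ * (e : G)⁻¹ := by
          group
      _ = (e : G) * ((w : G) * l) * l⁻¹ * (e : G)⁻¹ := by rw [h1]
      _ = (e : G) * (w : G) * (e : G)⁻¹ := by group
  have hLE : H ⊓ Subgroup.centralizer ((⁅V, ffE Q a⁆ : Subgroup G) : Set G) ≤
      Subgroup.normalizer (ffE Q a : Set G) := inf_le_left.trans hHE
  have key1 : ∀ c : ↥(H ⊓ Subgroup.centralizer (X : Set G)), ∃ e : ↥(ffE Q a), ρ c = ρE e := by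
    intro c
    have hcH : (c : G) ∈ ffE Q a ⊔
        (H ⊓ Subgroup.centralizer ((⁅V, ffE Q a⁆ : Subgroup G) : Set G)) := by
      rw [hsup]; exact c.2.1
    obtain ⟨e, he, l, hl, hcel⟩ :=
      (Cfsg.Agent.Lib.helper8.mem_sup_iff_of_le_normalizer hLE (c : G)).mp hcH
    exact ⟨⟨e, he⟩, hact c ⟨e, he⟩ l hl.2 hcel⟩
  have key2 : ∀ e : ↥(ffE Q a), ∃ c : ↥(H ⊓ Subgroup.centralizer (X : Set G)), ρ c = ρE e := by
    intro e
    obtain ⟨c, hc, r, hr, hcr⟩ := ffX_diag hS ha hX e e.2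
    exact ⟨⟨c, hc⟩, hact ⟨c, hc⟩ e r hr.2 hcr⟩
  let ρ' : ↥(H ⊓ Subgroup.centralizer (X : Set G)) →* ↥ρE.range :=
    ρ.codRestrict ρE.range (fun c => by
      obtain ⟨e, he⟩ := key1 c
      exact ⟨e, he.symm⟩)
  let ι : ↥(ffE Q a) ≃* ↥ρE.range := MonoidHom.ofInjective hρEinj
  have hι : ∀ e : ↥(ffE Q a), ((ι e : ↥ρE.range) : MulAut ↥(⁅V, ffE Q a⁆)) = ρE e := fun _ => rfl
  have hρ' : ∀ c, ((ρ' c : ↥ρE.range) : MulAut ↥(⁅V, ffE Q a⁆)) = ρ c := fun _ => rfl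
  refine ⟨hp23, 𝒲, h𝒲le, h𝒲card, fun c hc => (h𝒲 c hc).1,
    eSL.toMonoidHom.comp (ι.symm.toMonoidHom.comp ρ'), ?_, ?_⟩
  · intro g
    obtain ⟨c, hc⟩ := key2 (eSL.symm g)
    refine ⟨c, ?_⟩
    have h1 : ρ' c = ι (eSL.symm g) := Subtype.ext (by rw [hρ', hι, hc])
    show eSL (ι.symm (ρ' c)) = g
    rw [h1, MulEquiv.symm_apply_apply, MulEquiv.apply_symm_apply]
  · intro c
    have h1 : (eSL.toMonoidHom.comp (ι.symm.toMonoidHom.comp ρ')) c = 1 ↔ ρ c = 1 := by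
      show eSL (ι.symm (ρ' c)) = 1 ↔ ρ c = 1
      rw [MulEquiv.map_eq_one_iff, MulEquiv.map_eq_one_iff]
      constructor
      · intro h
        rw [← hρ', h]; rfl
      · intro h
        exact Subtype.ext (by rw [hρ', h]; rfl)
    rw [h1, (h𝒲 (c : G) c.2).2]
    constructor
    · intro h
      rw [Subgroup.mem_centralizer_iff]
      intro w hw
      have h2 := congrArg Subtype.val (DFunLike.congr_fun h ⟨w, hw⟩)
      rw [hρ] at h2
      exact (mul_inv_eq_iff_eq_mul.mp h2).symm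
    · intro h
      apply MulEquiv.ext
      intro w
      apply Subtype.ext
      rw [hρ]
      have h2 := Subgroup.mem_centralizer_iff.mp h w w.2
      show (c : G) * w * (c : G)⁻¹ = w
      rw [← h2, mul_inv_cancel_right]

/-- Generation: `H` lies in any subgroup containing its fixed points under the operator group
and, up to `H`-conjugacy, every element of order `p` of `H`. -/
theorem ffX_gen {G : Type*} [Group G] [Finite G] {p : ℕ} [Fact p.Prime] {V H Q : Subgroup G}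
    (hS : FFSetup p V H Q) {q : ℕ} [Fact q.Prime]
    {X : Subgroup G} (hX : FFOp q V H Q X)
    (hgen : ∀ Y : Subgroup G, (∀ b, IsTransv p V H b → b ∈ Y) → H ≤ Y)
    (M : Subgroup G) (hM1 : H ⊓ Subgroup.centralizer (X : Set G) ≤ M)
    (hM2 : ∀ b ∈ H, orderOf b = p → ∃ h ∈ H, h * b * h⁻¹ ∈ M) : H ≤ M := by
  apply hgen
  intro b hb
  obtain ⟨hHE, hcomm, hinf, hsup, -⟩ := ff_direct_factor hS hb hgen
  obtain ⟨h, hh, ht⟩ := hM2 b hb.1 hb.2.1
  have htE : h * b * h⁻¹ ∈ ffE Q b :=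
    (Subgroup.mem_normalizer_iff.mp (hHE hh) b).mp (mem_ffE_self Q b)
  have hLE : H ⊓ Subgroup.centralizer ((⁅V, ffE Q b⁆ : Subgroup G) : Set G) ≤
      Subgroup.normalizer (ffE Q b : Set G) := inf_le_left.trans hHE
  have hhinv : h⁻¹ ∈ ffE Q b ⊔
      (H ⊓ Subgroup.centralizer ((⁅V, ffE Q b⁆ : Subgroup G) : Set G)) := by
    rw [hsup]; exact H.inv_mem hh
  obtain ⟨e, he, l, hl, hel⟩ :=
    (Cfsg.Agent.Lib.helper8.mem_sup_iff_of_le_normalizer hLE h⁻¹).mp hhinv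
  have hcent : ffE Q b ≤ Subgroup.centralizer
      ((H ⊓ Subgroup.centralizer ((⁅V, ffE Q b⁆ : Subgroup G) : Set G) : Subgroup G) : Set G) :=
    Subgroup.commutator_eq_bot_iff_le_centralizer.mp hcomm
  -- elements of `L` commute with `t`
  have hLt : ∀ l' ∈ H ⊓ Subgroup.centralizer ((⁅V, ffE Q b⁆ : Subgroup G) : Set G),
      l' * (h * b * h⁻¹) * l'⁻¹ = h * b * h⁻¹ := by
    intro l' hl'
    have := Subgroup.mem_centralizer_iff.mp (hcent htE) l' hl'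
    rw [this, mul_inv_cancel_right]
  obtain ⟨c, hc, r, hr, hcr⟩ := ffX_diag hS hb hX e he
  have hb1 : b = e * (h * b * h⁻¹) * e⁻¹ := by
    have h1 : b = h⁻¹ * (h * b * h⁻¹) * h⁻¹⁻¹ := by group
    have h2 : h⁻¹ * (h * b * h⁻¹) * h⁻¹⁻¹ = e * (l * (h * b * h⁻¹) * l⁻¹) * e⁻¹ := by
      rw [hel]; group
    rw [h2, hLt l hl] at h1
    exact h1
  have hb2 : b = c * (h * b * h⁻¹) * c⁻¹ := by
    have h2 : c * (h * b * h⁻¹) * c⁻¹ = e * (r * (h * b * h⁻¹) * r⁻¹) * e⁻¹ := by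
      rw [hcr]; group
    rw [h2, hLt r hr]
    exact hb1
  rw [hb2]
  exact M.mul_mem (M.mul_mem (hM1 hc) ht) (M.inv_mem (hM1 hc))

end Cfsg.Agent.Lib.helper14
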