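import Mathlib
import Cfsg.Agent.Lib.helper14.Hol
import Cfsg.Agent.Lib.helper14.FFCoprime4
import Cfsg.Agent.S0606
import Cfsg.Agent.Lib.helper3.PLocal
import Cfsg.Agent.Lib.helper3.PSolvPair
import Cfsg.Agent.Lib.helper3.PSolvQuad
import Cfsg.Agent.Lib.helper16.PSolv
import Cfsg.Agent.Lib.helper9.PPrimeCore

/-!
# Holomorph embedding with operators (library, helper14)
-/

set_option autoImplicit false
set_option linter.style.haveILetI false
set_option linter.unusedVariables false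
set_option linter.unusedSectionVars false

namespace Cfsg.Agent.Lib.helper14

open scoped commutatorElement

universe u

/-- Restriction of automorphisms to a characteristic subgroup. -/
def charRes {P : Type u} [Group P] (U : Subgroup P) [hU : U.Characteristic] :
    MulAut P →* MulAut U where
  toFun σ :=
    { toFun := fun u => ⟨σ u, (Subgroup.characteristic_iff_le_comap.mp hU σ) u.2⟩
      invFun := fun u => ⟨σ.symm u, (Subgroup.characteristic_iff_le_comap.mp hU σ.symm) u.2⟩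
      left_inv := fun u => Subtype.ext (σ.symm_apply_apply u)
      right_inv := fun u => Subtype.ext (σ.apply_symm_apply u)
      map_mul' := fun a b => Subtype.ext (map_mul σ (a : P) (b : P)) }
  map_one' := by ext u; rfl
  map_mul' := fun σ τ => by ext u; rfl

theorem charRes_apply {P : Type u} [Group P] (U : Subgroup P) [hU : U.Characteristic]
    (σ : MulAut P) (u : U) : ((charRes U σ u : U) : P) = σ (u : P) := rfl

/-- Automorphisms of the group act on the holomorph of a characteristic subgroup. -/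
noncomputable def holAut {P : Type u} [Group P] (V : Subgroup P) [V.Characteristic] :
    MulAut P →* Hol V :=
  (SemidirectProduct.inr : MulAut ↥V →* Hol V).comp (charRes V)

theorem holAut_conj_inl {P : Type u} [Group P] (V : Subgroup P) [V.Characteristic]
    (σ : MulAut P) (v : ↥V) :
    holAut V σ * SemidirectProduct.inl v * (holAut V σ)⁻¹ =
      SemidirectProduct.inl (charRes V σ v) := by
  unfold holAut
  rw [MonoidHom.comp_apply, ← map_inv, ← SemidirectProduct.inl_aut]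
  rfl

theorem holAut_conj_hom {P : Type u} [Group P] (V : Subgroup P) [V.Characteristic]
    (σ : MulAut P) (k : P) :
    holAut V σ * holHom V k * (holAut V σ)⁻¹ = holHom V (σ k) := by
  unfold holAut holHom
  simp only [MonoidHom.comp_apply]
  rw [← map_inv, ← map_mul, ← map_mul]
  congr 1
  ext v
  show σ (k * ((charRes V σ).symm v : P) * k⁻¹) = σ k * v * (σ k)⁻¹
  have h1 : σ ((charRes V σ).symm v : P) = v :=
    congrArg Subtype.val ((charRes V σ).apply_symm_apply v)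
  rw [map_mul, map_mul, map_inv, h1]

theorem omegaZ_characteristic (p : ℕ) (G : Type u) [Group G] :
    (⨆ S : Sylow p G, Cfsg.omegaOne p ((S : Subgroup G) ⊓
      Subgroup.centralizer ((S : Subgroup G) : Set G))).Characteristic := by
  rw [Subgroup.characteristic_iff_map_le]
  intro σ
  rw [Subgroup.map_iSup]
  refine iSup_le fun S => ?_
  refine le_trans ?_ (le_iSup (fun S : Sylow p G => Cfsg.omegaOne p ((S : Subgroup G) ⊓
    Subgroup.centralizer ((S : Subgroup G) : Set G))) (σ • S))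
  unfold Cfsg.omegaOne
  rw [MonoidHom.map_closure]
  apply Subgroup.closure_mono
  rintro _ ⟨x, ⟨hx, hxp⟩, rfl⟩
  have hmem : ∀ y, y ∈ (S : Subgroup G) → σ y ∈ ((σ • S : Sylow p G) : Subgroup G) := by
    intro y hy
    rw [Sylow.pointwise_smul_def]
    exact Subgroup.smul_mem_pointwise_smul y σ (S : Subgroup G) hy
  refine ⟨Subgroup.mem_inf.mpr ⟨hmem x hx.1, ?_⟩, ?_⟩
  · rw [Subgroup.mem_centralizer_iff]
    intro y hy
    rw [SetLike.mem_coe, Sylow.pointwise_smul_def,
      Subgroup.mem_pointwise_smul_iff_inv_smul_mem] at hy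
    have h1 := Subgroup.mem_centralizer_iff.mp hx.2 _ hy
    have h2 : y = σ (σ⁻¹ • y) := by
      show y = σ (σ.symm y)
      rw [MulEquiv.apply_symm_apply]
    show y * σ x = σ x * y
    rw [h2, ← map_mul, ← map_mul, h1]
  · show σ x ^ p = 1
    rw [← map_pow, hxp, map_one]

theorem thompson_characteristic (p : ℕ) (G : Type u) [Group G] :
    (Cfsg.thompsonSubgroup p G).Characteristic := by
  rw [Subgroup.characteristic_iff_map_le]
  intro σ
  unfold Cfsg.thompsonSubgroup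
  rw [Subgroup.map_le_iff_le_comap]
  refine sSup_le fun A hA => ?_
  rw [← Subgroup.map_le_iff_le_comap]
  refine le_sSup ⟨Cfsg.Agent.Lib.helper3.isEA_map p σ.toMonoidHom hA.1, fun B hB => ?_⟩
  rw [Subgroup.card_map_of_injective σ.injective]
  exact hA.2 B hB

theorem normalizer_le_normalizer_ffQ {G : Type u} [Group G] (p : ℕ) (H : Subgroup G) :
    Subgroup.normalizer (H : Set G) ≤
      Subgroup.normalizer ((Cfsg.Agent.Lib.helper3.ffQ p H : Subgroup G) : Set G) := by
  apply Cfsg.Agent.Lib.helper8.le_normalizer_of_conj_mem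
  intro n hn x hx
  unfold Cfsg.Agent.Lib.helper3.ffQ at hx ⊢
  obtain ⟨x', hx', rfl⟩ := Subgroup.mem_map.mp hx
  have hch := Cfsg.Agent.Lib.helper9.pPrimeCore_characteristic p ↥H
  have h1 := hch.fixed (Subgroup.normalizerMonoidHom H ⟨n, hn⟩)
  have h2 : x' ∈ (Cfsg.pPrimeCore p ↥H).comap
      (Subgroup.normalizerMonoidHom H ⟨n, hn⟩).toMonoidHom := by rw [h1]; exact hx'
  exact Subgroup.mem_map.mpr ⟨_, h2, rfl⟩

/-- The image of `J(G)` in the holomorph of `V` satisfies the hypotheses of the structure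
theory of failure of factorization. -/
theorem hol_ff_hyps {G : Type u} [Group G] [Finite G] {p : ℕ} [Fact p.Prime]
    (hsep : Cfsg.IsPSolvable p G) (V : Subgroup G) [V.Normal]
    (hVe : Cfsg.IsElementaryAbelian p V)
    (hD : ∀ D : Subgroup G, D.Normal → Subgroup.centralizer (V : Set G) ≤ D →
      (∃ k : ℕ, (Subgroup.centralizer (V : Set G)).relIndex D = p ^ k) →
      D = Subgroup.centralizer (V : Set G))
    (ℋ : Subgroup (Hol V)) (hℋ : ℋ = (Cfsg.thompsonSubgroup p G).map (holHom V)) :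
    Cfsg.IsElementaryAbelian p (holV V) ∧
      ℋ ≤ Subgroup.normalizer (holV V : Set (Hol V)) ∧
      ℋ ⊓ Subgroup.centralizer (holV V : Set (Hol V)) = ⊥ ∧
      Subgroup.centralizer (Cfsg.pPrimeCore p ↥ℋ : Set ↥ℋ) ≤ Cfsg.pPrimeCore p ↥ℋ ∧
      ℋ = ⨆ A : {A : Subgroup (Hol V) // A ≤ ℋ ∧ Cfsg.IsBestOffenderOn p (holV V) A},
        (A : Subgroup (Hol V)) := by
  classical
  have hp : p.Prime := Fact.out
  have hCn0 : (Subgroup.centralizer (V : Set G)).Normal := inferInstance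
  obtain ⟨J, hJdef⟩ : ∃ J : Subgroup G, J = Cfsg.thompsonSubgroup p G := ⟨_, rfl⟩
  rw [← hJdef] at hℋ
  have hJn : J.Normal := hJdef ▸ Cfsg.Agent.Lib.helper3.thompson_normal p G
  obtain ⟨C, hCdef⟩ : ∃ C : Subgroup G, C = Subgroup.centralizer (V : Set G) := ⟨_, rfl⟩
  rw [← hCdef] at hD
  have hCn : C.Normal := hCdef ▸ hCn0
  obtain ⟨ψ, hψ⟩ : ∃ ψ : G →* Hol V, ψ = holHom V := ⟨_, rfl⟩
  rw [← hψ] at hℋ
  have hker : ψ.ker = C := by rw [hψ, hCdef]; exact holHom_ker V
  have h𝒱 := holV_elemAb V hVe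
  have h𝒱n := holV_normal V
  have hHV : ℋ ≤ Subgroup.normalizer (holV V : Set (Hol V)) := by
    rw [Subgroup.normalizer_eq_top]; exact le_top
  have hf : ℋ ⊓ Subgroup.centralizer (holV V : Set (Hol V)) = ⊥ := by
    rw [hℋ, hψ]; exact hol_faithful V J
  have hbo : ∀ A ∈ Cfsg.maxElementaryAbelianSubgroups p G,
      A.map ψ ≤ ℋ ∧ Cfsg.IsBestOffenderOn p (holV V) (A.map ψ) := by
    intro A hA
    refine ⟨hℋ ▸ Subgroup.map_mono (hJdef ▸ le_sSup hA), ?_⟩
    rw [hψ]
    exact hol_bestOffender V A (Cfsg.Agent.S0606.result V hVe A hA)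
  have hS3 : ℋ = ⨆ A : {A : Subgroup (Hol V) // A ≤ ℋ ∧ Cfsg.IsBestOffenderOn p (holV V) A},
      (A : Subgroup (Hol V)) := by
    apply le_antisymm
    · have h1 : J ≤ (⨆ A : {A : Subgroup (Hol V) // A ≤ ℋ ∧
          Cfsg.IsBestOffenderOn p (holV V) A}, (A : Subgroup (Hol V))).comap ψ := by
        rw [hJdef]
        refine sSup_le fun A hA => ?_
        rw [← Subgroup.map_le_iff_le_comap]
        exact le_iSup_of_le ⟨A.map ψ, hbo A hA⟩ le_rfl
      have h2 := Subgroup.map_le_iff_le_comap.mpr h1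
      rw [← hℋ] at h2
      exact h2
    · exact iSup_le fun A => A.2.1
  have hsolJ : Cfsg.IsPSolvable p ↥J := Cfsg.Agent.Lib.helper3.isPSolvable_subgroup J hsep
  have hsolH : Cfsg.IsPSolvable p ↥ℋ := by
    let φ : ↥J →* ↥ℋ := (ψ.comp J.subtype).codRestrict ℋ
      (fun x => hℋ ▸ Subgroup.mem_map_of_mem _ x.2)
    refine Cfsg.Agent.Lib.helper16.isPSolvable_of_surjective φ ?_ hsolJ
    rintro ⟨y, hy⟩
    obtain ⟨x, hx, rfl⟩ := (hℋ ▸ hy : y ∈ J.map ψ)
    exact ⟨⟨x, hx⟩, Subtype.ext rfl⟩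
  have hcore : Cfsg.pCore p ↥ℋ = ⊥ := by
    obtain ⟨P, hP⟩ : ∃ P : Subgroup (Hol V), P = (Cfsg.pCore p ↥ℋ).map ℋ.subtype := ⟨_, rfl⟩
    have hPH : P ≤ ℋ := by rw [hP]; exact Subgroup.map_subtype_le _
    have hgn : ∀ g : G, ψ g ∈ Subgroup.normalizer (ℋ : Set (Hol V)) := by
      intro g
      rw [hℋ]
      apply Subgroup.le_normalizer_map ψ
      refine Subgroup.mem_map_of_mem _ ?_
      rw [Subgroup.normalizer_eq_top]; exact Subgroup.mem_top g
    have hch := Cfsg.Agent.Lib.helper16.pCore_characteristic p ↥ℋ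
    have hPn : ∀ g : G, ∀ x ∈ P, ψ g * x * (ψ g)⁻¹ ∈ P := by
      intro g x hx
      rw [hP] at hx ⊢
      obtain ⟨x', hx', rfl⟩ := Subgroup.mem_map.mp hx
      have h1 := hch.fixed (Subgroup.normalizerMonoidHom ℋ ⟨ψ g, hgn g⟩)
      have h2 : x' ∈ (Cfsg.pCore p ↥ℋ).comap
          (Subgroup.normalizerMonoidHom ℋ ⟨ψ g, hgn g⟩).toMonoidHom := by rw [h1]; exact hx'
      exact Subgroup.mem_map.mpr ⟨_, h2, rfl⟩
    obtain ⟨D, hDdef⟩ : ∃ D : Subgroup G, D = P.comap ψ := ⟨_, rfl⟩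
    have hDn : D.Normal := by
      constructor
      intro x hx g
      rw [hDdef] at hx ⊢
      show ψ (g * x * g⁻¹) ∈ P
      rw [map_mul, map_mul, map_inv]
      exact hPn g (ψ x) hx
    have hCD : C ≤ D := by
      rw [← hker, hDdef]
      intro x hx
      show ψ x ∈ P
      rw [MonoidHom.mem_ker.mp hx]; exact one_mem _
    have hDmap : D.map ψ = P := by
      rw [hDdef, Subgroup.map_comap_eq, inf_eq_right]
      refine hPH.trans ?_
      rw [hℋ]
      exact Subgroup.map_le_range ψ J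
    have hidx : ∃ k : ℕ, C.relIndex D = p ^ k := by
      rw [← hker, Subgroup.relIndex_ker, hDmap, hP,
        Subgroup.card_map_of_injective (Subgroup.subtype_injective ℋ)]
      exact (Cfsg.Agent.Lib.helper3.pCore_isPGroup3 p ↥ℋ).exists_card_eq
    have hDC := hD D hDn hCD hidx
    have hPbot : P = ⊥ := by
      rw [← hDmap, hDC, ← hker]
      rw [eq_bot_iff]
      rintro _ ⟨x, hx, rfl⟩
      exact Subgroup.mem_bot.mpr (MonoidHom.mem_ker.mp hx)
    rw [hP] at hPbot
    exact (Subgroup.map_eq_bot_iff_of_injective _ (Subgroup.subtype_injective ℋ)).mp hPbot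
  exact ⟨h𝒱, hHV, hf,
    Cfsg.Agent.Lib.helper3.centralizer_pPrimeCore_le_of_pSolvable hsolH hcore, hS3⟩

theorem exists_transv {G : Type*} [Group G] [Finite G] {p : ℕ} [Fact p.Prime] (V H : Subgroup G)
    (hV : Cfsg.IsElementaryAbelian p V) (hHV : H ≤ Subgroup.normalizer (V : Set G))
    (hf : H ⊓ Subgroup.centralizer (V : Set G) = ⊥)
    (hS1 : Subgroup.centralizer (Cfsg.pPrimeCore p ↥H : Set ↥H) ≤ Cfsg.pPrimeCore p ↥H)
    (hS3 : H = ⨆ A : {A : Subgroup G // A ≤ H ∧ Cfsg.IsBestOffenderOn p V A}, (A : Subgroup G))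
    (hH1 : H ≠ ⊥) : ∃ a, IsTransv p V H a := by
  obtain ⟨A₀, hA₀H, hA₀, hA₀V⟩ : ∃ A₀ : Subgroup G, A₀ ≤ H ∧
      Cfsg.IsBestOffenderOn p V A₀ ∧ ⁅V, A₀⁆ ≠ ⊥ := by
    by_contra hcon
    push Not at hcon
    apply hH1
    rw [eq_bot_iff]
    refine le_trans hS3.le (iSup_le fun A => ?_)
    by_contra hne
    have hne' : (A : Subgroup G) ≠ ⊥ := fun h => hne (h ▸ le_rfl)
    exact Cfsg.Agent.Lib.helper3.ff_commutator_ne_bot V H hf A.1 A.2.1 hne'
      (hcon A.1 A.2.1 A.2.2)
  obtain ⟨A, hAA₀, hA, hAV, hmin⟩ := exists_min_offender V A₀ hA₀ hA₀V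
  obtain ⟨a, ha, -⟩ := ff_transv_of_min V H hV hHV hf hS1 A (hAA₀.trans hA₀H) hA hAV hmin
  exact ⟨a, ha⟩

/-- A coprime abelian `q`-group of automorphisms gives an operator group on the holomorph. -/
theorem holX_ffOp {K₁ : Type u} [Group K₁] [Finite K₁] {p : ℕ} [Fact p.Prime] {q : ℕ}
    [Fact q.Prime] (V : Subgroup K₁) [V.Characteristic]
    {X₁ : Type*} [Group X₁] (α : X₁ →* MulAut K₁) (hXq : IsPGroup q X₁)
    (hXab : ∀ x y : X₁, x * y = y * x) (hq : ¬ q ∣ Nat.card K₁)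
    (ℋ : Subgroup (Hol V)) (hℋ : ℋ = (Cfsg.thompsonSubgroup p K₁).map (holHom V))
    (hS : FFSetup p (holV V) ℋ (Cfsg.Agent.Lib.helper3.ffQ p ℋ)) {a : Hol V}
    (ha : IsTransv p (holV V) ℋ a) :
    FFOp q (holV V) ℋ (Cfsg.Agent.Lib.helper3.ffQ p ℋ) ((holAut V).comp α).range := by
  have h𝒱n := holV_normal V
  have h2 : ((holAut V).comp α).range ≤ Subgroup.normalizer (ℋ : Set (Hol V)) := by
    apply Cfsg.Agent.Lib.helper8.le_normalizer_of_conj_mem
    rintro _ ⟨x, rfl⟩ h hh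
    rw [hℋ] at hh ⊢
    obtain ⟨j, hj, rfl⟩ := Subgroup.mem_map.mp hh
    rw [MonoidHom.comp_apply, holAut_conj_hom]
    exact Subgroup.mem_map_of_mem _
      ((Subgroup.characteristic_iff_le_comap.mp (thompson_characteristic p K₁) (α x)) hj)
  have h6 : 6 ∣ Nat.card K₁ := by
    obtain ⟨hp23, -, -, ⟨e⟩, -⟩ := ffE_main hS ha
    have h1 : 6 ∣ Nat.card ↥(ffE (Cfsg.Agent.Lib.helper3.ffQ p ℋ) a) := by
      rw [Nat.card_congr e.toEquiv]
      rcases hp23 with rfl | rfl
      · rw [card_sl2_zmod2]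
      · rw [card_sl2_zmod3]; norm_num
    have h3 : Nat.card ↥ℋ ∣ Nat.card ↥(Cfsg.thompsonSubgroup p K₁) := by
      rw [hℋ]
      exact Dvd.intro_left _ (card_inf_ker_mul_card_map (holHom V) (Cfsg.thompsonSubgroup p K₁))
    exact h1.trans ((Subgroup.card_dvd_of_le (ffE_le hS ha)).trans
      (h3.trans (Subgroup.card_subgroup_dvd_card _)))
  refine ⟨?_, h2, h2.trans (normalizer_le_normalizer_ffQ p ℋ), ?_, ?_, ?_, ?_⟩
  · rw [Subgroup.normalizer_eq_top]; exact le_top
  · exact hXq.of_surjective ((holAut V).comp α).rangeRestrict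
      (MonoidHom.rangeRestrict_surjective _)
  · rintro _ ⟨x, rfl⟩ _ ⟨y, rfl⟩
    rw [← map_mul, ← map_mul, hXab x y]
  · rintro rfl
    exact hq (dvd_trans (by norm_num) h6)
  · rintro rfl
    exact hq (dvd_trans (by norm_num) h6)

end Cfsg.Agent.Lib.helper14
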