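import Mathlib
import Cfsg.Agent.Lib.helper14.HolX

/-!
# Holomorph embedding with operators: lifting fixed points (library, helper14)
-/

set_option autoImplicit false
set_option linter.style.haveILetI false
set_option linter.unusedVariables false
set_option linter.unusedSectionVars false

namespace Cfsg.Agent.Lib.helper14

open scoped commutatorElement

universe u

/-- Conjugation action of `X ≤ N_G(K)` on `K`. -/
noncomputable def conjOn {G : Type u} [Group G] (K X : Subgroup G)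
    (hXK : X ≤ Subgroup.normalizer (K : Set G)) : ↥X →* MulAut ↥K :=
  (Subgroup.normalizerMonoidHom K).comp (Subgroup.inclusion hXK)

theorem conjOn_apply {G : Type u} [Group G] (K X : Subgroup G)
    (hXK : X ≤ Subgroup.normalizer (K : Set G)) (x : ↥X) (k : ↥K) :
    ((conjOn K X hXK x k : ↥K) : G) = (x : G) * k * (x : G)⁻¹ := rfl

/-- Coprime action: an element of `K` whose image in the holomorph is fixed by `X` can be
replaced by a fixed point of `X` with the same image. -/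
theorem hol_lift {G : Type u} [Group G] [Finite G] (K X : Subgroup G)
    (hXK : X ≤ Subgroup.normalizer (K : Set G)) (hcop : (Nat.card X).Coprime (Nat.card K))
    (hsolv : Group.IsSolvable ↥X) (V₀ : Subgroup ↥K) [V₀.Characteristic] (j : ↥K)
    (hj : ∀ x : ↥X, holAut V₀ (conjOn K X hXK x) * holHom V₀ j =
      holHom V₀ j * holAut V₀ (conjOn K X hXK x)) :
    ∃ c : ↥K, (c : G) ∈ Subgroup.centralizer (X : Set G) ∧ holHom V₀ c = holHom V₀ j := by
  obtain ⟨N, hN⟩ : ∃ N : Subgroup G, N = (holHom V₀).ker.map K.subtype := ⟨_, rfl⟩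
  have hNK : N ≤ K := by rw [hN]; exact Subgroup.map_subtype_le _
  have hmemN : ∀ k : ↥K, (k : G) ∈ N ↔ holHom V₀ k = 1 := by
    intro k
    rw [hN]
    constructor
    · rintro ⟨k', hk', hkk⟩
      have : k' = k := Subtype.ext hkk
      rw [← this]; exact MonoidHom.mem_ker.mp hk'
    · intro h
      exact Subgroup.mem_map.mpr ⟨k, MonoidHom.mem_ker.mpr h, rfl⟩
  have hNnormal : K ≤ Subgroup.normalizer (N : Set G) := by
    apply Cfsg.Agent.Lib.helper8.le_normalizer_of_conj_mem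
    intro k hk n hn
    have hnK := hNK hn
    have h1 := (hmemN ⟨n, hnK⟩).mp hn
    obtain ⟨y, hy⟩ : ∃ y : ↥K, y = ⟨k, hk⟩ * ⟨n, hnK⟩ * ⟨k, hk⟩⁻¹ := ⟨_, rfl⟩
    have h2 : holHom V₀ y = 1 := by
      rw [hy, map_mul, map_mul, h1, mul_one, map_inv, mul_inv_cancel]
    have h3 := (hmemN y).mpr h2
    have e : (y : G) = k * n * k⁻¹ := by rw [hy]; rfl
    rw [← e]; exact h3
  have hNA : X ≤ Subgroup.normalizer (N : Set G) := by
    apply Cfsg.Agent.Lib.helper8.le_normalizer_of_conj_mem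
    intro x hx n hn
    have hnK := hNK hn
    have h1 := (hmemN ⟨n, hnK⟩).mp hn
    obtain ⟨y, hy⟩ : ∃ y : ↥K, y = conjOn K X hXK ⟨x, hx⟩ ⟨n, hnK⟩ := ⟨_, rfl⟩
    have h2 : holHom V₀ y = 1 := by
      rw [hy, ← holAut_conj_hom, h1, mul_one, mul_inv_cancel]
    have h3 := (hmemN y).mpr h2
    have e : (y : G) = x * n * x⁻¹ := by rw [hy]; rfl
    rw [← e]; exact h3
  have hfix : ∀ a ∈ X, a * (j : G) * a⁻¹ * (j : G)⁻¹ ∈ N := by
    intro a ha
    obtain ⟨y, hy⟩ : ∃ y : ↥K, y = conjOn K X hXK ⟨a, ha⟩ j * j⁻¹ := ⟨_, rfl⟩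
    have h1 : holHom V₀ y = 1 := by
      rw [hy, map_mul, ← holAut_conj_hom, hj ⟨a, ha⟩, mul_inv_cancel_right, map_inv,
        mul_inv_cancel]
    have h3 := (hmemN y).mpr h1
    have e : (y : G) = a * (j : G) * a⁻¹ * (j : G)⁻¹ := by rw [hy]; rfl
    rw [← e]; exact h3
  obtain ⟨c, hc, hc2⟩ := Cfsg.Agent.Lib.helper8.coprime_fixed_quot X K hcop (Or.inl hsolv) N hNK
    hNnormal hNA (j : G) j.2 hfix
  refine ⟨⟨c, hc.1⟩, hc.2, ?_⟩
  obtain ⟨y, hy⟩ : ∃ y : ↥K, y = j⁻¹ * ⟨c, hc.1⟩ := ⟨_, rfl⟩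
  have e : (y : G) = (j : G)⁻¹ * c := by rw [hy]; rfl
  rw [← e] at hc2
  have h3 := (hmemN y).mp hc2
  rw [hy, map_mul, map_inv, inv_mul_eq_one] at h3
  exact h3.symm

end Cfsg.Agent.Lib.helper14
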