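import Mathlib
import Cfsg.Prelude.Def_Transfer
import Cfsg.Prelude.Def_MonsterType
import Cfsg.Prelude.Def_Amalgam
import Cfsg.Agent.Lib.helper14.LES6

set_option autoImplicit false

namespace Cfsg.Agent.Lib.helper14

open Cfsg.Agent.Lib.helper8
open scoped commutatorElement

universe u

section LES7

variable {G : Type u} [Group G]

/-- Setting for an `ES2` subgroup with a noncentral involution `a`. -/
structure PSet (Q : Subgroup G) (z a : G) : Prop where
  hQ : ES2 Q z
  ha : a ∈ Q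
  haa : a * a = 1

namespace PSet

variable {Q : Subgroup G} {z a : G} (S : PSet Q z a)
include S

theorem ainv : a⁻¹ = a := inv_eq_of_mul_eq_one_left S.haa
theorem az : a * z = z * a := S.hQ.cen a S.ha

theorem idx {v : G} (hv : v * a * v⁻¹ = z * a) {q : G} (hq : q ∈ Q) :
    q * a = a * q ∨ (v⁻¹ * q) * a = a * (v⁻¹ * q) := by
  rcases S.hQ.comm q hq a S.ha with e | e
  · left
    calc q * a = (q * a * q⁻¹ * a⁻¹) * a * q := by group
      _ = a * q := by rw [e]; group
  · right
    have e1 : q * a * q⁻¹ = v * a * v⁻¹ := by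
      rw [hv]
      calc q * a * q⁻¹ = (q * a * q⁻¹ * a⁻¹) * a := by group
        _ = z * a := by rw [e]
    calc (v⁻¹ * q) * a = v⁻¹ * (q * a * q⁻¹) * q := by group
      _ = v⁻¹ * (v * a * v⁻¹) * q := by rw [e1]
      _ = a * (v⁻¹ * q) := by group

theorem hav {v : G} (hv : v * a * v⁻¹ = z * a) : a * v = z * (v * a) := by
  calc a * v = (z * z) * a * v := by rw [S.hQ.sq, one_mul]
    _ = z * (z * a) * v := by group
    _ = z * (v * a * v⁻¹) * v := by rw [hv]
    _ = z * (v * a) := by group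

theorem cen_crit {v : G} (hvQ : v ∈ Q) (hv : v * a * v⁻¹ = z * a) {m : G}
    (hmv : m * v = v * m) (hmR : ∀ r ∈ Q, r * a = a * r → m * r = r * m) :
    ∀ q ∈ Q, q * m = m * q := by
  intro q hq
  rcases S.idx hv hq with e | e
  · exact (hmR q hq e).symm
  · have h2 := hmR (v⁻¹ * q) (Q.mul_mem (Q.inv_mem hvQ) hq) e
    calc q * m = v * ((v⁻¹ * q) * m) := by group
      _ = v * (m * (v⁻¹ * q)) := by rw [h2]
      _ = (v * m) * v⁻¹ * q := by group
      _ = (m * v) * v⁻¹ * q := by rw [hmv]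
      _ = m * q := by group

theorem zR {v : G} (hvQ : v ∈ Q) (hv : v * a * v⁻¹ = z * a) {n : G} (hn : n ∈ Q)
    (hnR : ∀ r ∈ Q, r * a = a * r → n * r = r * n) :
    n = 1 ∨ n = z ∨ n = a ∨ n = a * z := by
  rcases S.hQ.comm n hn v hvQ with e | e
  · have h1 : n * v = v * n := by
      calc n * v = (n * v * n⁻¹ * v⁻¹) * v * n := by group
        _ = v * n := by rw [e]; group
    rcases S.hQ.zen n hn (S.cen_crit hvQ hv h1 hnR) with h | h
    · left; exact h
    · right; left; exact h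
  · have hnv : n * v = z * v * n := by
      calc n * v = (n * v * n⁻¹ * v⁻¹) * v * n := by group
        _ = z * v * n := by rw [e]
    have hna : (n * a) * v = v * (n * a) := by
      calc (n * a) * v = n * (a * v) := by group
        _ = n * (z * (v * a)) := by rw [S.hav hv]
        _ = (n * z) * v * a := by group
        _ = (z * n) * v * a := by rw [S.hQ.cen n hn]
        _ = z * (n * v) * a := by group
        _ = z * (z * v * n) * a := by rw [hnv]
        _ = (z * z) * v * n * a := by group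
        _ = v * (n * a) := by rw [S.hQ.sq]; group
    have hnaR : ∀ r ∈ Q, r * a = a * r → (n * a) * r = r * (n * a) := by
      intro r hr hra
      calc (n * a) * r = n * (a * r) := by group
        _ = n * (r * a) := by rw [hra]
        _ = (n * r) * a := by group
        _ = (r * n) * a := by rw [hnR r hr hra]
        _ = r * (n * a) := by group
    rcases S.hQ.zen (n * a) (Q.mul_mem hn S.ha) (S.cen_crit hvQ hv hna hnaR)
      with h | h
    · right; right; left
      calc n = (n * a) * a⁻¹ := by group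
        _ = a := by rw [h, S.ainv, one_mul]
    · right; right; right
      calc n = (n * a) * a⁻¹ := by group
        _ = z * a := by rw [h, S.ainv]
        _ = a * z := S.az.symm

/-- An element centralizing `z` and `C_Q(a)` lies in `Q`. -/
theorem al {v : G} (hvQ : v ∈ Q) (hv : v * a * v⁻¹ = z * a) {y : G} (hyz : y * z = z * y)
    (hyR : ∀ r ∈ Q, r * a = a * r → y * r = r * y) : y ∈ Q := by
  have hya : y * a = a * y := hyR a S.ha rfl
  have hwQ : y * v * y⁻¹ ∈ Q := S.hQ.nor y hyz v hvQ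
  have hkQ : v⁻¹ * (y * v * y⁻¹) ∈ Q := Q.mul_mem (Q.inv_mem hvQ) hwQ
  have hkR : ∀ r ∈ Q, r * a = a * r → (v⁻¹ * (y * v * y⁻¹)) * r = r * (v⁻¹ * (y * v * y⁻¹)) := by
    intro r hr hra
    have hyr : y⁻¹ * r * y = r := by
      calc y⁻¹ * r * y = y⁻¹ * (r * y) := by group
        _ = y⁻¹ * (y * r) := by rw [hyR r hr hra]
        _ = r := by group
    have hcy : y * (v * r * v⁻¹ * r⁻¹) * y⁻¹ = v * r * v⁻¹ * r⁻¹ := by
      rcases S.hQ.comm v hvQ r hr with e | e
      · rw [e]; group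
      · rw [e]
        calc y * z * y⁻¹ = (z * y) * y⁻¹ := by rw [hyz]
          _ = z := by group
    have h1 : (y * v * y⁻¹) * r = v * r * v⁻¹ * (y * v * y⁻¹) := by
      calc (y * v * y⁻¹) * r = y * v * (y⁻¹ * r * y) * y⁻¹ := by group
        _ = y * v * r * y⁻¹ := by rw [hyr]
        _ = (y * (v * r * v⁻¹ * r⁻¹) * y⁻¹) * (y * r * y⁻¹) * (y * v * y⁻¹) := by group
        _ = (v * r * v⁻¹ * r⁻¹) * (y * r * y⁻¹) * (y * v * y⁻¹) := by rw [hcy]
        _ = (v * r * v⁻¹ * r⁻¹) * ((y * r) * y⁻¹) * (y * v * y⁻¹) := by group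
        _ = (v * r * v⁻¹ * r⁻¹) * ((r * y) * y⁻¹) * (y * v * y⁻¹) := by rw [hyR r hr hra]
        _ = v * r * v⁻¹ * (y * v * y⁻¹) := by group
    calc (v⁻¹ * (y * v * y⁻¹)) * r = v⁻¹ * ((y * v * y⁻¹) * r) := by group
      _ = v⁻¹ * (v * r * v⁻¹ * (y * v * y⁻¹)) := by rw [h1]
      _ = r * (v⁻¹ * (y * v * y⁻¹)) := by group
  have hvv : y * (v * v) * y⁻¹ = v * v := by
    rcases S.hQ.sqs v hvQ with e | e
    · rw [e]; group
    · rw [e]
      calc y * z * y⁻¹ = (z * y) * y⁻¹ := by rw [hyz]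
        _ = z := by group
  have hww : (y * v * y⁻¹) * (y * v * y⁻¹) = v * v := by
    rw [← hvv]; group
  have hva2 : (v * a) * (v * a) = z * (v * v) := by
    have hvva : (v * v) * a = a * (v * v) := by
      rcases S.hQ.sqs v hvQ with e | e
      · rw [e]; group
      · rw [e]; exact S.az.symm
    calc (v * a) * (v * a) = (v * a * v⁻¹) * ((v * v) * a) := by group
      _ = (z * a) * (a * (v * v)) := by rw [hv, hvva]
      _ = z * (a * a) * (v * v) := by group
      _ = z * (v * v) := by rw [S.haa, mul_one]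
  have hz1 : z * (v * v) ≠ v * v := by
    intro h
    exact S.hQ.ne (mul_eq_right.mp h)
  rcases S.zR hvQ hv hkQ hkR with h | h | h | h
  · have hyv : y * v = v * y := by
      calc y * v = v * (v⁻¹ * (y * v * y⁻¹)) * y := by group
        _ = v * y := by rw [h, mul_one]
    apply S.hQ.self
    intro q hq
    rcases S.idx hv hq with e | e
    · exact hyR q hq e
    · have h2 := hyR (v⁻¹ * q) (Q.mul_mem (Q.inv_mem hvQ) hq) e
      calc y * q = (y * v) * v⁻¹ * q := by group
        _ = (v * y) * v⁻¹ * q := by rw [hyv]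
        _ = v * (y * (v⁻¹ * q)) := by group
        _ = v * ((v⁻¹ * q) * y) := by rw [h2]
        _ = q * y := by group
  · have hyv : y * v = v * z * y := by
      calc y * v = v * (v⁻¹ * (y * v * y⁻¹)) * y := by group
        _ = v * z * y := by rw [h]
    have hayv : (a * y) * v = v * (a * y) := by
      calc (a * y) * v = a * (y * v) := by group
        _ = a * (v * z * y) := by rw [hyv]
        _ = (a * v) * z * y := by group
        _ = (z * (v * a)) * z * y := by rw [S.hav hv]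
        _ = z * v * (a * z) * y := by group
        _ = z * v * (z * a) * y := by rw [S.az]
        _ = z * (v * z) * a * y := by group
        _ = z * (z * v) * a * y := by rw [S.hQ.cen v hvQ]
        _ = (z * z) * v * a * y := by group
        _ = v * (a * y) := by rw [S.hQ.sq]; group
    have hayQ : a * y ∈ Q := by
      apply S.hQ.self
      intro q hq
      have hayR : ∀ r ∈ Q, r * a = a * r → (a * y) * r = r * (a * y) := by
        intro r hr hra
        calc (a * y) * r = a * (y * r) := by group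
          _ = a * (r * y) := by rw [hyR r hr hra]
          _ = (a * r) * y := by group
          _ = (r * a) * y := by rw [hra]
          _ = r * (a * y) := by group
      rcases S.idx hv hq with e | e
      · exact hayR q hq e
      · have h2 := hayR (v⁻¹ * q) (Q.mul_mem (Q.inv_mem hvQ) hq) e
        calc (a * y) * q = ((a * y) * v) * v⁻¹ * q := by group
          _ = (v * (a * y)) * v⁻¹ * q := by rw [hayv]
          _ = v * ((a * y) * (v⁻¹ * q)) := by group
          _ = v * ((v⁻¹ * q) * (a * y)) := by rw [h2]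
          _ = q * (a * y) := by group
    have : y = a⁻¹ * (a * y) := by group
    rw [this]
    exact Q.mul_mem (Q.inv_mem S.ha) hayQ
  · exfalso
    apply hz1
    have hw : y * v * y⁻¹ = v * a := by
      calc y * v * y⁻¹ = v * (v⁻¹ * (y * v * y⁻¹)) := by group
        _ = v * a := by rw [h]
    rw [← hva2, ← hw, hww]
  · exfalso
    apply hz1
    have hw : y * v * y⁻¹ = v * (a * z) := by
      calc y * v * y⁻¹ = v * (v⁻¹ * (y * v * y⁻¹)) := by group
        _ = v * (a * z) := by rw [h]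
    have h2 : (v * (a * z)) * (v * (a * z)) = (v * a) * (v * a) := by
      calc (v * (a * z)) * (v * (a * z)) = v * a * (z * v) * (a * z) := by group
        _ = v * a * (v * z) * (a * z) := by rw [S.hQ.cen v hvQ]
        _ = v * a * v * (z * a) * z := by group
        _ = v * a * v * (a * z) * z := by rw [S.az]
        _ = (v * a) * (v * a) * (z * z) := by group
        _ = (v * a) * (v * a) := by rw [S.hQ.sq, mul_one]
    rw [← hva2, ← h2, ← hw, hww]

end PSet

/-! ### General commutator lemmas for joins -/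

theorem sup_eq_closure_union (A B : Subgroup G) :
    A ⊔ B = Subgroup.closure ((A : Set G) ∪ B) := by
  rw [Subgroup.closure_union, Subgroup.closure_eq, Subgroup.closure_eq]

theorem comm_mem_sup_left (V : Subgroup G) (E : Set G) (A B : Subgroup G)
    (hA : A ≤ Subgroup.normalizer (V : Set G)) (hB : B ≤ Subgroup.normalizer (V : Set G))
    (hgA : ∀ x ∈ A, ∀ e ∈ E, x * e * x⁻¹ * e⁻¹ ∈ V)
    (hgB : ∀ x ∈ B, ∀ e ∈ E, x * e * x⁻¹ * e⁻¹ ∈ V) :
    ∀ x ∈ A ⊔ B, ∀ e ∈ E, x * e * x⁻¹ * e⁻¹ ∈ V := by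
  intro x hx e he
  have hAB := sup_eq_closure_union A B
  have hN : Subgroup.closure ((A : Set G) ∪ B) ≤ Subgroup.normalizer (V : Set G) := by
    rw [← hAB]; exact sup_le hA hB
  rw [hAB] at hx
  induction hx using Subgroup.closure_induction with
  | mem t ht =>
    rcases ht with ht | ht
    · exact hgA t ht e he
    · exact hgB t ht e he
  | one =>
    have : (1 : G) * e * 1⁻¹ * e⁻¹ = 1 := by group
    rw [this]; exact V.one_mem
  | mul x y hx hy ihx ihy =>
    have hxN : x ∈ Subgroup.normalizer (V : Set G) := hN hx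
    have e1 : x * y * e * (x * y)⁻¹ * e⁻¹ =
        (x * (y * e * y⁻¹ * e⁻¹) * x⁻¹) * (x * e * x⁻¹ * e⁻¹) := by group
    rw [e1]
    exact V.mul_mem (conj_mem_of_mem_normalizer hxN ihy) ihx
  | inv x hx ih =>
    have hxN : x⁻¹ ∈ Subgroup.normalizer (V : Set G) := Subgroup.inv_mem _ (hN hx)
    have e1 : x⁻¹ * e * x⁻¹⁻¹ * e⁻¹ = x⁻¹ * (x * e * x⁻¹ * e⁻¹)⁻¹ * x⁻¹⁻¹ := by group
    rw [e1]
    exact conj_mem_of_mem_normalizer hxN (V.inv_mem ih)

theorem comm_mem_sup (E A B : Subgroup G)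
    (hA : A ≤ Subgroup.normalizer (E : Set G)) (hB : B ≤ Subgroup.normalizer (E : Set G))
    (hAA : ∀ x ∈ A, ∀ y ∈ A, x * y * x⁻¹ * y⁻¹ ∈ E)
    (hAB : ∀ x ∈ A, ∀ y ∈ B, x * y * x⁻¹ * y⁻¹ ∈ E)
    (hBB : ∀ x ∈ B, ∀ y ∈ B, x * y * x⁻¹ * y⁻¹ ∈ E) :
    ∀ x ∈ A ⊔ B, ∀ y ∈ A ⊔ B, x * y * x⁻¹ * y⁻¹ ∈ E := by
  have hBA : ∀ x ∈ B, ∀ y ∈ A, x * y * x⁻¹ * y⁻¹ ∈ E := by
    intro x hx y hy
    have e : x * y * x⁻¹ * y⁻¹ = (y * x * y⁻¹ * x⁻¹)⁻¹ := by group
    rw [e]; exact E.inv_mem (hAB y hy x hx)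
  have h1 : ∀ x ∈ A ⊔ B, ∀ y ∈ ((A : Set G) ∪ B), x * y * x⁻¹ * y⁻¹ ∈ E := by
    apply comm_mem_sup_left E _ A B hA hB
    · intro x hx y hy
      rcases hy with hy | hy
      · exact hAA x hx y hy
      · exact hAB x hx y hy
    · intro x hx y hy
      rcases hy with hy | hy
      · exact hBA x hx y hy
      · exact hBB x hx y hy
  have h2 : ∀ y ∈ A ⊔ B, ∀ x ∈ ((A ⊔ B : Subgroup G) : Set G), y * x * y⁻¹ * x⁻¹ ∈ E := by
    apply comm_mem_sup_left E _ A B hA hB
    · intro y hy x hx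
      have e : y * x * y⁻¹ * x⁻¹ = (x * y * x⁻¹ * y⁻¹)⁻¹ := by group
      rw [e]; exact E.inv_mem (h1 x hx y (Or.inl hy))
    · intro y hy x hx
      have e : y * x * y⁻¹ * x⁻¹ = (x * y * x⁻¹ * y⁻¹)⁻¹ := by group
      rw [e]; exact E.inv_mem (h1 x hx y (Or.inr hy))
  intro x hx y hy
  exact h2 x hx y hy

theorem sq_mem_sup (E A B : Subgroup G)
    (hN : A ⊔ B ≤ Subgroup.normalizer (E : Set G))
    (hcomm : ∀ x ∈ A ⊔ B, ∀ y ∈ A ⊔ B, x * y * x⁻¹ * y⁻¹ ∈ E)
    (hA : ∀ x ∈ A, x * x ∈ E) (hB : ∀ x ∈ B, x * x ∈ E) :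
    ∀ x ∈ A ⊔ B, x * x ∈ E := by
  intro x hx
  have hAB := sup_eq_closure_union A B
  have hx' := hx
  rw [hAB] at hx'
  induction hx' using Subgroup.closure_induction with
  | mem t ht =>
    rcases ht with ht | ht
    · exact hA t ht
    · exact hB t ht
  | one => rw [one_mul]; exact E.one_mem
  | mul x y hx1 hy1 ihx ihy =>
    have hxR : x ∈ A ⊔ B := by rw [hAB]; exact hx1
    have hyR : y ∈ A ⊔ B := by rw [hAB]; exact hy1
    have e1 : x * y * (x * y) = (x * (y * x * y⁻¹ * x⁻¹) * x⁻¹) * ((x * x) * (y * y)) := by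
      simp only [mul_inv_rev, inv_inv, mul_assoc, inv_mul_cancel_left, mul_inv_cancel_left,
        mul_inv_cancel, inv_mul_cancel, mul_one, one_mul]
    rw [e1]
    exact E.mul_mem (conj_mem_of_mem_normalizer (hN hxR) (hcomm y hyR x hxR))
      (E.mul_mem (ihx hxR) (ihy hyR))
  | inv x hx1 ih =>
    have hxR : x ∈ A ⊔ B := by rw [hAB]; exact hx1
    have e1 : x⁻¹ * x⁻¹ = (x * x)⁻¹ := by group
    rw [e1]; exact E.inv_mem (ih hxR)

end LES7

end Cfsg.Agent.Lib.helper14
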