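import Mathlib
import Cfsg.Prelude.Def_Transfer
import Cfsg.Prelude.Def_MonsterType
import Cfsg.Prelude.Def_Amalgam
import Cfsg.Agent.Lib.helper14.LES7

set_option autoImplicit false

namespace Cfsg.Agent.Lib.helper14

open Cfsg.Agent.Lib.helper8
open scoped commutatorElement

universe u

section LES8

variable {G : Type u} [Group G]

theorem s5431_core {Q P : Subgroup G} {z a : G} (hQ : ES2 Q z) (hP : ES2 P a) (ha : a ∈ Q)
    (hzP : z ∈ P) (haz : a ≠ z)
    (V X R E : Subgroup G) (hV : V = Subgroup.closure ({z, a} : Set G)) (hX : X = Q ⊔ P)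
    (hR : R = (P ⊓ Subgroup.centralizer ({z} : Set G)) ⊔ (Q ⊓ Subgroup.centralizer ({a} : Set G)))
    (hE : E = Q ⊓ P) :
    (Subgroup.center ↥R).map R.subtype = V ∧
    E ≤ (Subgroup.upperCentralSeries ↥R 2).map R.subtype ∧
    Subgroup.upperCentralSeries ↥R 3 = ⊤ ∧ Cfsg.IsElementaryAbelian 2 E ∧
    (∀ x ∈ R, ∀ y ∈ R, x * y * x⁻¹ * y⁻¹ ∈ E ∧ x ^ 2 ∈ E) ∧
    (P ⊓ Subgroup.centralizer ({z} : Set G)) ⊓ (Q ⊓ Subgroup.centralizer ({a} : Set G)) = E ∧
    ⁅X, E⁆ ≤ V := by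
  have hz2 := hQ.sq
  have ha2 := hP.sq
  have hcomm : a * z = z * a := hQ.cen a ha
  have ha1 : a ≠ 1 := hP.ne
  have SQ : PSet Q z a := ⟨hQ, ha, ha2⟩
  have hEQ : E ≤ Q := by rw [hE]; exact inf_le_left
  have hEP : E ≤ P := by rw [hE]; exact inf_le_right
  have hmemE : ∀ x, x ∈ E ↔ x ∈ Q ∧ x ∈ P := by intro x; rw [hE]; exact Subgroup.mem_inf
  have hzE : z ∈ E := (hmemE z).mpr ⟨hQ.mem, hzP⟩
  have haE : a ∈ E := (hmemE a).mpr ⟨ha, hP.mem⟩
  obtain ⟨R₁, hR₁⟩ : ∃ R₁, R₁ = Q ⊓ Subgroup.centralizer ({a} : Set G) := ⟨_, rfl⟩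
  obtain ⟨R₂, hR₂⟩ : ∃ R₂, R₂ = P ⊓ Subgroup.centralizer ({z} : Set G) := ⟨_, rfl⟩
  rw [← hR₁, ← hR₂] at hR ⊢
  have hm1 : ∀ x, x ∈ R₁ ↔ x ∈ Q ∧ x * a = a * x := by
    intro x; rw [hR₁, Subgroup.mem_inf, Subgroup.mem_centralizer_singleton_iff]
  have hm2 : ∀ x, x ∈ R₂ ↔ x ∈ P ∧ x * z = z * x := by
    intro x; rw [hR₂, Subgroup.mem_inf, Subgroup.mem_centralizer_singleton_iff]
  have hE1 : E ≤ R₁ := fun x hx => (hm1 x).mpr ⟨hEQ hx, hP.cen x (hEP hx)⟩
  have hE2 : E ≤ R₂ := fun x hx => (hm2 x).mpr ⟨hEP hx, hQ.cen x (hEQ hx)⟩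
  have hR1R : R₁ ≤ R := by rw [hR]; exact le_sup_right
  have hR2R : R₂ ≤ R := by rw [hR]; exact le_sup_left
  have hER : E ≤ R := hE1.trans hR1R
  have hVmem : ∀ x, x ∈ V ↔ x = 1 ∨ x = z ∨ x = a ∨ x = z * a := by
    intro x
    have h0 : ({z, a} : Set G) = {z} ∪ {a} := Set.insert_eq z {a}
    rw [hV, h0, Subgroup.closure_union, ← Subgroup.zpowers_eq_closure,
      ← Subgroup.zpowers_eq_closure]
    have hn : Subgroup.zpowers a ≤ Subgroup.normalizer (Subgroup.zpowers z : Set G) := by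
      rw [Subgroup.zpowers_le]
      apply Subgroup.centralizer_le_normalizer
      rw [Subgroup.mem_centralizer_iff]
      intro t ht
      rcases (mem_zpowers_of_sq hz2 t).mp ht with h | h
      · rw [h]; simp
      · rw [h]; exact hcomm.symm
    rw [mem_sup_iff_of_le_normalizer hn]
    constructor
    · rintro ⟨n, hn', b, hb, hx⟩
      rcases (mem_zpowers_of_sq hz2 n).mp hn' with h1 | h1 <;>
        rcases (mem_zpowers_of_sq ha2 b).mp hb with h2 | h2
      · left; rw [hx, h1, h2, mul_one]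
      · right; right; left; rw [hx, h1, h2, one_mul]
      · right; left; rw [hx, h1, h2, mul_one]
      · right; right; right; rw [hx, h1, h2]
    · rintro (h | h | h | h)
      · exact ⟨1, Subgroup.one_mem _, 1, Subgroup.one_mem _, by rw [h, mul_one]⟩
      · exact ⟨z, Subgroup.mem_zpowers z, 1, Subgroup.one_mem _, by rw [h, mul_one]⟩
      · exact ⟨1, Subgroup.one_mem _, a, Subgroup.mem_zpowers a, by rw [h, one_mul]⟩
      · exact ⟨z, Subgroup.mem_zpowers z, a, Subgroup.mem_zpowers a, h⟩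
  have hVE : V ≤ E := by
    intro x hx
    rcases (hVmem x).mp hx with h | h | h | h
    · rw [h]; exact E.one_mem
    · rw [h]; exact hzE
    · rw [h]; exact haE
    · rw [h]; exact E.mul_mem hzE haE
  have hzV : z ∈ V := (hVmem z).mpr (Or.inr (Or.inl rfl))
  have haV : a ∈ V := (hVmem a).mpr (Or.inr (Or.inr (Or.inl rfl)))
  have c6 : R₂ ⊓ R₁ = E := by
    apply le_antisymm
    · intro x hx
      exact (hmemE x).mpr ⟨((hm1 x).mp hx.2).1, ((hm2 x).mp hx.1).1⟩
    · exact le_inf hE2 hE1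
  have hEsq : ∀ x ∈ E, x * x = 1 := by
    intro x hx
    rcases hQ.sqs x (hEQ hx) with h | h
    · exact h
    · rcases hP.sqs x (hEP hx) with h' | h'
      · exact h'
      · exact absurd (h'.symm.trans h) haz
  have hEcomm : ∀ x ∈ E, ∀ y ∈ E, x * y = y * x := comm_of_sq E hEsq
  have c4 : Cfsg.IsElementaryAbelian 2 E := by
    refine ⟨⟨⟨fun x y => Subtype.ext (hEcomm x.1 x.2 y.1 y.2)⟩⟩, ?_⟩
    intro x hx
    rw [pow_two]; exact hEsq x hx
  have hR1E : ∀ r ∈ R₁, ∀ e ∈ E, r * e * r⁻¹ ∈ E := by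
    intro r hr e he
    obtain ⟨hrQ, hra⟩ := (hm1 r).mp hr
    rw [hmemE]
    exact ⟨Q.mul_mem (Q.mul_mem hrQ (hEQ he)) (Q.inv_mem hrQ), hP.nor r hra e (hEP he)⟩
  have hR2E : ∀ r ∈ R₂, ∀ e ∈ E, r * e * r⁻¹ ∈ E := by
    intro r hr e he
    obtain ⟨hrP, hrz⟩ := (hm2 r).mp hr
    rw [hmemE]
    exact ⟨hQ.nor r hrz e (hEQ he), P.mul_mem (P.mul_mem hrP (hEP he)) (P.inv_mem hrP)⟩
  have hR1N : R₁ ≤ Subgroup.normalizer (E : Set G) := Cfsg.Agent.Lib.helper8.le_normalizer_of_conj_mem hR1E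
  have hR2N : R₂ ≤ Subgroup.normalizer (E : Set G) := Cfsg.Agent.Lib.helper8.le_normalizer_of_conj_mem hR2E
  have h11 : ∀ x ∈ R₁, ∀ y ∈ R₁, x * y * x⁻¹ * y⁻¹ ∈ E := by
    intro x hx y hy
    rcases hQ.comm x ((hm1 x).mp hx).1 y ((hm1 y).mp hy).1 with h | h
    · rw [h]; exact E.one_mem
    · rw [h]; exact hzE
  have h22 : ∀ x ∈ R₂, ∀ y ∈ R₂, x * y * x⁻¹ * y⁻¹ ∈ E := by
    intro x hx y hy
    rcases hP.comm x ((hm2 x).mp hx).1 y ((hm2 y).mp hy).1 with h | h
    · rw [h]; exact E.one_mem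
    · rw [h]; exact haE
  have h21 : ∀ x ∈ R₂, ∀ y ∈ R₁, x * y * x⁻¹ * y⁻¹ ∈ E := by
    intro x hx y hy
    obtain ⟨hxP, hxz⟩ := (hm2 x).mp hx
    obtain ⟨hyQ, hya⟩ := (hm1 y).mp hy
    rw [hmemE]
    constructor
    · exact Q.mul_mem (hQ.nor x hxz y hyQ) (Q.inv_mem hyQ)
    · have e : x * y * x⁻¹ * y⁻¹ = x * (y * x⁻¹ * y⁻¹) := by group
      rw [e]
      exact P.mul_mem hxP (hP.nor y hya x⁻¹ (P.inv_mem hxP))
  have hRcomm : ∀ x ∈ R, ∀ y ∈ R, x * y * x⁻¹ * y⁻¹ ∈ E := by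
    rw [hR]
    exact comm_mem_sup E R₂ R₁ hR2N hR1N h22 h21 h11
  have hRN : R ≤ Subgroup.normalizer (E : Set G) := by rw [hR]; exact sup_le hR2N hR1N
  have hRsq : ∀ x ∈ R, x * x ∈ E := by
    have h := sq_mem_sup E R₂ R₁ (by rw [← hR]; exact hRN) (by rw [← hR]; exact hRcomm)
      (by
        intro x hx
        rcases hP.sqs x ((hm2 x).mp hx).1 with h | h
        · rw [h]; exact E.one_mem
        · rw [h]; exact haE)
      (by
        intro x hx
        rcases hQ.sqs x ((hm1 x).mp hx).1 with h | h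
        · rw [h]; exact E.one_mem
        · rw [h]; exact hzE)
    rw [hR]; exact h
  have c5 : ∀ x ∈ R, ∀ y ∈ R, x * y * x⁻¹ * y⁻¹ ∈ E ∧ x ^ 2 ∈ E := by
    intro x hx y hy
    exact ⟨hRcomm x hx y hy, by rw [pow_two]; exact hRsq x hx⟩
  have hVQ : V ≤ Q := hVE.trans hEQ
  have hVP : V ≤ P := hVE.trans hEP
  have hQV : Q ≤ Subgroup.normalizer (V : Set G) := by
    apply Cfsg.Agent.Lib.helper8.le_normalizer_of_conj_mem
    intro q hq v hv
    have e : q * v * q⁻¹ = (q * v * q⁻¹ * v⁻¹) * v := by group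
    rw [e]
    rcases hQ.comm q hq v (hVQ hv) with h | h
    · rw [h, one_mul]; exact hv
    · rw [h]; exact V.mul_mem hzV hv
  have hPV : P ≤ Subgroup.normalizer (V : Set G) := by
    apply Cfsg.Agent.Lib.helper8.le_normalizer_of_conj_mem
    intro q hq v hv
    have e : q * v * q⁻¹ = (q * v * q⁻¹ * v⁻¹) * v := by group
    rw [e]
    rcases hP.comm q hq v (hVP hv) with h | h
    · rw [h, one_mul]; exact hv
    · rw [h]; exact V.mul_mem haV hv
  have hXE : ∀ x ∈ X, ∀ e ∈ E, x * e * x⁻¹ * e⁻¹ ∈ V := by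
    have h := comm_mem_sup_left V (E : Set G) Q P hQV hPV
      (fun q hq e he => by
        rcases hQ.comm q hq e (hEQ he) with h | h
        · rw [h]; exact V.one_mem
        · rw [h]; exact hzV)
      (fun q hq e he => by
        rcases hP.comm q hq e (hEP he) with h | h
        · rw [h]; exact V.one_mem
        · rw [h]; exact haV)
    rw [hX]; exact h
  have c7 : ⁅X, E⁆ ≤ V := by
    rw [Subgroup.commutator_le]
    intro x hx e he
    rw [commutatorElement_def]
    exact hXE x hx e he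
  have hRX : R ≤ X := by
    rw [hR, hX, hR₁, hR₂]
    exact sup_le (inf_le_left.trans le_sup_right) (inf_le_left.trans le_sup_left)
  have hRz : ∀ x ∈ R, x * z = z * x := by
    have : R ≤ Subgroup.centralizer ({z} : Set G) := by
      rw [hR]
      apply sup_le
      · rw [hR₂]; exact inf_le_right
      · intro x hx
        rw [Subgroup.mem_centralizer_singleton_iff]
        exact hQ.cen x ((hm1 x).mp hx).1
    intro x hx
    exact Subgroup.mem_centralizer_singleton_iff.mp (this hx)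
  have hRa : ∀ x ∈ R, x * a = a * x := by
    have : R ≤ Subgroup.centralizer ({a} : Set G) := by
      rw [hR]
      apply sup_le
      · intro x hx
        rw [Subgroup.mem_centralizer_singleton_iff]
        exact hP.cen x ((hm2 x).mp hx).1
      · rw [hR₁]; exact inf_le_right
    intro x hx
    exact Subgroup.mem_centralizer_singleton_iff.mp (this hx)
  have c1 : (Subgroup.center ↥R).map R.subtype = V := by
    ext x
    rw [mem_center_map_iff]
    constructor
    · rintro ⟨hxR, hxc⟩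
      obtain ⟨v, hvQ, hv⟩ := hQ.exists_v ha ha1 haz
      have hxR1 : ∀ r ∈ Q, r * a = a * r → x * r = r * x := by
        intro r hr hra
        exact (hxc r (hR1R ((hm1 r).mpr ⟨hr, hra⟩))).symm
      have hxQ : x ∈ Q := SQ.al hvQ hv (hRz x hxR) hxR1
      rw [hVmem]
      rcases SQ.zR hvQ hv hxQ hxR1 with h | h | h | h
      · left; exact h
      · right; left; exact h
      · right; right; left; exact h
      · right; right; right; rw [h, hcomm]
    · intro hx
      refine ⟨hER (hVE hx), ?_⟩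
      intro q hq
      rcases (hVmem x).mp hx with h | h | h | h
      · rw [h]; simp
      · rw [h]; exact hRz q hq
      · rw [h]; exact hRa q hq
      · rw [h]
        calc q * (z * a) = (q * z) * a := by group
          _ = (z * q) * a := by rw [hRz q hq]
          _ = z * (q * a) := by group
          _ = z * (a * q) := by rw [hRa q hq]
          _ = z * a * q := by group
  have c2 : E ≤ (Subgroup.upperCentralSeries ↥R 2).map R.subtype := by
    intro x hx
    refine ⟨⟨x, hER hx⟩, ?_, rfl⟩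
    refine (Subgroup.mem_upperCentralSeries_succ_iff (n := 1)).mpr ?_
    intro y
    rw [Subgroup.upperCentralSeries_one]
    have hval : ((⁅(⟨x, hER hx⟩ : ↥R), y⁆ : ↥R) : G) ∈ V := by
      have e : ((⁅(⟨x, hER hx⟩ : ↥R), y⁆ : ↥R) : G) = (y.1 * x * y.1⁻¹ * x⁻¹)⁻¹ := by
        rw [commutatorElement_def]
        simp only [Subgroup.coe_mul, Subgroup.coe_inv]
        group
      rw [e]
      exact V.inv_mem (hXE y.1 (hRX y.2) x hx)
    rw [← c1] at hval
    obtain ⟨c, hc, hce⟩ := hval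
    have : c = ⁅(⟨x, hER hx⟩ : ↥R), y⁆ := Subtype.ext hce
    rw [← this]; exact hc
  have c3 : Subgroup.upperCentralSeries ↥R 3 = ⊤ := by
    rw [eq_top_iff]
    intro x _
    refine (Subgroup.mem_upperCentralSeries_succ_iff (n := 2)).mpr ?_
    intro y
    have hval : ((⁅x, y⁆ : ↥R) : G) ∈ E := by
      have e : ((⁅x, y⁆ : ↥R) : G) = x.1 * y.1 * x.1⁻¹ * y.1⁻¹ := by
        rw [commutatorElement_def]
        simp only [Subgroup.coe_mul, Subgroup.coe_inv]
      rw [e]; exact hRcomm x.1 x.2 y.1 y.2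
    obtain ⟨c, hc, hce⟩ := c2 hval
    have : c = ⁅x, y⁆ := Subtype.ext hce
    rw [← this]; exact hc
  exact ⟨c1, c2, c3, c4, c5, c6, c7⟩

theorem centralizer_singleton_le_zpowers (z : G) :
    Subgroup.centralizer ({z} : Set G) ≤ Subgroup.centralizer (Subgroup.zpowers z : Set G) := by
  intro c hc
  rw [Subgroup.mem_centralizer_singleton_iff] at hc
  rw [Subgroup.mem_centralizer_iff]
  intro n hn
  obtain ⟨k, rfl⟩ := Subgroup.mem_zpowers_iff.mp hn
  exact ((Commute.zpow_right hc k).eq).symm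

/-- The `ES2` structure of a large extraspecial 2-subgroup with centre generated by `z`. -/
theorem es2_of_large [Finite G] (Q : Subgroup G) (hQ : Cfsg.IsLargeExtraspecial Q) (z : G)
    (hz : ((Subgroup.center ↥Q).map Q.subtype) = Subgroup.zpowers z) (hz2 : orderOf z = 2) :
    ES2 Q z := by
  have hz1 : z ≠ 1 := by
    intro h
    rw [h, orderOf_one] at hz2
    omega
  have hzZ : ZQ Q z := by
    rw [← mem_center_map_iff, hz]; exact Subgroup.mem_zpowers z
  have hC : Subgroup.centralizer (Q : Set G) ≤ Q := by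
    rw [hQ.2.1]; exact Subgroup.map_subtype_le _
  have hN : Subgroup.centralizer ({z} : Set G) ≤ Subgroup.normalizer (Q : Set G) := by
    have := hQ.2.2.1
    rw [hz] at this
    exact (centralizer_singleton_le_zpowers z).trans this
  exact ES2.of_extraspecial Q hQ.1 z hzZ hz1 hC hN

theorem s5431_aux [Finite G] (Q : Subgroup G) (hQ : Cfsg.IsLargeExtraspecial Q) (z : G)
    (hz : ((Subgroup.center ↥Q).map Q.subtype) = Subgroup.zpowers z) (hz2 : orderOf z = 2)
    (g : G) (hgH : g ∉ Subgroup.centralizer ({z} : Set G)) (hgQ : g * z * g⁻¹ ∈ Q)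
    (V X R E : Subgroup G) (hV : V = Subgroup.closure ({z, g * z * g⁻¹} : Set G))
    (hX : X = Q ⊔ (Q).map (MulAut.conj g).toMonoidHom)
    (hR : R = ((Q).map (MulAut.conj g).toMonoidHom ⊓ Subgroup.centralizer ({z} : Set G)) ⊔
      (Q ⊓ Subgroup.centralizer ({g * z * g⁻¹} : Set G)))
    (hE : E = Q ⊓ (Q).map (MulAut.conj g).toMonoidHom) :
    (Subgroup.center ↥R).map R.subtype = V ∧
    E ≤ (Subgroup.upperCentralSeries ↥R 2).map R.subtype ∧
    Subgroup.upperCentralSeries ↥R 3 = ⊤ ∧ Cfsg.IsElementaryAbelian 2 E ∧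
    (∀ x ∈ R, ∀ y ∈ R, x * y * x⁻¹ * y⁻¹ ∈ E ∧ x ^ 2 ∈ E) ∧
    ((Q).map (MulAut.conj g).toMonoidHom ⊓ Subgroup.centralizer ({z} : Set G)) ⊓
      (Q ⊓ Subgroup.centralizer ({g * z * g⁻¹} : Set G)) = E ∧ ⁅X, E⁆ ≤ V := by
  have hES := es2_of_large Q hQ z hz hz2
  have haz : g * z * g⁻¹ ≠ z := by
    intro h
    apply hgH
    rw [Subgroup.mem_centralizer_singleton_iff]
    calc g * z = (g * z * g⁻¹) * g := by group
      _ = z * g := by rw [h]
  exact s5431_core hES (hES.conj g) hgQ (les_sym hES g hgQ) haz V X R E hV hX hR hE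

end LES8

end Cfsg.Agent.Lib.helper14
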