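import Mathlib
import Cfsg.Prelude.Def_Transfer
import Cfsg.Prelude.Def_MonsterType
import Cfsg.Prelude.Def_Amalgam
import Cfsg.Agent.Lib.helper14.LES8
import Cfsg.Agent.Lib.helper14.S3Sec

set_option autoImplicit false

namespace Cfsg.Agent.Lib.helper14

open Cfsg.Agent.Lib.helper8
open scoped commutatorElement

universe u

section LES9

variable {G : Type u} [Group G]

theorem relIndex_six' [Finite G] (V N : Subgroup G) (z a u v : G)
    (hV : ∀ x, x ∈ V ↔ x = 1 ∨ x = z ∨ x = a ∨ x = z * a)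
    (hz1 : z ≠ 1) (ha1 : a ≠ 1) (haz : a ≠ z) (hzz : z * z = 1) (haa : a * a = 1)
    (hcomm : a * z = z * a)
    (huz : u * z * u⁻¹ = z * a) (hua : u * a * u⁻¹ = a)
    (hvz : v * z * v⁻¹ = z) (hva : v * a * v⁻¹ = z * a)
    (hNle : N ≤ Subgroup.normalizer (V : Set G)) (huN : u ∈ N) (hvN : v ∈ N) :
    (Subgroup.centralizer (V : Set G)).relIndex N = 6 := by
  classical
  have hza1 : z * a ≠ 1 := by
    intro h
    apply haz
    calc a = z * (z * a) := by rw [← mul_assoc, hzz, one_mul]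
      _ = z := by rw [h, mul_one]
  have hzaz : z * a ≠ z := fun h => ha1 (mul_eq_left.mp h)
  have hzaa : z * a ≠ a := fun h => hz1 (mul_eq_right.mp h)
  -- conjugation by elements of the normalizer permutes `{z, a, za}`
  have hperm : ∀ n ∈ Subgroup.normalizer (V : Set G), ∀ x, (x = z ∨ x = a ∨ x = z * a) →
      (n * x * n⁻¹ = z ∨ n * x * n⁻¹ = a ∨ n * x * n⁻¹ = z * a) := by
    intro n hn x hx
    have hxV : x ∈ V := (hV x).mpr (Or.inr hx)
    have hx1 : x ≠ 1 := by
      rcases hx with rfl | rfl | rfl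
      · exact hz1
      · exact ha1
      · exact hza1
    have h1 : n * x * n⁻¹ ∈ V := (Subgroup.mem_normalizer_iff.mp hn x).mp hxV
    rcases (hV _).mp h1 with h | h
    · exfalso
      apply hx1
      calc x = n⁻¹ * (n * x * n⁻¹) * n := by group
        _ = 1 := by rw [h]; group
    · exact h
  have hinj : ∀ n x y : G, n * x * n⁻¹ = n * y * n⁻¹ → x = y := by
    intro n x y h
    calc x = n⁻¹ * (n * x * n⁻¹) * n := by group
      _ = n⁻¹ * (n * y * n⁻¹) * n := by rw [h]
      _ = y := by group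
  have hzV : z ∈ V := (hV z).mpr (Or.inr (Or.inl rfl))
  have haV : a ∈ V := (hV a).mpr (Or.inr (Or.inr (Or.inl rfl)))
  have hzaV : z * a ∈ V := (hV _).mpr (Or.inr (Or.inr (Or.inr rfl)))
  have huza : u * (z * a) * u⁻¹ = z := by
    calc u * (z * a) * u⁻¹ = (u * z * u⁻¹) * (u * a * u⁻¹) := by group
      _ = z * (a * a) := by rw [huz, hua]; group
      _ = z := by rw [haa, mul_one]
  have hvza : v * (z * a) * v⁻¹ = a := by
    calc v * (z * a) * v⁻¹ = (v * z * v⁻¹) * (v * a * v⁻¹) := by group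
      _ = (z * z) * a := by rw [hvz, hva]; group
      _ = a := by rw [hzz, one_mul]
  letI act : MulAction ↥N (Pair2 G) := pairAct N
  have hsmul : ∀ (n : ↥N) (p : Pair2 G),
      n • p = ⟨(n : G) * p.fst * (n : G)⁻¹, (n : G) * p.snd * (n : G)⁻¹⟩ := fun n p => rfl
  have hstab : MulAction.stabilizer ↥N (⟨z, a⟩ : Pair2 G) =
      (Subgroup.centralizer (V : Set G)).subgroupOf N := by
    ext n
    rw [MulAction.mem_stabilizer_iff, hsmul, Subgroup.mem_subgroupOf, Subgroup.mem_centralizer_iff,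
      Pair2.ext_iff']
    constructor
    · rintro ⟨h1, h2⟩
      replace h1 : (n : G) * z * (n : G)⁻¹ = z := h1
      replace h2 : (n : G) * a * (n : G)⁻¹ = a := h2
      have c1 : (n : G) * z = z * (n : G) := by
        calc (n : G) * z = ((n : G) * z * (n : G)⁻¹) * (n : G) := by group
          _ = z * (n : G) := by rw [h1]
      have c2 : (n : G) * a = a * (n : G) := by
        calc (n : G) * a = ((n : G) * a * (n : G)⁻¹) * (n : G) := by group
          _ = a * (n : G) := by rw [h2]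
      intro x hx
      rcases (hV x).mp hx with rfl | rfl | rfl | rfl
      · simp
      · exact c1.symm
      · exact c2.symm
      · calc z * a * (n : G) = z * (a * (n : G)) := by group
          _ = z * ((n : G) * a) := by rw [c2]
          _ = (z * (n : G)) * a := by group
          _ = ((n : G) * z) * a := by rw [c1]
          _ = (n : G) * (z * a) := by group
    · intro h
      have c1 := h z hzV
      have c2 := h a haV
      constructor
      · show (n : G) * z * (n : G)⁻¹ = z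
        calc (n : G) * z * (n : G)⁻¹ = (z * (n : G)) * (n : G)⁻¹ := by rw [c1]
          _ = z := by group
      · show (n : G) * a * (n : G)⁻¹ = a
        calc (n : G) * a * (n : G)⁻¹ = (a * (n : G)) * (n : G)⁻¹ := by rw [c2]
          _ = a := by group
  rw [Subgroup.relIndex, ← hstab, MulAction.index_stabilizer]
  have horb : MulAction.orbit ↥N (⟨z, a⟩ : Pair2 G) =
      (fun q : G × G => (⟨q.1, q.2⟩ : Pair2 G)) '' ↑(({z, a, z * a} : Finset G).offDiag) := by
    ext p
    rw [Set.mem_image]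
    constructor
    · rintro ⟨n, rfl⟩
      refine ⟨((n : G) * z * (n : G)⁻¹, (n : G) * a * (n : G)⁻¹), ?_, rfl⟩
      rw [Finset.mem_coe, Finset.mem_offDiag]
      simp only [Finset.mem_insert, Finset.mem_singleton]
      refine ⟨hperm n.1 (hNle n.2) z (Or.inl rfl), hperm n.1 (hNle n.2) a (Or.inr (Or.inl rfl)), ?_⟩
      intro h
      exact haz (hinj _ _ _ h).symm
    · -- the orbit is stable under u and v
      have hu_orb : ∀ q : Pair2 G, q ∈ MulAction.orbit ↥N (⟨z, a⟩ : Pair2 G) →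
          (⟨u * q.fst * u⁻¹, u * q.snd * u⁻¹⟩ : Pair2 G) ∈
            MulAction.orbit ↥N (⟨z, a⟩ : Pair2 G) := by
        intro q hq
        exact MulAction.mem_orbit_of_mem_orbit (⟨u, huN⟩ : ↥N) hq
      have hv_orb : ∀ q : Pair2 G, q ∈ MulAction.orbit ↥N (⟨z, a⟩ : Pair2 G) →
          (⟨v * q.fst * v⁻¹, v * q.snd * v⁻¹⟩ : Pair2 G) ∈
            MulAction.orbit ↥N (⟨z, a⟩ : Pair2 G) := by
        intro q hq
        exact MulAction.mem_orbit_of_mem_orbit (⟨v, hvN⟩ : ↥N) hq
      have o1 : (⟨z, a⟩ : Pair2 G) ∈ MulAction.orbit ↥N (⟨z, a⟩ : Pair2 G) :=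
        MulAction.mem_orbit_self _
      have o2 : (⟨z, z * a⟩ : Pair2 G) ∈ MulAction.orbit ↥N (⟨z, a⟩ : Pair2 G) := by
        have := hv_orb _ o1
        rwa [hvz, hva] at this
      have o3 : (⟨z * a, a⟩ : Pair2 G) ∈ MulAction.orbit ↥N (⟨z, a⟩ : Pair2 G) := by
        have := hu_orb _ o1
        rwa [huz, hua] at this
      have o4 : (⟨z * a, z⟩ : Pair2 G) ∈ MulAction.orbit ↥N (⟨z, a⟩ : Pair2 G) := by
        have := hu_orb _ o2
        rwa [huz, huza] at this
      have o5 : (⟨a, z * a⟩ : Pair2 G) ∈ MulAction.orbit ↥N (⟨z, a⟩ : Pair2 G) := by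
        have := hv_orb _ o3
        rwa [hvza, hva] at this
      have o6 : (⟨a, z⟩ : Pair2 G) ∈ MulAction.orbit ↥N (⟨z, a⟩ : Pair2 G) := by
        have := hu_orb _ o5
        rwa [hua, huza] at this
      rintro ⟨⟨p1, p2⟩, hp, rfl⟩
      rw [Finset.mem_coe, Finset.mem_offDiag] at hp
      simp only [Finset.mem_insert, Finset.mem_singleton] at hp
      obtain ⟨h1 | h1 | h1, h2 | h2 | h2, h3⟩ := hp
      · exact absurd (h1.trans h2.symm) h3
      · rw [show p1 = z from h1, show p2 = a from h2]; exact o1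
      · rw [show p1 = z from h1, show p2 = z * a from h2]; exact o2
      · rw [show p1 = a from h1, show p2 = z from h2]; exact o6
      · exact absurd (h1.trans h2.symm) h3
      · rw [show p1 = a from h1, show p2 = z * a from h2]; exact o5
      · rw [show p1 = z * a from h1, show p2 = z from h2]; exact o4
      · rw [show p1 = z * a from h1, show p2 = a from h2]; exact o3
      · exact absurd (h1.trans h2.symm) h3
  have hinjP : Function.Injective (fun q : G × G => (⟨q.1, q.2⟩ : Pair2 G)) := by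
    intro q1 q2 h
    rw [Pair2.ext_iff'] at h
    exact Prod.ext h.1 h.2
  rw [horb, Set.ncard_image_of_injective _ hinjP, Set.ncard_coe_finset, Finset.offDiag_card]
  have h3 : ({z, a, z * a} : Finset G).card = 3 := by
    rw [Finset.card_insert_of_notMem, Finset.card_insert_of_notMem, Finset.card_singleton]
    · simp only [Finset.mem_singleton]
      exact fun h => hzaa h.symm
    · simp only [Finset.mem_insert, Finset.mem_singleton]
      rintro (h | h)
      · exact haz h.symm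
      · exact hzaz h.symm
  rw [h3]


theorem s3_transitive (V : Subgroup G) (z a u v : G)
    (hV : ∀ x, x ∈ V ↔ x = 1 ∨ x = z ∨ x = a ∨ x = z * a)
    (hz1 : z ≠ 1) (ha1 : a ≠ 1) (haz : a ≠ z) (hzz : z * z = 1) (haa : a * a = 1)
    (huz : u * z * u⁻¹ = z * a) (hua : u * a * u⁻¹ = a)
    (hvz : v * z * v⁻¹ = z) (hva : v * a * v⁻¹ = z * a)
    (n : G) (hn : n ∈ Subgroup.normalizer (V : Set G)) :
    ∃ x ∈ Subgroup.closure ({u, v} : Set G),
      x * z * x⁻¹ = n * z * n⁻¹ ∧ x * a * x⁻¹ = n * a * n⁻¹ := by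
  have hza1 : z * a ≠ 1 := by
    intro h
    apply haz
    calc a = z * (z * a) := by rw [← mul_assoc, hzz, one_mul]
      _ = z := by rw [h, mul_one]
  have hperm : ∀ x, (x = z ∨ x = a ∨ x = z * a) →
      (n * x * n⁻¹ = z ∨ n * x * n⁻¹ = a ∨ n * x * n⁻¹ = z * a) := by
    intro x hx
    have hxV : x ∈ V := (hV x).mpr (Or.inr hx)
    have hx1 : x ≠ 1 := by
      rcases hx with rfl | rfl | rfl
      · exact hz1
      · exact ha1
      · exact hza1
    have h1 : n * x * n⁻¹ ∈ V := (Subgroup.mem_normalizer_iff.mp hn x).mp hxV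
    rcases (hV _).mp h1 with h | h
    · exfalso
      apply hx1
      calc x = n⁻¹ * (n * x * n⁻¹) * n := by group
        _ = 1 := by rw [h]; group
    · exact h
  have hinj : ∀ x y : G, n * x * n⁻¹ = n * y * n⁻¹ → x = y := by
    intro x y h
    calc x = n⁻¹ * (n * x * n⁻¹) * n := by group
      _ = n⁻¹ * (n * y * n⁻¹) * n := by rw [h]
      _ = y := by group
  have huza : u * (z * a) * u⁻¹ = z := by
    calc u * (z * a) * u⁻¹ = (u * z * u⁻¹) * (u * a * u⁻¹) := by group
      _ = z * (a * a) := by rw [huz, hua]; group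
      _ = z := by rw [haa, mul_one]
  have hvza : v * (z * a) * v⁻¹ = a := by
    calc v * (z * a) * v⁻¹ = (v * z * v⁻¹) * (v * a * v⁻¹) := by group
      _ = (z * z) * a := by rw [hvz, hva]; group
      _ = a := by rw [hzz, one_mul]
  have huC : u ∈ Subgroup.closure ({u, v} : Set G) := Subgroup.subset_closure (by simp)
  have hvC : v ∈ Subgroup.closure ({u, v} : Set G) := Subgroup.subset_closure (by simp)
  rcases hperm z (Or.inl rfl) with h1 | h1 | h1 <;>
    rcases hperm a (Or.inr (Or.inl rfl)) with h2 | h2 | h2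
  · exact absurd (hinj _ _ (h1.trans h2.symm)) (fun h => haz h.symm)
  · refine ⟨1, Subgroup.one_mem _, ?_, ?_⟩
    · rw [h1]; group
    · rw [h2]; group
  · exact ⟨v, hvC, by rw [h1, hvz], by rw [h2, hva]⟩
  · refine ⟨u * v * u, Subgroup.mul_mem _ (Subgroup.mul_mem _ huC hvC) huC, ?_, ?_⟩
    · rw [h1]
      calc u * v * u * z * (u * v * u)⁻¹ = u * (v * (u * z * u⁻¹) * v⁻¹) * u⁻¹ := by group
        _ = u * (v * (z * a) * v⁻¹) * u⁻¹ := by rw [huz]
        _ = u * a * u⁻¹ := by rw [hvza]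
        _ = a := hua
    · rw [h2]
      calc u * v * u * a * (u * v * u)⁻¹ = u * (v * (u * a * u⁻¹) * v⁻¹) * u⁻¹ := by group
        _ = u * (v * a * v⁻¹) * u⁻¹ := by rw [hua]
        _ = u * (z * a) * u⁻¹ := by rw [hva]
        _ = z := huza
  · exact absurd (hinj _ _ (h1.trans h2.symm)) (fun h => haz h.symm)
  · refine ⟨v * u, Subgroup.mul_mem _ hvC huC, ?_, ?_⟩
    · rw [h1]
      calc v * u * z * (v * u)⁻¹ = v * (u * z * u⁻¹) * v⁻¹ := by group
        _ = v * (z * a) * v⁻¹ := by rw [huz]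
        _ = a := hvza
    · rw [h2]
      calc v * u * a * (v * u)⁻¹ = v * (u * a * u⁻¹) * v⁻¹ := by group
        _ = v * a * v⁻¹ := by rw [hua]
        _ = z * a := hva
  · refine ⟨u * v, Subgroup.mul_mem _ huC hvC, ?_, ?_⟩
    · rw [h1]
      calc u * v * z * (u * v)⁻¹ = u * (v * z * v⁻¹) * u⁻¹ := by group
        _ = u * z * u⁻¹ := by rw [hvz]
        _ = z * a := huz
    · rw [h2]
      calc u * v * a * (u * v)⁻¹ = u * (v * a * v⁻¹) * u⁻¹ := by group
        _ = u * (z * a) * u⁻¹ := by rw [hva]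
        _ = z := huza
  · exact ⟨u, huC, by rw [h1, huz], by rw [h2, hua]⟩
  · exact absurd (hinj _ _ (h1.trans h2.symm)) (fun h => haz h.symm)

theorem perm3_sq_or_cube : ∀ σ : Equiv.Perm (Fin 3), σ ^ 2 = 1 ∨ σ ^ 3 = 1 := by decide

set_option maxRecDepth 100000 in
theorem perm3_invol_aux : ∀ σ : Equiv.Perm (Fin 3), σ ≠ 1 → σ ^ 2 = 1 →
    σ * (finRotate 3 * σ * (finRotate 3)⁻¹) ≠ 1 ∧
      (σ * (finRotate 3 * σ * (finRotate 3)⁻¹)) ^ 3 = 1 := by decide

theorem perm3_invol : ∀ σ : Equiv.Perm (Fin 3), σ ≠ 1 → σ ^ 2 = 1 →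
    ∃ τ : Equiv.Perm (Fin 3), σ * (τ * σ * τ⁻¹) ≠ 1 ∧ (σ * (τ * σ * τ⁻¹)) ^ 3 = 1 :=
  fun σ h1 h2 => ⟨finRotate 3, perm3_invol_aux σ h1 h2⟩

theorem no_normal_two_of_s3 {Γ : Type*} [Group Γ] (e : Γ ≃* Equiv.Perm (Fin 3)) (N₂ : Subgroup Γ)
    [hN : N₂.Normal] (h2 : IsPGroup 2 N₂) : N₂ = ⊥ := by
  rw [Subgroup.eq_bot_iff_forall]
  intro x hx
  by_contra hx1
  have two_elim : ∀ y ∈ N₂, (e y) ^ 3 = 1 → y = 1 := by
    intro y hy h3
    obtain ⟨k, hk⟩ := h2 ⟨y, hy⟩
    have hk' : y ^ (2 ^ k) = 1 := by simpa using congrArg Subtype.val hk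
    have h3' : y ^ 3 = 1 := by apply e.injective; rw [map_pow, h3, map_one]
    have hd1 : orderOf y ∣ 2 ^ k := orderOf_dvd_of_pow_eq_one hk'
    have hd2 : orderOf y ∣ 3 := orderOf_dvd_of_pow_eq_one h3'
    have hcop : Nat.Coprime (2 ^ k) 3 := Nat.Coprime.pow_left k (by norm_num)
    have : orderOf y ∣ 1 := by
      have := Nat.dvd_gcd hd1 hd2
      rwa [hcop] at this
    exact orderOf_eq_one_iff.mp (Nat.dvd_one.mp this)
  have hσ1 : e x ≠ 1 := fun h => hx1 (by apply e.injective; rw [h, map_one])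
  rcases perm3_sq_or_cube (e x) with h | h
  · obtain ⟨τ, hτ1, hτ3⟩ := perm3_invol (e x) hσ1 h
    have hy : x * (e.symm τ * x * (e.symm τ)⁻¹) ∈ N₂ := N₂.mul_mem hx (hN.conj_mem x hx _)
    have he : e (x * (e.symm τ * x * (e.symm τ)⁻¹)) = e x * (τ * e x * τ⁻¹) := by simp
    have := two_elim _ hy (by rw [he]; exact hτ3)
    apply hτ1
    rw [← he, this, map_one]
  · exact hx1 (two_elim x hx h)

end LES9

end Cfsg.Agent.Lib.helper14
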