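import Mathlib
import Cfsg.Prelude.Def_Transfer
import Cfsg.Prelude.Def_MonsterType
import Cfsg.Prelude.Def_Amalgam
import Cfsg.Agent.Lib.helper14.LES9

set_option autoImplicit false

namespace Cfsg.Agent.Lib.helper14

open Cfsg.Agent.Lib.helper8
open scoped commutatorElement

universe u

section LES10

variable {G : Type u} [Group G]

theorem ES2.isPGroup {Q : Subgroup G} {z : G} (hQ : ES2 Q z) : IsPGroup 2 ↥Q := by
  intro x
  refine ⟨2, ?_⟩
  apply Subtype.ext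
  have := hQ.pow_four x.2
  simpa using this

/-- Conjugation by `q ∈ Q`: `C_Q(a)` is preserved, and `C_P(z)` moves inside `C_Q(a) C_P(z)`. -/
theorem norm_aux {Q P : Subgroup G} {z a : G} (hQ : ES2 Q z) (hP : ES2 P a) (ha : a ∈ Q)
    {q : G} (hq : q ∈ Q) :
    (∀ r ∈ Q ⊓ Subgroup.centralizer ({a} : Set G),
      q * r * q⁻¹ ∈ Q ⊓ Subgroup.centralizer ({a} : Set G)) ∧
    (∀ r ∈ P ⊓ Subgroup.centralizer ({z} : Set G),
      q * r * q⁻¹ * r⁻¹ ∈ Q ⊓ Subgroup.centralizer ({a} : Set G)) := by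
  have hQa : q⁻¹ * a * q = a ∨ q⁻¹ * a * q = z * a := by
    rcases hQ.comm q⁻¹ (Q.inv_mem hq) a ha with e | e
    · left
      calc q⁻¹ * a * q = (q⁻¹ * a * q⁻¹⁻¹ * a⁻¹) * a := by group
        _ = a := by rw [e, one_mul]
    · right
      calc q⁻¹ * a * q = (q⁻¹ * a * q⁻¹⁻¹ * a⁻¹) * a := by group
        _ = z * a := by rw [e]
  have hcc : ∀ r : G, r * z = z * r → r * a = a * r → r * (q⁻¹ * a * q) = (q⁻¹ * a * q) * r := by
    intro r hrz hra
    rcases hQa with e | e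
    · rw [e]; exact hra
    · rw [e]
      calc r * (z * a) = (r * z) * a := by group
        _ = (z * r) * a := by rw [hrz]
        _ = z * (r * a) := by group
        _ = z * (a * r) := by rw [hra]
        _ = z * a * r := by group
  constructor
  · intro r hr
    rw [Subgroup.mem_inf, Subgroup.mem_centralizer_singleton_iff] at hr ⊢
    obtain ⟨hrQ, hra⟩ := hr
    refine ⟨Q.mul_mem (Q.mul_mem hq hrQ) (Q.inv_mem hq), ?_⟩
    have h1 := hcc r (hQ.cen r hrQ) hra
    calc q * r * q⁻¹ * a = q * (r * (q⁻¹ * a * q)) * q⁻¹ := by group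
      _ = q * ((q⁻¹ * a * q) * r) * q⁻¹ := by rw [h1]
      _ = a * (q * r * q⁻¹) := by group
  · intro r hr
    rw [Subgroup.mem_inf, Subgroup.mem_centralizer_singleton_iff] at hr ⊢
    obtain ⟨hrP, hrz⟩ := hr
    have hra : r * a = a * r := hP.cen r hrP
    constructor
    · have e : q * r * q⁻¹ * r⁻¹ = q * (r * q⁻¹ * r⁻¹) := by group
      rw [e]; exact Q.mul_mem hq (hQ.nor r hrz q⁻¹ (Q.inv_mem hq))
    · have h1 := hcc r hrz hra
      have h2 : r⁻¹ * a = a * r⁻¹ := by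
        calc r⁻¹ * a = r⁻¹ * (a * r) * r⁻¹ := by group
          _ = r⁻¹ * (r * a) * r⁻¹ := by rw [hra]
          _ = a * r⁻¹ := by group
      calc q * r * q⁻¹ * r⁻¹ * a = q * r * q⁻¹ * (r⁻¹ * a) := by group
        _ = q * r * q⁻¹ * (a * r⁻¹) := by rw [h2]
        _ = q * (r * (q⁻¹ * a * q)) * q⁻¹ * r⁻¹ := by group
        _ = q * ((q⁻¹ * a * q) * r) * q⁻¹ * r⁻¹ := by rw [h1]
        _ = a * (q * r * q⁻¹ * r⁻¹) := by group

theorem s5430_core [Finite G] {Q P : Subgroup G} {z a g : G} (hQ : ES2 Q z) (hP : ES2 P a)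
    (ha : a ∈ Q) (hzP : z ∈ P) (haz : a ≠ z) (hag : a = g * z * g⁻¹)
    (hPm : ∀ x, x ∈ P ↔ g⁻¹ * x * g ∈ Q)
    (V X R : Subgroup G) (hV : V = Subgroup.closure ({z, a} : Set G)) (hX : X = Q ⊔ P)
    (hR : R = (P ⊓ Subgroup.centralizer ({z} : Set G)) ⊔ (Q ⊓ Subgroup.centralizer ({a} : Set G))) :
    R = X ⊓ Subgroup.centralizer (V : Set G) ∧ R = (Cfsg.pCore 2 ↥X).map X.subtype ∧
    (∃ h : (R.subgroupOf X).Normal, Nonempty (↥X ⧸ R.subgroupOf X ≃* Equiv.Perm (Fin 3))) ∧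
    Subgroup.normalizer (V : Set G) =
      X ⊔ (Subgroup.centralizer ({z} : Set G) ⊓ Subgroup.centralizer (V : Set G)) ∧
    (∀ y ∈ Subgroup.normalizer (V : Set G), ∀ x ∈ X, y * x * y⁻¹ ∈ X) ∧
    R ≤ Subgroup.centralizer ({z} : Set G) ⊓ Subgroup.centralizer (V : Set G) ∧
    (∀ x ∈ X, ∀ c ∈ Subgroup.centralizer ({z} : Set G) ⊓ Subgroup.centralizer (V : Set G),
      x * c * x⁻¹ * c⁻¹ ∈ R) ∧
    X ⊓ (Subgroup.centralizer ({z} : Set G) ⊓ Subgroup.centralizer (V : Set G)) = R := by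
  classical
  have hz2 := hQ.sq
  have ha2 := hP.sq
  have hcomm : a * z = z * a := hQ.cen a ha
  have ha1 : a ≠ 1 := hP.ne
  have hz1 : z ≠ 1 := hQ.ne
  obtain ⟨R₁, hR₁⟩ : ∃ R₁, R₁ = Q ⊓ Subgroup.centralizer ({a} : Set G) := ⟨_, rfl⟩
  obtain ⟨R₂, hR₂⟩ : ∃ R₂, R₂ = P ⊓ Subgroup.centralizer ({z} : Set G) := ⟨_, rfl⟩
  rw [← hR₁, ← hR₂] at hR
  have hm1 : ∀ x, x ∈ R₁ ↔ x ∈ Q ∧ x * a = a * x := by
    intro x; rw [hR₁, Subgroup.mem_inf, Subgroup.mem_centralizer_singleton_iff]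
  have hm2 : ∀ x, x ∈ R₂ ↔ x ∈ P ∧ x * z = z * x := by
    intro x; rw [hR₂, Subgroup.mem_inf, Subgroup.mem_centralizer_singleton_iff]
  have hR1R : R₁ ≤ R := by rw [hR]; exact le_sup_right
  have hR2R : R₂ ≤ R := by rw [hR]; exact le_sup_left
  have hQX : Q ≤ X := by rw [hX]; exact le_sup_left
  have hPX : P ≤ X := by rw [hX]; exact le_sup_right
  have hRX : R ≤ X := by
    rw [hR, hR₁, hR₂]
    exact sup_le (inf_le_left.trans hPX) (inf_le_left.trans hQX)
  have hVmem : ∀ x, x ∈ V ↔ x = 1 ∨ x = z ∨ x = a ∨ x = z * a := by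
    intro x
    have h0 : ({z, a} : Set G) = {z} ∪ {a} := Set.insert_eq z {a}
    rw [hV, h0, Subgroup.closure_union, ← Subgroup.zpowers_eq_closure,
      ← Subgroup.zpowers_eq_closure]
    have hn : Subgroup.zpowers a ≤ Subgroup.normalizer (Subgroup.zpowers z : Set G) := by
      rw [Subgroup.zpowers_le]
      apply Subgroup.centralizer_le_normalizer
      rw [Subgroup.mem_centralizer_iff]
      intro t ht
      rcases (mem_zpowers_of_sq hz2 t).mp ht with h | h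
      · rw [h]; simp
      · rw [h]; exact hcomm.symm
    rw [mem_sup_iff_of_le_normalizer hn]
    constructor
    · rintro ⟨n, hn', b, hb, hx⟩
      rcases (mem_zpowers_of_sq hz2 n).mp hn' with h1 | h1 <;>
        rcases (mem_zpowers_of_sq ha2 b).mp hb with h2 | h2
      · left; rw [hx, h1, h2, mul_one]
      · right; right; left; rw [hx, h1, h2, one_mul]
      · right; left; rw [hx, h1, h2, mul_one]
      · right; right; right; rw [hx, h1, h2]
    · rintro (h | h | h | h)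
      · exact ⟨1, Subgroup.one_mem _, 1, Subgroup.one_mem _, by rw [h, mul_one]⟩
      · exact ⟨z, Subgroup.mem_zpowers z, 1, Subgroup.one_mem _, by rw [h, mul_one]⟩
      · exact ⟨1, Subgroup.one_mem _, a, Subgroup.mem_zpowers a, by rw [h, one_mul]⟩
      · exact ⟨z, Subgroup.mem_zpowers z, a, Subgroup.mem_zpowers a, h⟩
  have hzV : z ∈ V := (hVmem z).mpr (Or.inr (Or.inl rfl))
  have haV : a ∈ V := (hVmem a).mpr (Or.inr (Or.inr (Or.inl rfl)))
  have hVQ : V ≤ Q := by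
    intro x hx
    rcases (hVmem x).mp hx with h | h | h | h
    · rw [h]; exact Q.one_mem
    · rw [h]; exact hQ.mem
    · rw [h]; exact ha
    · rw [h]; exact Q.mul_mem hQ.mem ha
  have hVP : V ≤ P := by
    intro x hx
    rcases (hVmem x).mp hx with h | h | h | h
    · rw [h]; exact P.one_mem
    · rw [h]; exact hzP
    · rw [h]; exact hP.mem
    · rw [h]; exact P.mul_mem hzP hP.mem
  have hQV : Q ≤ Subgroup.normalizer (V : Set G) := by
    apply Cfsg.Agent.Lib.helper8.le_normalizer_of_conj_mem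
    intro q hq v hv
    have e : q * v * q⁻¹ = (q * v * q⁻¹ * v⁻¹) * v := by group
    rw [e]
    rcases hQ.comm q hq v (hVQ hv) with h | h
    · rw [h, one_mul]; exact hv
    · rw [h]; exact V.mul_mem hzV hv
  have hPV : P ≤ Subgroup.normalizer (V : Set G) := by
    apply Cfsg.Agent.Lib.helper8.le_normalizer_of_conj_mem
    intro q hq v hv
    have e : q * v * q⁻¹ = (q * v * q⁻¹ * v⁻¹) * v := by group
    rw [e]
    rcases hP.comm q hq v (hVP hv) with h | h
    · rw [h, one_mul]; exact hv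
    · rw [h]; exact V.mul_mem haV hv
  have hXV : X ≤ Subgroup.normalizer (V : Set G) := by rw [hX]; exact sup_le hQV hPV
  have hRz : ∀ x ∈ R, x * z = z * x := by
    have : R ≤ Subgroup.centralizer ({z} : Set G) := by
      rw [hR]
      apply sup_le
      · rw [hR₂]; exact inf_le_right
      · intro x hx
        rw [Subgroup.mem_centralizer_singleton_iff]
        exact hQ.cen x ((hm1 x).mp hx).1
    intro x hx
    exact Subgroup.mem_centralizer_singleton_iff.mp (this hx)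
  have hRa : ∀ x ∈ R, x * a = a * x := by
    have : R ≤ Subgroup.centralizer ({a} : Set G) := by
      rw [hR]
      apply sup_le
      · intro x hx
        rw [Subgroup.mem_centralizer_singleton_iff]
        exact hP.cen x ((hm2 x).mp hx).1
      · rw [hR₁]; exact inf_le_right
    intro x hx
    exact Subgroup.mem_centralizer_singleton_iff.mp (this hx)
  have hCV : ∀ c, c ∈ Subgroup.centralizer (V : Set G) ↔ c * z = z * c ∧ c * a = a * c := by
    intro c
    rw [Subgroup.mem_centralizer_iff]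
    constructor
    · intro h; exact ⟨(h z hzV).symm, (h a haV).symm⟩
    · rintro ⟨h1, h2⟩ t ht
      rcases (hVmem t).mp ht with e | e | e | e
      · rw [e]; simp
      · rw [e]; exact h1.symm
      · rw [e]; exact h2.symm
      · rw [e]
        calc z * a * c = z * (a * c) := by group
          _ = z * (c * a) := by rw [h2]
          _ = (z * c) * a := by group
          _ = (c * z) * a := by rw [h1]
          _ = c * (z * a) := by group
  have hRCV : R ≤ Subgroup.centralizer (V : Set G) := fun x hx =>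
    (hCV x).mpr ⟨hRz x hx, hRa x hx⟩
  have hCVz : Subgroup.centralizer (V : Set G) ≤ Subgroup.centralizer ({z} : Set G) := by
    intro c hc
    rw [Subgroup.mem_centralizer_singleton_iff]
    exact ((hCV c).mp hc).1
  have hCC : Subgroup.centralizer ({z} : Set G) ⊓ Subgroup.centralizer (V : Set G) =
      Subgroup.centralizer (V : Set G) := inf_eq_right.mpr hCVz
  rw [hCC]
  -- the two transpositions
  obtain ⟨v, hvQ, hv⟩ := hQ.exists_v ha ha1 haz
  obtain ⟨u, huP, hu'⟩ := hP.exists_v hzP hz1 (fun h => haz h.symm)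
  have hu : u * z * u⁻¹ = z * a := by rw [hu', hcomm]
  have hvz : v * z * v⁻¹ = z := by
    calc v * z * v⁻¹ = (v * z) * v⁻¹ := by group
      _ = (z * v) * v⁻¹ := by rw [hQ.cen v hvQ]
      _ = z := by group
  have hua : u * a * u⁻¹ = a := by
    calc u * a * u⁻¹ = (u * a) * u⁻¹ := by group
      _ = (a * u) * u⁻¹ := by rw [hP.cen u huP]
      _ = a := by group
  have hvX : v ∈ X := hQX hvQ
  have huX : u ∈ X := hPX huP
  have huza : u * (z * a) * u⁻¹ = z := by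
    calc u * (z * a) * u⁻¹ = (u * z * u⁻¹) * (u * a * u⁻¹) := by group
      _ = z * (a * a) := by rw [hu, hua]; group
      _ = z := by rw [ha2, mul_one]
  have hvza : v * (z * a) * v⁻¹ = a := by
    calc v * (z * a) * v⁻¹ = (v * z * v⁻¹) * (v * a * v⁻¹) := by group
      _ = (z * z) * a := by rw [hvz, hv]; group
      _ = a := by rw [hz2, one_mul]
  -- normality of R in X
  have hQR : ∀ q ∈ Q, ∀ x ∈ R, q * x * q⁻¹ ∈ R := by
    intro q hq x hx
    obtain ⟨h1, h2⟩ := norm_aux hQ hP ha hq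
    rw [← hR₁] at h1 h2
    rw [← hR₂] at h2
    have hle : R₂ ⊔ R₁ ≤ R.comap (MulAut.conj q).toMonoidHom := by
      apply sup_le
      · intro r hr
        show q * r * q⁻¹ ∈ R
        have e : q * r * q⁻¹ = (q * r * q⁻¹ * r⁻¹) * r := by group
        rw [e]
        exact R.mul_mem (hR1R (h2 r hr)) (hR2R hr)
      · intro r hr
        show q * r * q⁻¹ ∈ R
        exact hR1R (h1 r hr)
    rw [hR] at hx
    exact hle hx
  have hPR : ∀ q ∈ P, ∀ x ∈ R, q * x * q⁻¹ ∈ R := by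
    intro q hq x hx
    obtain ⟨h1, h2⟩ := norm_aux hP hQ hzP hq
    rw [← hR₂] at h1 h2
    rw [← hR₁] at h2
    have hle : R₂ ⊔ R₁ ≤ R.comap (MulAut.conj q).toMonoidHom := by
      apply sup_le
      · intro r hr
        show q * r * q⁻¹ ∈ R
        exact hR2R (h1 r hr)
      · intro r hr
        show q * r * q⁻¹ ∈ R
        have e : q * r * q⁻¹ = (q * r * q⁻¹ * r⁻¹) * r := by group
        rw [e]
        exact R.mul_mem (hR2R (h2 r hr)) (hR1R hr)
    rw [hR] at hx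
    exact hle hx
  have hXNR : X ≤ Subgroup.normalizer (R : Set G) := by
    rw [hX]
    exact sup_le (Cfsg.Agent.Lib.helper8.le_normalizer_of_conj_mem hQR)
      (Cfsg.Agent.Lib.helper8.le_normalizer_of_conj_mem hPR)
  have hn : (R.subgroupOf X).Normal := (Subgroup.normal_subgroupOf_iff_le_normalizer hRX).mpr hXNR
  -- the quotient
  have hπ1 : ∀ x : ↥X, (QuotientGroup.mk' (R.subgroupOf X)) x = 1 ↔ x.1 ∈ R := by
    intro x
    rw [QuotientGroup.mk'_apply, QuotientGroup.eq_one_iff, Subgroup.mem_subgroupOf]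
  obtain ⟨π, hπdef⟩ : ∃ π : ↥X →* ↥X ⧸ R.subgroupOf X, π = QuotientGroup.mk' (R.subgroupOf X) :=
    ⟨_, rfl⟩
  rw [← hπdef] at hπ1
  have hπs : Function.Surjective π := by rw [hπdef]; exact QuotientGroup.mk'_surjective _
  have hzR : z ∈ R := hR1R ((hm1 z).mpr ⟨hQ.mem, hcomm.symm⟩)
  have haR : a ∈ R := hR1R ((hm1 a).mpr ⟨ha, rfl⟩)
  have hvb2 : π ⟨v, hvX⟩ * π ⟨v, hvX⟩ = 1 := by
    rw [← map_mul, hπ1]
    show v * v ∈ R
    rcases hQ.sqs v hvQ with h | h
    · rw [h]; exact R.one_mem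
    · rw [h]; exact hzR
  have hub2 : π ⟨u, huX⟩ * π ⟨u, huX⟩ = 1 := by
    rw [← map_mul, hπ1]
    show u * u ∈ R
    rcases hP.sqs u huP with h | h
    · rw [h]; exact R.one_mem
    · rw [h]; exact haR
  have hvbi : (π ⟨v, hvX⟩)⁻¹ = π ⟨v, hvX⟩ := inv_eq_of_mul_eq_one_left hvb2
  have hubi : (π ⟨u, huX⟩)⁻¹ = π ⟨u, huX⟩ := inv_eq_of_mul_eq_one_left hub2
  have hvb1 : π ⟨v, hvX⟩ ≠ 1 := by
    intro h
    rw [hπ1] at h
    have h1 := hRa v h
    apply hz1
    have : z * a = a := by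
      rw [← hv]
      calc v * a * v⁻¹ = (v * a) * v⁻¹ := by group
        _ = (a * v) * v⁻¹ := by rw [h1]
        _ = a := by group
    exact mul_eq_right.mp this
  -- the key relation
  have e_uinv_z : u⁻¹ * z * u = z * a := by
    calc u⁻¹ * z * u = u⁻¹ * (u * (z * a) * u⁻¹) * u := by rw [huza]
      _ = z * a := by group
  have e_uinv_za : u⁻¹ * (z * a) * u = z := by
    rw [← hu]; group
  have e_vinv_a : v⁻¹ * a * v = z * a := by
    calc v⁻¹ * a * v = v⁻¹ * (v * (z * a) * v⁻¹) * v := by rw [hvza]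
      _ = z * a := by group
  have e_vinv_za : v⁻¹ * (z * a) * v = a := by
    rw [← hv]; group
  have hrel : v * u⁻¹ * v⁻¹ * u * v * u⁻¹ ∈ R := by
    have hρ : u⁻¹ * (v⁻¹ * u * v * u⁻¹ * v) ∈ R₂ := by
      rw [hm2]
      constructor
      · apply P.mul_mem (P.inv_mem huP)
        have hkz : (g⁻¹ * v⁻¹ * u) * z = z * (g⁻¹ * v⁻¹ * u) := by
          have h2 : g⁻¹ * a * g = z := by rw [hag]; group
          calc (g⁻¹ * v⁻¹ * u) * z = g⁻¹ * (v⁻¹ * (u * z * u⁻¹) * v) * g * (g⁻¹ * v⁻¹ * u) := by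
                group
            _ = g⁻¹ * (v⁻¹ * (z * a) * v) * g * (g⁻¹ * v⁻¹ * u) := by rw [hu]
            _ = g⁻¹ * a * g * (g⁻¹ * v⁻¹ * u) := by rw [e_vinv_za]
            _ = z * (g⁻¹ * v⁻¹ * u) := by rw [h2]
        have h3 := hQ.nor _ hkz v hvQ
        rw [hPm]
        have e : g⁻¹ * (v⁻¹ * u * v * u⁻¹ * v) * g =
            (g⁻¹ * v⁻¹ * u) * v * (g⁻¹ * v⁻¹ * u)⁻¹ := by group
        rw [e]; exact h3
      · have h4 : (u⁻¹ * (v⁻¹ * u * v * u⁻¹ * v)) * z * (u⁻¹ * (v⁻¹ * u * v * u⁻¹ * v))⁻¹ = z := by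
          calc (u⁻¹ * (v⁻¹ * u * v * u⁻¹ * v)) * z * (u⁻¹ * (v⁻¹ * u * v * u⁻¹ * v))⁻¹
              = u⁻¹ * (v⁻¹ * (u * (v * (u⁻¹ * (v * z * v⁻¹) * u) * v⁻¹) * u⁻¹) * v) * u := by
                group
            _ = z := by rw [hvz, e_uinv_z, hvza, hua, e_vinv_a, e_uinv_za]
        calc (u⁻¹ * (v⁻¹ * u * v * u⁻¹ * v)) * z
            = ((u⁻¹ * (v⁻¹ * u * v * u⁻¹ * v)) * z * (u⁻¹ * (v⁻¹ * u * v * u⁻¹ * v))⁻¹) *
                (u⁻¹ * (v⁻¹ * u * v * u⁻¹ * v)) := by group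
          _ = z * (u⁻¹ * (v⁻¹ * u * v * u⁻¹ * v)) := by rw [h4]
    have e : v * u⁻¹ * v⁻¹ * u * v * u⁻¹ = v * (u⁻¹ * (v⁻¹ * u * v * u⁻¹ * v)) * v⁻¹ := by group
    rw [e]
    exact hQR v hvQ _ (hR2R hρ)
  have hrelb : π ⟨v, hvX⟩ * π ⟨u, huX⟩ * π ⟨v, hvX⟩ * π ⟨u, huX⟩ * π ⟨v, hvX⟩ * π ⟨u, huX⟩ = 1 := by
    have h1 : π (⟨v, hvX⟩ * ⟨u, huX⟩⁻¹ * ⟨v, hvX⟩⁻¹ * ⟨u, huX⟩ * ⟨v, hvX⟩ * ⟨u, huX⟩⁻¹) = 1 := by
      rw [hπ1]; exact hrel
    rw [map_mul, map_mul, map_mul, map_mul, map_mul, map_inv, map_inv, hvbi, hubi] at h1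
    exact h1
  have hx3 : (π ⟨v, hvX⟩ * π ⟨u, huX⟩) ^ 3 = 1 := by
    rw [← hrelb]
    simp only [pow_succ, pow_zero, one_mul, mul_assoc]
  have hx1 : π ⟨v, hvX⟩ * π ⟨u, huX⟩ ≠ 1 := by
    intro h
    rw [← map_mul, hπ1] at h
    have h1 : (v * u) * z = z * (v * u) := hRz _ h
    apply haz
    calc a = v * (u * z * u⁻¹) * v⁻¹ := by rw [hu, hvza]
      _ = ((v * u) * z) * (v * u)⁻¹ := by group
      _ = (z * (v * u)) * (v * u)⁻¹ := by rw [h1]
      _ = z := by group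
  have hf3 : Fact (Nat.Prime 3) := ⟨by norm_num⟩
  have hf2 : Fact (Nat.Prime 2) := ⟨by norm_num⟩
  have hox : orderOf (π ⟨v, hvX⟩ * π ⟨u, huX⟩) = 3 := orderOf_eq_prime hx3 hx1
  have hov : orderOf (π ⟨v, hvX⟩) = 2 := orderOf_eq_prime (by rw [pow_two]; exact hvb2) hvb1
  have hinv : π ⟨v, hvX⟩ * (π ⟨v, hvX⟩ * π ⟨u, huX⟩) * (π ⟨v, hvX⟩)⁻¹ =
      (π ⟨v, hvX⟩ * π ⟨u, huX⟩)⁻¹ := by
    rw [mul_inv_rev, hubi, ← mul_assoc, hvb2, one_mul]
  obtain ⟨e₀⟩ := s3_of_dihedral _ _ hox hov hinv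
  have hD : Subgroup.zpowers (π ⟨v, hvX⟩ * π ⟨u, huX⟩) ⊔ Subgroup.zpowers (π ⟨v, hvX⟩) = ⊤ := by
    obtain ⟨D, hDdef⟩ : ∃ D, D = Subgroup.zpowers (π ⟨v, hvX⟩ * π ⟨u, huX⟩) ⊔
      Subgroup.zpowers (π ⟨v, hvX⟩) := ⟨_, rfl⟩
    rw [← hDdef]
    have hvD : π ⟨v, hvX⟩ ∈ D := by
      rw [hDdef]; exact (le_sup_right : Subgroup.zpowers (π ⟨v, hvX⟩) ≤ _) (Subgroup.mem_zpowers _)
    have hxD : π ⟨v, hvX⟩ * π ⟨u, huX⟩ ∈ D := by
      rw [hDdef]
      exact (le_sup_left : Subgroup.zpowers (π ⟨v, hvX⟩ * π ⟨u, huX⟩) ≤ _) (Subgroup.mem_zpowers _)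
    have huD : π ⟨u, huX⟩ ∈ D := by
      have : π ⟨u, huX⟩ = (π ⟨v, hvX⟩)⁻¹ * (π ⟨v, hvX⟩ * π ⟨u, huX⟩) := by group
      rw [this]; exact D.mul_mem (D.inv_mem hvD) hxD
    have hXcl : X = Subgroup.closure ((Q : Set G) ∪ P) := by rw [hX]; exact sup_eq_closure_union Q P
    have key : ∀ y (_ : y ∈ Subgroup.closure ((Q : Set G) ∪ P)), ∀ hyX : y ∈ X, π ⟨y, hyX⟩ ∈ D := by
      intro y hy
      induction hy using Subgroup.closure_induction with
      | mem t ht =>
        intro hyX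
        rcases ht with ht | ht
        · rcases (PSet.idx ⟨hQ, ha, ha2⟩ hv ht) with h | h
          · have : π ⟨t, hyX⟩ = 1 := (hπ1 _).mpr (hR1R ((hm1 t).mpr ⟨ht, h⟩))
            rw [this]; exact D.one_mem
          · have hm : v⁻¹ * t ∈ R := hR1R ((hm1 _).mpr ⟨Q.mul_mem (Q.inv_mem hvQ) ht, h⟩)
            have h1 : π ⟨v⁻¹ * t, hRX hm⟩ = 1 := (hπ1 _).mpr hm
            have h2 : (⟨t, hyX⟩ : ↥X) = ⟨v, hvX⟩ * ⟨v⁻¹ * t, hRX hm⟩ := by
              apply Subtype.ext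
              show t = v * (v⁻¹ * t)
              group
            rw [h2, map_mul, h1, mul_one]; exact hvD
        · rcases (PSet.idx ⟨hP, hzP, hz2⟩ hu' ht) with h | h
          · have : π ⟨t, hyX⟩ = 1 := (hπ1 _).mpr (hR2R ((hm2 t).mpr ⟨ht, h⟩))
            rw [this]; exact D.one_mem
          · have hm : u⁻¹ * t ∈ R := hR2R ((hm2 _).mpr ⟨P.mul_mem (P.inv_mem huP) ht, h⟩)
            have h1 : π ⟨u⁻¹ * t, hRX hm⟩ = 1 := (hπ1 _).mpr hm
            have h2 : (⟨t, hyX⟩ : ↥X) = ⟨u, huX⟩ * ⟨u⁻¹ * t, hRX hm⟩ := by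
              apply Subtype.ext
              show t = u * (u⁻¹ * t)
              group
            rw [h2, map_mul, h1, mul_one]; exact huD
      | one =>
        intro hyX
        have : (⟨1, hyX⟩ : ↥X) = 1 := rfl
        rw [this, map_one]; exact D.one_mem
      | mul x y hx hy ihx ihy =>
        intro hyX
        have hxX : x ∈ X := by rw [hXcl]; exact hx
        have hyX' : y ∈ X := by rw [hXcl]; exact hy
        have : (⟨x * y, hyX⟩ : ↥X) = ⟨x, hxX⟩ * ⟨y, hyX'⟩ := rfl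
        rw [this, map_mul]; exact D.mul_mem (ihx hxX) (ihy hyX')
      | inv x hx ih =>
        intro hyX
        have hxX : x ∈ X := by rw [hXcl]; exact hx
        have : (⟨x⁻¹, hyX⟩ : ↥X) = (⟨x, hxX⟩)⁻¹ := rfl
        rw [this, map_inv]; exact D.inv_mem (ih hxX)
    rw [eq_top_iff]
    intro γ _
    obtain ⟨x, rfl⟩ := hπs γ
    exact key x.1 (by rw [← hXcl]; exact x.2) x.2
  have e : ↥X ⧸ R.subgroupOf X ≃* Equiv.Perm (Fin 3) :=
    (Subgroup.topEquiv.symm.trans (MulEquiv.subgroupCongr hD.symm)).trans e₀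
  have hcard : Nat.card (↥X ⧸ R.subgroupOf X) = 6 := by
    rw [Nat.card_congr e.toEquiv, Nat.card_perm, Nat.card_fin]; rfl
  have hidxR : R.relIndex X = 6 := hcard
  have hidxC : (Subgroup.centralizer (V : Set G)).relIndex X = 6 :=
    relIndex_six' V X z a u v hVmem hz1 ha1 haz hz2 ha2 hcomm hu hua hvz hv hXV huX hvX
  have c1 : R = X ⊓ Subgroup.centralizer (V : Set G) := by
    apply le_antisymm (le_inf hRX hRCV)
    have h1 := Subgroup.relIndex_mul_relIndex R (X ⊓ Subgroup.centralizer (V : Set G)) X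
      (le_inf hRX hRCV) inf_le_left
    rw [Subgroup.inf_relIndex_left, hidxR, hidxC] at h1
    have h2 : R.relIndex (X ⊓ Subgroup.centralizer (V : Set G)) = 1 := by omega
    exact Subgroup.relIndex_eq_one.mp h2
  -- C(V) normalizes X
  have hCX : Subgroup.centralizer (V : Set G) ≤ Subgroup.normalizer (X : Set G) := by
    apply Cfsg.Agent.Lib.helper8.le_normalizer_of_conj_mem
    intro c hc x hx
    obtain ⟨hcz, hca⟩ := (hCV c).mp hc
    have hle : Q ⊔ P ≤ X.comap (MulAut.conj c).toMonoidHom := by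
      apply sup_le
      · intro q hq
        show c * q * c⁻¹ ∈ X
        exact hQX (hQ.nor c hcz q hq)
      · intro q hq
        show c * q * c⁻¹ ∈ X
        exact hPX (hP.nor c hca q hq)
    rw [hX] at hx
    exact hle hx
  have c4 : Subgroup.normalizer (V : Set G) = X ⊔ Subgroup.centralizer (V : Set G) := by
    apply le_antisymm
    · intro n hn'
      obtain ⟨x, hx, hxz, hxa⟩ := s3_transitive V z a u v hVmem hz1 ha1 haz hz2 ha2 hu hua hvz hv n hn'
      have hxX : x ∈ X := by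
        have : Subgroup.closure ({u, v} : Set G) ≤ X := by
          rw [Subgroup.closure_le]
          intro t ht
          rcases ht with rfl | rfl
          · exact huX
          · exact hvX
        exact this hx
      have hc : x⁻¹ * n ∈ Subgroup.centralizer (V : Set G) := by
        rw [hCV]
        constructor
        · calc x⁻¹ * n * z = x⁻¹ * (n * z * n⁻¹) * n := by group
            _ = x⁻¹ * (x * z * x⁻¹) * n := by rw [hxz]
            _ = z * (x⁻¹ * n) := by group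
        · calc x⁻¹ * n * a = x⁻¹ * (n * a * n⁻¹) * n := by group
            _ = x⁻¹ * (x * a * x⁻¹) * n := by rw [hxa]
            _ = a * (x⁻¹ * n) := by group
      have e : n = x * (x⁻¹ * n) := by group
      rw [e]
      exact Subgroup.mul_mem_sup hxX hc
    · exact sup_le hXV (Subgroup.centralizer_le_normalizer _)
  have c5 : ∀ y ∈ Subgroup.normalizer (V : Set G), ∀ x ∈ X, y * x * y⁻¹ ∈ X := by
    intro y hy x hx
    rw [c4] at hy
    have : X ⊔ Subgroup.centralizer (V : Set G) ≤ Subgroup.normalizer (X : Set G) :=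
      sup_le Subgroup.le_normalizer hCX
    exact conj_mem_of_mem_normalizer (this hy) hx
  have c7 : ∀ x ∈ X, ∀ c ∈ Subgroup.centralizer (V : Set G), x * c * x⁻¹ * c⁻¹ ∈ R := by
    intro x hx c hc
    rw [c1]
    constructor
    · have e : x * c * x⁻¹ * c⁻¹ = x * (c * x⁻¹ * c⁻¹) := by group
      rw [e]
      exact X.mul_mem hx (conj_mem_of_mem_normalizer (hCX hc) (X.inv_mem hx))
    · have hcV : ∀ t ∈ V, c * t = t * c := fun t ht =>
        (Subgroup.mem_centralizer_iff.mp hc t ht).symm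
      have key : ∀ t ∈ V, (x * c * x⁻¹ * c⁻¹) * t = t * (x * c * x⁻¹ * c⁻¹) := by
        intro t ht
        have hw : x⁻¹ * t * x ∈ V := conj_mem_of_mem_normalizer' (hXV hx) ht
        have e1 : c⁻¹ * t * c = t := by
          calc c⁻¹ * t * c = c⁻¹ * (t * c) := by group
            _ = c⁻¹ * (c * t) := by rw [hcV t ht]
            _ = t := by group
        calc x * c * x⁻¹ * c⁻¹ * t = x * c * x⁻¹ * (c⁻¹ * t * c) * c⁻¹ := by group
          _ = x * c * x⁻¹ * t * c⁻¹ := by rw [e1]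
          _ = x * (c * (x⁻¹ * t * x)) * x⁻¹ * c⁻¹ := by group
          _ = x * ((x⁻¹ * t * x) * c) * x⁻¹ * c⁻¹ := by rw [hcV _ hw]
          _ = t * (x * c * x⁻¹ * c⁻¹) := by group
      exact (hCV _).mpr ⟨key z hzV, key a haV⟩
  -- the 2-core
  have c2 : R = (Cfsg.pCore 2 ↥X).map X.subtype := by
    apply le_antisymm
    · have hpR1 : IsPGroup 2 ↥R₁ := by rw [hR₁]; exact hQ.isPGroup.to_inf_left
      have hpR2 : IsPGroup 2 ↥R₂ := by rw [hR₂]; exact hP.isPGroup.to_inf_left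
      have hR2N : R₂ ≤ Subgroup.normalizer (R₁ : Set G) := by
        apply Cfsg.Agent.Lib.helper8.le_normalizer_of_conj_mem
        intro r hr x hx
        obtain ⟨hrP, hrz⟩ := (hm2 r).mp hr
        obtain ⟨hxQ, hxa⟩ := (hm1 x).mp hx
        have hra : r * a = a * r := hP.cen r hrP
        rw [hm1]
        refine ⟨hQ.nor r hrz x hxQ, ?_⟩
        have h2 : r⁻¹ * a = a * r⁻¹ := by
          calc r⁻¹ * a = r⁻¹ * (a * r) * r⁻¹ := by group
            _ = r⁻¹ * (r * a) * r⁻¹ := by rw [hra]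
            _ = a * r⁻¹ := by group
        calc r * x * r⁻¹ * a = r * x * (r⁻¹ * a) := by group
          _ = r * x * (a * r⁻¹) := by rw [h2]
          _ = r * (x * a) * r⁻¹ := by group
          _ = r * (a * x) * r⁻¹ := by rw [hxa]
          _ = (r * a) * x * r⁻¹ := by group
          _ = (a * r) * x * r⁻¹ := by rw [hra]
          _ = a * (r * x * r⁻¹) := by group
      have hpR : IsPGroup 2 ↥R := by
        rw [hR]; exact IsPGroup.to_sup_of_normal_right' hpR2 hpR1 hR2N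
      exact le_pCoreOf X R hRX hpR hXNR
    · intro o ho
      obtain ⟨o', ho', rfl⟩ := ho
      have hN2 : ((Cfsg.pCore 2 ↥X).map π).Normal :=
        Subgroup.Normal.map (pCore_normal' 2 ↥X) π hπs
      have hp2 : IsPGroup 2 ↥((Cfsg.pCore 2 ↥X).map π) := (isPGroup_pCore 2 ↥X).map π
      have hbot := no_normal_two_of_s3 e ((Cfsg.pCore 2 ↥X).map π) hp2
      have h1 : π o' ∈ (Cfsg.pCore 2 ↥X).map π := ⟨o', ho', rfl⟩
      rw [hbot, Subgroup.mem_bot, hπ1] at h1
      exact h1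
  exact ⟨c1, c2, ⟨hn, ⟨e⟩⟩, c4, c5, hRCV, c7, c1.symm⟩

theorem s5430_aux [Finite G] (Q : Subgroup G) (hQ : Cfsg.IsLargeExtraspecial Q) (z : G)
    (hz : ((Subgroup.center ↥Q).map Q.subtype) = Subgroup.zpowers z) (hz2 : orderOf z = 2)
    (g : G) (hgH : g ∉ Subgroup.centralizer ({z} : Set G)) (hgQ : g * z * g⁻¹ ∈ Q)
    (V X R : Subgroup G) (hV : V = Subgroup.closure ({z, g * z * g⁻¹} : Set G))
    (hX : X = Q ⊔ (Q).map (MulAut.conj g).toMonoidHom)
    (hR : R = ((Q).map (MulAut.conj g).toMonoidHom ⊓ Subgroup.centralizer ({z} : Set G)) ⊔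
      (Q ⊓ Subgroup.centralizer ({g * z * g⁻¹} : Set G))) :
    R = X ⊓ Subgroup.centralizer (V : Set G) ∧ R = (Cfsg.pCore 2 ↥X).map X.subtype ∧
    (∃ h : (R.subgroupOf X).Normal, Nonempty (↥X ⧸ R.subgroupOf X ≃* Equiv.Perm (Fin 3))) ∧
    Subgroup.normalizer (V : Set G) =
      X ⊔ (Subgroup.centralizer ({z} : Set G) ⊓ Subgroup.centralizer (V : Set G)) ∧
    (∀ y ∈ Subgroup.normalizer (V : Set G), ∀ x ∈ X, y * x * y⁻¹ ∈ X) ∧
    R ≤ Subgroup.centralizer ({z} : Set G) ⊓ Subgroup.centralizer (V : Set G) ∧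
    (∀ x ∈ X, ∀ c ∈ Subgroup.centralizer ({z} : Set G) ⊓ Subgroup.centralizer (V : Set G),
      x * c * x⁻¹ * c⁻¹ ∈ R) ∧
    X ⊓ (Subgroup.centralizer ({z} : Set G) ⊓ Subgroup.centralizer (V : Set G)) = R := by
  have hES := es2_of_large Q hQ z hz hz2
  have haz : g * z * g⁻¹ ≠ z := by
    intro h
    apply hgH
    rw [Subgroup.mem_centralizer_singleton_iff]
    calc g * z = (g * z * g⁻¹) * g := by group
      _ = z * g := by rw [h]
  exact s5430_core hES (hES.conj g) hgQ (les_sym hES g hgQ) haz rfl (mem_conj_iff Q g) V X R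
    hV hX hR

end LES10

end Cfsg.Agent.Lib.helper14
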