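import Mathlib
import Cfsg.Agent.Lib.helper14.Symp1

set_option autoImplicit false

namespace Cfsg.Agent.Lib.helper14

open Cfsg

section powmap

variable {G : Type*} [Group G]

/-- the power formula in class two -/
lemma symp_mul_pow {X Z1 : Subgroup G} (hZ1X : ∀ w ∈ Z1, ∀ t ∈ X, w * t = t * w)
    (hcomm : ∀ x ∈ X, ∀ y ∈ X, x * y * x⁻¹ * y⁻¹ ∈ Z1) {x y : G} (hx : x ∈ X) (hy : y ∈ X)
    (k : ℕ) : ∃ w ∈ Z1, (x * y) ^ k = x ^ k * y ^ k * w := by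
  induction k with
  | zero => exact ⟨1, Z1.one_mem, by simp⟩
  | succ k ih =>
    obtain ⟨w, hw, hk⟩ := ih
    set u := y ^ k * x * (y ^ k)⁻¹ * x⁻¹ with hu
    have huZ : u ∈ Z1 := hcomm _ (X.pow_mem hy k) _ hx
    refine ⟨u * w, Z1.mul_mem huZ hw, ?_⟩
    have h1 : y ^ k * x = u * (x * y ^ k) := by rw [hu]; group
    have h2 : w * (x * y) = (x * y) * w := hZ1X w hw _ (X.mul_mem hx hy)
    have h3 : x ^ k * u = u * x ^ k := (hZ1X u huZ _ (X.pow_mem hx k)).symm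
    have h4 : u * (x ^ (k + 1) * y ^ (k + 1)) = (x ^ (k + 1) * y ^ (k + 1)) * u :=
      hZ1X u huZ _ (X.mul_mem (X.pow_mem hx _) (X.pow_mem hy _))
    calc (x * y) ^ (k + 1) = x ^ k * y ^ k * w * (x * y) := by rw [pow_succ, hk]
      _ = x ^ k * y ^ k * ((x * y) * w) := by rw [mul_assoc (x ^ k * y ^ k), h2]
      _ = x ^ k * (y ^ k * x) * y * w := by group
      _ = x ^ k * (u * (x * y ^ k)) * y * w := by rw [h1]
      _ = (x ^ k * u) * (x * y ^ k) * y * w := by group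
      _ = (u * x ^ k) * (x * y ^ k) * y * w := by rw [h3]
      _ = u * (x ^ (k + 1) * y ^ (k + 1)) * w := by rw [pow_succ, pow_succ]; group
      _ = (x ^ (k + 1) * y ^ (k + 1)) * u * w := by rw [h4]
      _ = x ^ (k + 1) * y ^ (k + 1) * (u * w) := by group

end powmap

section LK

variable {G : Type*} [Group G] [Finite G] {p : ℕ} [Fact p.Prime]

theorem symp_pow_structure (hG : IsPGroup p G)
    (hsymp : ∀ A : Subgroup G, A.Characteristic → IsMulCommutative A → IsCyclic A)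
    (X : Subgroup G) (hXchar : X.Characteristic)
    (hpow : ∀ x ∈ X, x ^ p ∈ Subgroup.centralizer (X : Set G))
    (hcomm : ∀ x ∈ X, ∀ y ∈ X, x * y * x⁻¹ * y⁻¹ ∈ Subgroup.centralizer (X : Set G) ∧
      (x * y * x⁻¹ * y⁻¹) ^ p = 1)
    (hz0 : ∃ z ∈ X ⊓ Subgroup.centralizer (X : Set G), z ^ p ≠ 1) :
    ∀ x ∈ X, ∃ z ∈ X ⊓ Subgroup.centralizer (X : Set G), x ^ p = z ^ p := by
  classical
  have hpp : p.Prime := Fact.out
  set Z : Subgroup G := X ⊓ Subgroup.centralizer (X : Set G) with hZdef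
  have hZchar : Z.Characteristic := symp_inf_centralizer_char hXchar
  have hZab : ∀ a ∈ Z, ∀ b ∈ Z, a * b = b * a := symp_inf_centralizer_comm X
  have hZcyc : IsCyclic Z := hsymp Z hZchar ⟨⟨fun a b => Subtype.ext (hZab a a.2 b b.2)⟩⟩
  set Z1 : Subgroup G := sympOmega p Z hZab with hZ1def
  have hZ1card : Nat.card Z1 ≤ p := Nat.le_of_dvd hpp.pos (sympOmega_card_dvd hZcyc)
  have hZ1c : ∀ a ∈ Z1, ∀ b ∈ Z1, a * b = b * a := fun a ha b hb => hZab a ha.1 b hb.1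
  have hZ1X : ∀ w ∈ Z1, ∀ t ∈ X, w * t = t * w := fun w hw t ht => (hw.1.2 t ht).symm
  have hcommZ1 : ∀ x ∈ X, ∀ y ∈ X, x * y * x⁻¹ * y⁻¹ ∈ Z1 := fun x hx y hy =>
    ⟨⟨X.mul_mem (X.mul_mem (X.mul_mem hx hy) (X.inv_mem hx)) (X.inv_mem hy), (hcomm x hx y hy).1⟩,
      (hcomm x hx y hy).2⟩
  obtain ⟨z₀, hz₀, hz₀p⟩ := hz0
  have hZ1pow : ∀ u ∈ Z1, ∃ z ∈ Z, u = z ^ p := fun u hu =>
    symp_cyc_pow hG hZcyc hz₀ hz₀p hu.1 hu.2
  -- the subgroup K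
  let K : Subgroup G :=
    { carrier := {x | x ∈ X ∧ ∃ z ∈ Z, x ^ p = z ^ p}
      mul_mem' := by
        rintro a b ⟨ha, za, hza, hap⟩ ⟨hb, zb, hzb, hbp⟩
        refine ⟨X.mul_mem ha hb, ?_⟩
        obtain ⟨w, hw, hab⟩ := symp_mul_pow hZ1X hcommZ1 ha hb p
        obtain ⟨zw, hzw, hwp⟩ := hZ1pow w hw
        refine ⟨za * zb * zw, Z.mul_mem (Z.mul_mem hza hzb) hzw, ?_⟩
        have c1 : Commute za zb := hZab za hza zb hzb
        have c2 : Commute (za * zb) zw := hZab _ (Z.mul_mem hza hzb) zw hzw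
        rw [hab, hap, hbp, hwp, c2.mul_pow, c1.mul_pow]
      one_mem' := ⟨X.one_mem, 1, Z.one_mem, by simp⟩
      inv_mem' := by
        rintro a ⟨ha, za, hza, hap⟩
        exact ⟨X.inv_mem ha, za⁻¹, Z.inv_mem hza, by rw [inv_pow, inv_pow, hap]⟩ }
  have hKmem : ∀ x, x ∈ K ↔ x ∈ X ∧ ∃ z ∈ Z, x ^ p = z ^ p := fun x => Iff.rfl
  have hKX : K ≤ X := fun x hx => hx.1
  have hZK : Z ≤ K := fun z hz => ⟨hz.1, z, hz, rfl⟩
  have hKchar : K.Characteristic := by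
    apply symp_char_of_forall
    rintro φ x ⟨hx, z, hz, hxp⟩
    exact ⟨(symp_char_mem hXchar φ).mpr hx, φ z, (symp_char_mem hZchar φ).mpr hz,
      by rw [← map_pow, hxp, map_pow]⟩
  by_contra hcon
  push_neg at hcon
  obtain ⟨x₀, hx₀, hx₀K⟩ := hcon
  have hx₀K' : x₀ ∉ K := fun h => by
    obtain ⟨z, hz, hzp⟩ := h.2
    exact hx₀K z hz hzp
  -- (★)
  have hstar : ∀ y₀ ∈ X, y₀ ∉ K → ∀ x ∈ X, ∃ k ∈ K, ∃ i : ℤ, x = k * y₀ ^ i := by
    intro y₀ hy₀ hy₀K x hx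
    have hg₀Z : y₀ ^ p ∈ Z := ⟨X.pow_mem hy₀ p, hpow y₀ hy₀⟩
    have hnp : ¬ ∃ z ∈ Z, y₀ ^ p = z ^ p := fun h => hy₀K ⟨hy₀, h⟩
    have hxZ : x ^ p ∈ Z := ⟨X.pow_mem hx p, hpow x hx⟩
    obtain ⟨i, hi⟩ := Subgroup.mem_zpowers_iff.mp (symp_cyc_gen hG hZcyc hg₀Z hnp hxZ)
    have ht : y₀ ^ (-i) ∈ X := X.zpow_mem hy₀ _
    obtain ⟨w, hw, hxt⟩ := symp_mul_pow hZ1X hcommZ1 hx ht p
    have hw' : (x * y₀ ^ (-i)) ^ p = w := by
      rw [hxt, ← hi]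
      have : (y₀ ^ (-i)) ^ p = ((y₀ ^ p) ^ i)⁻¹ := by
        rw [← zpow_natCast (y₀ ^ (-i)) p, ← zpow_mul, ← zpow_natCast y₀ p, ← zpow_mul,
          ← zpow_neg]
        congr 1
        ring
      rw [this, mul_inv_cancel, one_mul]
    obtain ⟨zw, hzw, hwp⟩ := hZ1pow w hw
    refine ⟨x * y₀ ^ (-i), ⟨X.mul_mem hx ht, zw, hzw, by rw [hw', hwp]⟩, i, ?_⟩
    rw [mul_assoc, ← zpow_add, neg_add_cancel, zpow_zero, mul_one]
  have hcardK : Nat.card K < Nat.card X := by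
    by_contra hge
    have : K = X := Subgroup.eq_of_le_of_card_ge hKX (not_lt.mp hge)
    exact hx₀K' (this ▸ hx₀)
  have hidx := symp_idx hG X Z Z1 hZ1card hZ1c (fun y hy z hz => (hz.1.2 y hy))
    (fun y hy n hn => (hn.2 y hy)) (Nat.card K) K le_rfl hZK
    (fun y hy h hh => hcommZ1 y hy h (hKX hh))
  have hlt : Nat.card Z < Nat.card ↥(X ⊓ Subgroup.centralizer (K : Set G)) := by
    by_contra hge
    have h1 : Nat.card K * Nat.card ↥(X ⊓ Subgroup.centralizer (K : Set G)) ≤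
        Nat.card K * Nat.card Z := Nat.mul_le_mul_left _ (not_lt.mp hge)
    have h2 : Nat.card K * Nat.card Z < Nat.card X * Nat.card Z :=
      Nat.mul_lt_mul_of_pos_right hcardK Nat.card_pos
    omega
  have hexw : ∃ w ∈ X ⊓ Subgroup.centralizer (K : Set G), w ∉ Z := by
    by_contra hno
    push_neg at hno
    have : Nat.card ↥(X ⊓ Subgroup.centralizer (K : Set G)) ≤ Nat.card Z :=
      Subgroup.card_le_of_le hno
    omega
  obtain ⟨w, hw, hwZ⟩ := hexw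
  have hwK : w ∈ K := by
    by_contra hwK
    apply hwZ
    refine ⟨hw.1, ?_⟩
    intro x hx
    obtain ⟨k, hk, i, rfl⟩ := hstar w hw.1 hwK x hx
    have h1 : k * w = w * k := hw.2 k hk
    have h2 : Commute (w ^ i) w := (Commute.refl w).zpow_left i
    calc k * w ^ i * w = k * (w * w ^ i) := by rw [mul_assoc, h2.eq]
      _ = (k * w) * w ^ i := by rw [mul_assoc]
      _ = w * (k * w ^ i) := by rw [h1, mul_assoc]
  -- the centre of K
  set ZK : Subgroup G := K ⊓ Subgroup.centralizer (K : Set G) with hZKdef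
  have hZKchar : ZK.Characteristic := symp_inf_centralizer_char hKchar
  have hZKab : ∀ a ∈ ZK, ∀ b ∈ ZK, a * b = b * a := symp_inf_centralizer_comm K
  have hZKcyc : IsCyclic ZK := hsymp ZK hZKchar ⟨⟨fun a b => Subtype.ext (hZKab a a.2 b b.2)⟩⟩
  have hZZK : Z ≤ ZK := fun z hz => ⟨hZK hz, fun k hk => hz.2 k (hKX hk)⟩
  obtain ⟨z, hz, hwp⟩ := hwK.2
  have hcz : Commute w z⁻¹ := by
    have : w * z = z * w := hz.2 w hw.1
    exact (Commute.inv_right this)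
  have hw'p : (w * z⁻¹) ^ p = 1 := by
    rw [hcz.mul_pow, hwp, inv_pow, mul_inv_cancel]
  have hw'ZK : w * z⁻¹ ∈ ZK := ZK.mul_mem ⟨hwK, hw.2⟩ (ZK.inv_mem (hZZK hz))
  have hw'Z : w * z⁻¹ ∉ Z := fun h => hwZ (by
    have := Z.mul_mem h hz
    rwa [inv_mul_cancel_right] at this)
  have hz₀1 : z₀ ≠ 1 := by
    rintro rfl
    exact hz₀p (one_pow _)
  obtain ⟨m, hm1, hmp⟩ := symp_exists_order_p hG hz₀1
  have hz₁Z : z₀ ^ m ∈ Z := Z.pow_mem hz₀ m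
  have hord : orderOf (z₀ ^ m) = p := orderOf_eq_prime hmp hm1
  set Ω : Subgroup G := sympOmega p ZK hZKab with hΩdef
  have hΩcard : Nat.card Ω ≤ p := Nat.le_of_dvd hpp.pos (sympOmega_card_dvd hZKcyc)
  have hle : Subgroup.zpowers (z₀ ^ m) ≤ Ω := by
    rw [Subgroup.zpowers_le]
    exact ⟨hZZK hz₁Z, hmp⟩
  have heq : Subgroup.zpowers (z₀ ^ m) = Ω := by
    apply Subgroup.eq_of_le_of_card_ge hle
    rw [Nat.card_zpowers, hord]
    exact hΩcard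
  have hw'Ω : w * z⁻¹ ∈ Ω := ⟨hw'ZK, hw'p⟩
  rw [← heq] at hw'Ω
  exact hw'Z ((Subgroup.zpowers_le.mpr hz₁Z) hw'Ω)

end LK

end Cfsg.Agent.Lib.helper14
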