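import Mathlib
import Cfsg.Prelude.Def_Transfer
import Cfsg.Agent.Lib.helper8.CoprimeAction
import Cfsg.Agent.Lib.helper14.Symp1
import Cfsg.Agent.Lib.helper14.Symp2

set_option autoImplicit false

namespace Cfsg.Agent.Lib.helper14

open Cfsg

section gen3

variable {G : Type*} [Group G]

lemma symp_char_normal {H : Subgroup G} (h : H.Characteristic) : H.Normal := by
  have := h
  infer_instance

lemma symp_comm_pow {g x : G} (k : ℕ) (h1 : Commute (g * x * g⁻¹ * x⁻¹) x)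
    (h2 : g * x ^ k = x ^ k * g) : (g * x * g⁻¹ * x⁻¹) ^ k = 1 := by
  have h3 : g * x * g⁻¹ = (g * x * g⁻¹ * x⁻¹) * x := by group
  have h4 : (g * x * g⁻¹) ^ k = x ^ k := by
    rw [conj_pow, h2, mul_inv_cancel_right]
  have h5 : (g * x * g⁻¹ * x⁻¹) ^ k * x ^ k = 1 * x ^ k := by
    rw [← h1.mul_pow, ← h3, h4, one_mul]
  exact mul_right_cancel h5

lemma symp_comm_prod {e e' r r' : G} (h1 : Commute r e') (h2 : Commute r e) (h3 : Commute r' e)
    (h4 : Commute r' e') :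
    (e * r) * (e' * r') * (e * r)⁻¹ * (e' * r')⁻¹ =
      (e * e' * e⁻¹ * e'⁻¹) * (r * r' * r⁻¹ * r'⁻¹) := by
  have ha : (e * r)⁻¹ = e⁻¹ * r⁻¹ := by rw [mul_inv_rev]; exact (h2.inv_inv).eq
  have hb : (e' * r')⁻¹ = e'⁻¹ * r'⁻¹ := by rw [mul_inv_rev]; exact (h4.inv_inv).eq
  rw [ha, hb, h1.mul_mul_mul_comm, ((h2.mul_left h3).inv_right).mul_mul_mul_comm,
    (((h1.mul_left h4).mul_left h1.inv_left).inv_right).mul_mul_mul_comm]

lemma symp_soc [Finite G] {p : ℕ} [Fact p.Prime] (hG : IsPGroup p G) (A N : Subgroup G)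
    [A.Normal] [N.Normal] (hNA : ¬ N ≤ A) :
    ∃ x ∈ N, x ∉ A ∧ x ^ p ∈ A ∧ ∀ g : G, g * x * g⁻¹ * x⁻¹ ∈ A := by
  have hQ : IsPGroup p (G ⧸ A) := hG.to_quotient A
  have : Group.IsNilpotent (G ⧸ A) := hQ.isNilpotent
  have hsurj : Function.Surjective (QuotientGroup.mk' A) := QuotientGroup.mk'_surjective A
  have hN' : (N.map (QuotientGroup.mk' A)).Normal := Subgroup.Normal.map inferInstance _ hsurj
  have hne : N.map (QuotientGroup.mk' A) ≠ ⊥ := by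
    intro h
    apply hNA
    have := (Subgroup.map_eq_bot_iff N).mp h
    rwa [QuotientGroup.ker_mk'] at this
  have h1 := Cfsg.Agent.Lib.helper7.nilpotent_normal_inf_center_ne_bot
    (N.map (QuotientGroup.mk' A)) hne
  obtain ⟨z, hz1⟩ := (Subgroup.ne_bot_iff_exists_ne_one).mp h1
  have hz1' : (z : G ⧸ A) ≠ 1 := fun h => hz1 (Subtype.ext h)
  obtain ⟨m, hm1, hmp⟩ := symp_exists_order_p hQ hz1'
  have hzm : (z : G ⧸ A) ^ m ∈ N.map (QuotientGroup.mk' A) ⊓ Subgroup.center (G ⧸ A) :=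
    Subgroup.pow_mem _ z.2 m
  obtain ⟨x, hxN, hx⟩ := Subgroup.mem_map.mp hzm.1
  have hx' : (x : G ⧸ A) = (z : G ⧸ A) ^ m := hx
  refine ⟨x, hxN, ?_, ?_, ?_⟩
  · intro hxA
    apply hm1
    rw [← hx']
    exact (QuotientGroup.eq_one_iff x).mpr hxA
  · rw [← QuotientGroup.eq_one_iff, QuotientGroup.mk_pow, hx']
    exact hmp
  · intro g
    rw [← QuotientGroup.eq_one_iff]
    have hc : (g : G ⧸ A) * (x : G ⧸ A) = (x : G ⧸ A) * (g : G ⧸ A) := by
      rw [hx']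
      exact Subgroup.mem_center_iff.mp hzm.2 g
    simp only [QuotientGroup.mk_mul, QuotientGroup.mk_inv]
    rw [hc]
    group

end gen3

section existsC

variable {G : Type*} [Group G] [Finite G] {p : ℕ} [Fact p.Prime]

lemma symp_exists_C (hG : IsPGroup p G)
    (A : Subgroup G) (hAchar : A.Characteristic) (hAab : ∀ a ∈ A, ∀ b ∈ A, a * b = b * a)
    (hmax : ∀ B : Subgroup G, B.Characteristic → (∀ a ∈ B, ∀ b ∈ B, a * b = b * a) →
      Nat.card B ≤ Nat.card A)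
    (hCA : ¬ Subgroup.centralizer (A : Set G) ≤ A) :
    ∃ C : Subgroup G, C.Characteristic ∧ A ≤ C ∧ C ≤ Subgroup.centralizer (A : Set G) ∧
      Subgroup.centralizer (C : Set G) = A ∧ ¬ C ≤ A ∧ (∀ x ∈ C, x ^ p ∈ A) ∧
      (∀ x ∈ C, ∀ g : G, g * x * g⁻¹ * x⁻¹ ∈ A) := by
  classical
  have hAN : A.Normal := symp_char_normal hAchar
  have hAcen : A ≤ Subgroup.centralizer (A : Set G) := fun a ha b hb => hAab b hb a ha
  let C0 : Subgroup G :=
    { carrier := {x | x ∈ Subgroup.centralizer (A : Set G) ∧ ∀ g : G, g * x * g⁻¹ * x⁻¹ ∈ A}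
      one_mem' := ⟨Subgroup.one_mem _, fun g => by simp⟩
      mul_mem' := by
        rintro x y ⟨hx, hxg⟩ ⟨hy, hyg⟩
        refine ⟨Subgroup.mul_mem _ hx hy, fun g => ?_⟩
        have h1 : g * (x * y) * g⁻¹ * (x * y)⁻¹ =
            (g * x * g⁻¹ * x⁻¹) * (x * (g * y * g⁻¹ * y⁻¹) * x⁻¹) := by group
        rw [h1]
        exact A.mul_mem (hxg g) (hAN.conj_mem _ (hyg g) x)
      inv_mem' := by
        rintro x ⟨hx, hxg⟩
        refine ⟨Subgroup.inv_mem _ hx, fun g => ?_⟩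
        have h1 : g * x⁻¹ * g⁻¹ * x⁻¹⁻¹ = x⁻¹ * (g * x * g⁻¹ * x⁻¹)⁻¹ * x⁻¹⁻¹ := by group
        rw [h1]
        exact hAN.conj_mem _ (A.inv_mem (hxg g)) x⁻¹ }
  have hZ1X : ∀ w ∈ A, ∀ t ∈ C0, w * t = t * w := fun w hw t ht => ht.1 w hw
  have hcommA : ∀ x ∈ C0, ∀ y ∈ C0, x * y * x⁻¹ * y⁻¹ ∈ A := fun x _ y hy => hy.2 x
  let C : Subgroup G :=
    { carrier := {x | x ∈ C0 ∧ x ^ p ∈ A}
      one_mem' := ⟨C0.one_mem, by rw [one_pow]; exact A.one_mem⟩
      mul_mem' := by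
        rintro x y ⟨hx, hxp⟩ ⟨hy, hyp⟩
        refine ⟨C0.mul_mem hx hy, ?_⟩
        obtain ⟨w, hw, hxy⟩ := symp_mul_pow hZ1X hcommA hx hy p
        show (x * y) ^ p ∈ A
        rw [hxy]
        exact A.mul_mem (A.mul_mem hxp hyp) hw
      inv_mem' := by
        rintro x ⟨hx, hxp⟩
        exact ⟨C0.inv_mem hx, by show x⁻¹ ^ p ∈ A; rw [inv_pow]; exact A.inv_mem hxp⟩ }
  have hAC : A ≤ C := fun a ha =>
    ⟨⟨hAcen ha, fun g => A.mul_mem (hAN.conj_mem _ ha g) (A.inv_mem ha)⟩, A.pow_mem ha p⟩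
  have hcenchar : (Subgroup.centralizer (A : Set G)).Characteristic := by
    have := hAchar
    infer_instance
  have hCchar : C.Characteristic := by
    apply symp_char_of_forall
    rintro φ x ⟨⟨hx, hxg⟩, hxp⟩
    refine ⟨⟨(symp_char_mem hcenchar φ).mpr hx, fun g => ?_⟩, ?_⟩
    · have h1 := hxg (φ.symm g)
      have h2 := (symp_char_mem hAchar φ).mpr h1
      simpa using h2
    · show (φ x) ^ p ∈ A
      rw [← map_pow]
      exact (symp_char_mem hAchar φ).mpr hxp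
  have hcenN : (Subgroup.centralizer (A : Set G)).Normal := symp_char_normal hcenchar
  obtain ⟨x, hxN, hxA, hxp, hxg⟩ := symp_soc hG A (Subgroup.centralizer (A : Set G)) hCA
  have hxC : x ∈ C := ⟨⟨hxN, hxg⟩, hxp⟩
  have hCneA : ¬ C ≤ A := fun h => hxA (h hxC)
  have hCcenA : C ≤ Subgroup.centralizer (A : Set G) := fun x hx => hx.1.1
  have hAcenC : A ≤ Subgroup.centralizer (C : Set G) := fun a ha c hc => (hc.1.1 a ha).symm
  have hF5 : C ⊓ Subgroup.centralizer (C : Set G) = A := by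
    symm
    apply Subgroup.eq_of_le_of_card_ge (le_inf hAC hAcenC)
    exact hmax _ (symp_inf_centralizer_char hCchar) (symp_inf_centralizer_comm C)
  have hF6 : Subgroup.centralizer (C : Set G) = A := by
    apply le_antisymm _ hAcenC
    by_contra hcon
    have : C.Normal := symp_char_normal hCchar
    have : (Subgroup.centralizer (C : Set G)).Normal := inferInstance
    obtain ⟨y, hyN, hyA, hyp, hyg⟩ := symp_soc hG A (Subgroup.centralizer (C : Set G)) hcon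
    have hyC : y ∈ C :=
      ⟨⟨Subgroup.centralizer_le (show (A : Set G) ⊆ C from hAC) hyN, hyg⟩, hyp⟩
    have : y ∈ C ⊓ Subgroup.centralizer (C : Set G) := ⟨hyC, hyN⟩
    rw [hF5] at this
    exact hyA this
  exact ⟨C, hCchar, hAC, hCcenA, hF6, hCneA, fun x hx => hx.2, fun x hx g => hx.1.2 g⟩

end existsC

section existsE

variable {G : Type*} [Group G] [Finite G] {p : ℕ} [Fact p.Prime]

lemma symp_exists_E (A C Z1 : Subgroup G) [A.Normal] (hZ1A : Z1 ≤ A)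
    (hZ1cen : ∀ z ∈ Z1, ∀ g : G, g * z = z * g) (hAC : A ≤ C)
    (hCcenA : C ≤ Subgroup.centralizer (A : Set G))
    (hcommZ1 : ∀ x ∈ C, ∀ y ∈ C, x * y * x⁻¹ * y⁻¹ ∈ Z1)
    (hpowZ1 : ∀ a ∈ A, a ^ p = 1 → a ∈ Z1)
    (hC6 : (∃ a ∈ A, a ^ p ≠ 1) → ∀ c ∈ C, ∃ z ∈ A, c ^ p = z ^ p) :
    ∃ E : Subgroup G, E ≤ C ∧ Z1 ≤ E ∧ E ⊓ A ≤ Z1 ∧ ∀ c ∈ C, ∃ e ∈ E, ∃ a ∈ A, c = e * a := by
  classical
  have hpp : p.Prime := Fact.out
  let S : Set (Subgroup G) := {E | E ≤ C ∧ E ⊓ A ≤ Z1}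
  have hSne : S.Nonempty :=
    ⟨⊥, bot_le, fun x hx => by rw [(Subgroup.mem_bot.mp hx.1)]; exact Z1.one_mem⟩
  obtain ⟨E, ⟨hEC, hEA⟩, hEmax⟩ :=
    Set.exists_max_image S (fun E => Nat.card E) (Set.toFinite S) hSne
  have hZ1N : Z1.Normal :=
    ⟨fun z hz g => by rw [hZ1cen z hz g, mul_inv_cancel_right]; exact hz⟩
  have hE1 : Z1 ≤ E := by
    have hmem : E ⊔ Z1 ∈ S := by
      refine ⟨sup_le hEC (hZ1A.trans hAC), ?_⟩
      rintro x ⟨hx, hxA⟩
      obtain ⟨e, he, z, hz, rfl⟩ := Subgroup.mem_sup_of_normal_right.mp hx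
      have heA : e ∈ A := by
        have := A.mul_mem hxA (A.inv_mem (hZ1A hz))
        rwa [mul_inv_cancel_right] at this
      exact Z1.mul_mem (hEA ⟨he, heA⟩) hz
    have hcard := hEmax _ hmem
    have : E ⊔ Z1 = E := (Subgroup.eq_of_le_of_card_ge le_sup_left hcard).symm
    rw [← this]
    exact le_sup_right
  have hEnorm : ∀ c ∈ C, ∀ e ∈ E, c * e * c⁻¹ ∈ E := by
    intro c hc e he
    have h1 : c * e * c⁻¹ = (c * e * c⁻¹ * e⁻¹) * e := by group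
    rw [h1]
    exact E.mul_mem (hE1 (hcommZ1 c hc e (hEC he))) he
  have hE2 : ∀ c ∈ C, ∃ e ∈ E, ∃ a ∈ A, c = e * a := by
    by_cases hAZ : ∀ a ∈ A, a ^ p = 1
    · have hCS : C ∈ S := ⟨le_rfl, fun x hx => hpowZ1 x hx.2 (hAZ x hx.2)⟩
      have hEC' : E = C := Subgroup.eq_of_le_of_card_ge hEC (hEmax _ hCS)
      intro c hc
      exact ⟨c, hEC' ▸ hc, 1, A.one_mem, (mul_one c).symm⟩
    · push_neg at hAZ
      have hC6' := hC6 hAZ
      by_contra hcon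
      push_neg at hcon
      obtain ⟨c, hc, hcEA⟩ := hcon
      obtain ⟨z, hz, hcz⟩ := hC6' c hc
      have hzc : Commute c z⁻¹ := by
        have : z * c = c * z := hCcenA hc z hz
        exact Commute.inv_right this.symm
      have hc'p : (c * z⁻¹) ^ p = 1 := by rw [hzc.mul_pow, hcz, inv_pow, mul_inv_cancel]
      have hc'C : c * z⁻¹ ∈ C := C.mul_mem hc (C.inv_mem (hAC hz))
      have hc'EA : ∀ e ∈ E, ∀ a ∈ A, c * z⁻¹ ≠ e * a := by
        intro e he a ha h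
        apply hcEA e he (a * z) (A.mul_mem ha hz)
        rw [← mul_assoc, ← h, inv_mul_cancel_right]
      have hnorm : Subgroup.zpowers (c * z⁻¹) ≤ Subgroup.normalizer (E : Set G) := by
        rw [Subgroup.zpowers_le, Subgroup.mem_normalizer_iff]
        intro h
        constructor
        · intro hh
          exact hEnorm _ hc'C h hh
        · intro hh
          have := hEnorm _ (C.inv_mem hc'C) _ hh
          have h2 : (c * z⁻¹)⁻¹ * (c * z⁻¹ * h * (c * z⁻¹)⁻¹) * (c * z⁻¹)⁻¹⁻¹ = h := by group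
          rwa [h2] at this
      have hsupmem : ∀ x, x ∈ E ⊔ Subgroup.zpowers (c * z⁻¹) ↔
          ∃ n ∈ E, ∃ a ∈ Subgroup.zpowers (c * z⁻¹), x = n * a :=
        fun x => Cfsg.Agent.Lib.helper8.mem_sup_iff_of_le_normalizer hnorm x
      have hE1S : E ⊔ Subgroup.zpowers (c * z⁻¹) ∈ S := by
        refine ⟨sup_le hEC (Subgroup.zpowers_le.mpr hc'C), ?_⟩
        rintro x ⟨hx, hxA⟩
        obtain ⟨e, he, y, hy, rfl⟩ := (hsupmem x).mp hx
        obtain ⟨i, rfl⟩ := Subgroup.mem_zpowers_iff.mp hy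
        by_cases hpi : (p : ℤ) ∣ i
        · obtain ⟨j, rfl⟩ := hpi
          have h1 : (c * z⁻¹) ^ ((p : ℤ) * j) = 1 := by
            rw [zpow_mul, zpow_natCast, hc'p, one_zpow]
          rw [h1, mul_one] at hxA ⊢
          exact hEA ⟨he, hxA⟩
        · exfalso
          have hp' : Prime (p : ℤ) := Nat.prime_iff_prime_int.mp hpp
          obtain ⟨a, b, hab⟩ := (Prime.coprime_iff_not_dvd hp').mpr hpi
          have hc'eq : c * z⁻¹ = ((c * z⁻¹) ^ i) ^ b := by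
            have h1 : (c * z⁻¹) ^ (a * (p : ℤ)) = 1 := by
              rw [mul_comm, zpow_mul, zpow_natCast, hc'p, one_zpow]
            calc c * z⁻¹ = (c * z⁻¹) ^ (a * (p : ℤ) + b * i) := by rw [hab, zpow_one]
              _ = ((c * z⁻¹) ^ i) ^ b := by rw [zpow_add, h1, one_mul, mul_comm, zpow_mul]
          have h2 : (c * z⁻¹) ^ i ∈ E ⊔ A := by
            have : (c * z⁻¹) ^ i = e⁻¹ * (e * (c * z⁻¹) ^ i) := by group
            rw [this]
            exact Subgroup.mul_mem _ (Subgroup.mem_sup_left (E.inv_mem he))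
              (Subgroup.mem_sup_right hxA)
          have h3 : c * z⁻¹ ∈ E ⊔ A := by
            rw [hc'eq]
            exact Subgroup.zpow_mem _ h2 b
          obtain ⟨e', he', a', ha', h4⟩ := Subgroup.mem_sup_of_normal_right.mp h3
          exact hc'EA e' he' a' ha' h4.symm
      have hcard := hEmax _ hE1S
      have hEeq : E ⊔ Subgroup.zpowers (c * z⁻¹) = E :=
        (Subgroup.eq_of_le_of_card_ge le_sup_left hcard).symm
      have hc'E : c * z⁻¹ ∈ E := by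
        rw [← hEeq]
        exact Subgroup.mem_sup_right (Subgroup.mem_zpowers _)
      exact hc'EA _ hc'E 1 A.one_mem (mul_one _).symm
  exact ⟨E, hEC, hE1, hEA, hE2⟩

lemma symp_E_extraspecial (hG : IsPGroup p G) (E Z1 : Subgroup G) (hZ1card : Nat.card Z1 = p)
    (hZ1E : Z1 ≤ E) (hZ1cen : ∀ z ∈ Z1, ∀ g : G, g * z = z * g)
    (hcommE : ∀ x ∈ E, ∀ y ∈ E, x * y * x⁻¹ * y⁻¹ ∈ Z1) (hpowE : ∀ x ∈ E, x ^ p ∈ Z1)
    (hcenE : ∀ x ∈ E, (∀ y ∈ E, x * y = y * x) → x ∈ Z1)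
    (hna : ∃ x ∈ E, ∃ y ∈ E, x * y ≠ y * x) : Cfsg.IsExtraspecial p ↥E := by
  apply symp_extraspecial_of (hG.to_subgroup E) (Z1.subgroupOf E)
  · rw [Nat.card_congr (Subgroup.subgroupOfEquivOfLe hZ1E).toEquiv]
    exact hZ1card
  · ext x
    rw [Subgroup.mem_center_iff, Subgroup.mem_subgroupOf]
    constructor
    · intro h
      apply hcenE x x.2
      intro y hy
      have := h ⟨y, hy⟩
      exact (congrArg Subtype.val this).symm
    · intro h g
      apply Subtype.ext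
      exact hZ1cen _ h g
  · intro x y
    rw [Subgroup.mem_subgroupOf]
    exact hcommE x x.2 y y.2
  · intro x
    rw [Subgroup.mem_subgroupOf]
    exact hpowE x x.2
  · obtain ⟨x, hx, y, hy, hxy⟩ := hna
    exact ⟨⟨x, hx⟩, ⟨y, hy⟩, fun h => hxy (congrArg Subtype.val h)⟩

lemma symp_P9 (hG : IsPGroup p G) (E R Z1 : Subgroup G) (hZ1card : Nat.card Z1 = p)
    (hZ1cen : ∀ z ∈ Z1, ∀ g : G, g * z = z * g) (hZ1R : Z1 ≤ R)
    (hER : ∀ e ∈ E, ∀ r ∈ R, e * r = r * e)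
    (hG' : ∀ g : G, ∃ e ∈ E, ∃ r ∈ R, g = e * r)
    (hRcen : ∀ x : G, (∀ e ∈ E, x * e = e * x) → x ∈ R)
    (hcommE : ∀ x ∈ E, ∀ y ∈ E, x * y * x⁻¹ * y⁻¹ ∈ Z1) (hpowE : ∀ x ∈ E, x ^ p ∈ Z1)
    (hRcard : Nat.card R = p ^ 3) (hRna : ∃ x ∈ R, ∃ y ∈ R, x * y ≠ y * x) :
    Cfsg.IsExtraspecial p ↥(⊤ : Subgroup G) := by
  have hRes : Cfsg.IsExtraspecial p ↥R := by
    obtain ⟨x, hx, y, hy, hxy⟩ := hRna
    exact symp_extraspecial_of_card_cube hRcard
      ⟨⟨x, hx⟩, ⟨y, hy⟩, fun h => hxy (congrArg Subtype.val h)⟩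
  obtain ⟨⟨hRp, hfr, hco⟩, hcen⟩ := hRes
  have hcenR : Subgroup.center ↥R = Z1.subgroupOf R := by
    symm
    apply Subgroup.eq_of_le_of_card_ge
    · intro x hx
      rw [Subgroup.mem_center_iff]
      intro g
      apply Subtype.ext
      exact hZ1cen _ (Subgroup.mem_subgroupOf.mp hx) g
    · rw [hcen, Nat.card_congr (Subgroup.subgroupOfEquivOfLe hZ1R).toEquiv, hZ1card]
  have hcommR : ∀ x ∈ R, ∀ y ∈ R, x * y * x⁻¹ * y⁻¹ ∈ Z1 := by
    intro x hx y hy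
    have h1 : (⟨x, hx⟩ * ⟨y, hy⟩ * (⟨x, hx⟩ : ↥R)⁻¹ * (⟨y, hy⟩ : ↥R)⁻¹ : ↥R) ∈ commutator ↥R :=
      Subgroup.commutator_mem_commutator (Subgroup.mem_top _) (Subgroup.mem_top _)
    rw [hco, hcenR] at h1
    exact Subgroup.mem_subgroupOf.mp h1
  have hpowR : ∀ x ∈ R, x ^ p ∈ Z1 := by
    intro x hx
    have h1 : (⟨x, hx⟩ : ↥R) ^ p ∈ frattini ↥R :=
      Cfsg.Agent.Lib.helper1.pow_mem_frattini p hRp _
    rw [hfr, hcenR] at h1
    exact Subgroup.mem_subgroupOf.mp h1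
  apply symp_E_extraspecial hG ⊤ Z1 hZ1card le_top hZ1cen
  · intro x _ y _
    obtain ⟨e, he, r, hr, rfl⟩ := hG' x
    obtain ⟨e', he', r', hr', rfl⟩ := hG' y
    rw [symp_comm_prod (hER e' he' r hr).symm (hER e he r hr).symm (hER e he r' hr').symm
      (hER e' he' r' hr').symm]
    exact Z1.mul_mem (hcommE e he e' he') (hcommR r hr r' hr')
  · intro x _
    obtain ⟨e, he, r, hr, rfl⟩ := hG' x
    have hc : Commute e r := hER e he r hr
    rw [hc.mul_pow]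
    exact Z1.mul_mem (hpowE e he) (hpowR r hr)
  · intro x _ hx
    have hxR : x ∈ R := hRcen x (fun e _ => hx e (Subgroup.mem_top e))
    have h1 : (⟨x, hxR⟩ : ↥R) ∈ Subgroup.center ↥R := by
      rw [Subgroup.mem_center_iff]
      intro g
      apply Subtype.ext
      exact (hx g (Subgroup.mem_top _)).symm
    rw [hcenR] at h1
    exact Subgroup.mem_subgroupOf.mp h1
  · obtain ⟨x, _, y, _, hxy⟩ := hRna
    exact ⟨x, Subgroup.mem_top x, y, Subgroup.mem_top y, hxy⟩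

end existsE

section claimY

variable {G : Type*} [Group G] [Finite G] {p : ℕ} [Fact p.Prime]

lemma symp_T_le (hG : IsPGroup p G)
    (hsymp : ∀ A : Subgroup G, A.Characteristic → IsMulCommutative A → IsCyclic A)
    (A C : Subgroup G) (hAchar : A.Characteristic) (hAcyc : IsCyclic A)
    (hAab : ∀ a ∈ A, ∀ b ∈ A, a * b = b * a)
    (hAC : A ≤ C) (hCcenA : C ≤ Subgroup.centralizer (A : Set G))
    (hcenAC : Subgroup.centralizer (A : Set G) ≤ C)
    (hcenC : Subgroup.centralizer (C : Set G) ≤ A)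
    (hCcomm : ∀ x ∈ C, ∀ g : G, g * x * g⁻¹ * x⁻¹ ∈ A)
    (hC6 : ∀ c ∈ C, ∃ z ∈ A, c ^ p = z ^ p)
    (hZ1card : Nat.card (sympOmega p A hAab) = p)
    (hZ1cen : ∀ z ∈ sympOmega p A hAab, ∀ g : G, g * z = z * g)
    (ha0 : ∃ a ∈ A, (a ^ p) ^ p ≠ 1) :
    ∀ t : G, (∀ a ∈ A, t * a ^ p = a ^ p * t) → ∀ a ∈ A, t * a = a * t := by
  classical
  have hpp : p.Prime := Fact.out
  have hAN : A.Normal := symp_char_normal hAchar
  set Z1 : Subgroup G := sympOmega p A hAab with hZ1def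
  have hZ1N : Z1.Normal :=
    ⟨fun z hz g => by rw [hZ1cen z hz g, mul_inv_cancel_right]; exact hz⟩
  set T : Subgroup G := Subgroup.centralizer ({y | ∃ a ∈ A, y = a ^ p} : Set G) with hTdef
  have hTmem : ∀ t, t ∈ T ↔ ∀ a ∈ A, t * a ^ p = a ^ p * t := by
    intro t
    rw [hTdef, Subgroup.mem_centralizer_iff]
    constructor
    · intro h a ha
      exact (h _ ⟨a, ha, rfl⟩).symm
    · rintro h _ ⟨a, ha, rfl⟩
      exact (h a ha).symm
  have hTchar : T.Characteristic := by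
    apply symp_char_of_forall
    intro φ x hx
    rw [hTmem] at hx ⊢
    intro a ha
    have ha' : φ.symm a ∈ A := by
      have := (symp_char_mem hAchar φ (x := φ.symm a))
      rw [MulEquiv.apply_symm_apply] at this
      exact this.mp ha
    have h1 := congrArg φ (hx _ ha')
    rw [map_mul, map_mul, map_pow, MulEquiv.apply_symm_apply] at h1
    exact h1
  have hCT : C ≤ T := by
    intro c hc
    rw [hTmem]
    intro a ha
    exact (hCcenA hc _ (A.pow_mem ha p)).symm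
  have hAT : A ≤ T := hAC.trans hCT
  obtain ⟨g, hgA, hgen⟩ := symp_exists_gen hAcyc
  have hTA : ∀ t ∈ T, ∀ a ∈ A, t * a * t⁻¹ * a⁻¹ ∈ Z1 := by
    intro t ht a ha
    have hu : t * a * t⁻¹ * a⁻¹ ∈ A := A.mul_mem (hAN.conj_mem _ ha t) (A.inv_mem ha)
    exact ⟨hu, symp_comm_pow p (hAab _ hu a ha) ((hTmem t).mp ht a ha)⟩
  have hTC : ∀ t ∈ T, ∀ c ∈ C, t * c * t⁻¹ * c⁻¹ ∈ Z1 := by
    intro t ht c hc
    have hu : t * c * t⁻¹ * c⁻¹ ∈ A := hCcomm c hc t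
    refine ⟨hu, symp_comm_pow p (hCcenA hc _ hu) ?_⟩
    obtain ⟨z, hz, hcz⟩ := hC6 c hc
    rw [hcz]
    exact (hTmem t).mp ht z hz
  have hφpow : ∀ s ∈ T, ∀ i : ℕ, s ^ i * g * (s ^ i)⁻¹ * g⁻¹ = (s * g * s⁻¹ * g⁻¹) ^ i := by
    intro s hs i
    induction i with
    | zero => simp
    | succ i ih =>
      have hu := hZ1cen _ (hTA s hs g hgA) (s ^ i)
      have h1 : s ^ (i + 1) * g * (s ^ (i + 1))⁻¹ * g⁻¹ =
          s ^ i * (s * g * s⁻¹ * g⁻¹) * g * (s ^ i)⁻¹ * g⁻¹ := by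
        rw [pow_succ]; group
      rw [h1, hu, pow_succ', ← ih]
      group
  have hcomm_of : ∀ c : G, c * g = g * c → c ∈ C := by
    intro c hc
    apply hcenAC
    intro a ha
    obtain ⟨k, rfl⟩ := Subgroup.mem_zpowers_iff.mp (hgen a ha)
    have hc' : Commute c g := hc
    exact (hc'.zpow_right k).eq.symm
  have hTT : ∀ t ∈ T, ∀ s ∈ T, t * s * t⁻¹ * s⁻¹ ∈ Z1 := by
    intro t ht s hs
    by_cases hs1 : s * g * s⁻¹ * g⁻¹ = 1
    · have hsC : s ∈ C := by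
        apply hcomm_of
        calc s * g = (s * g * s⁻¹ * g⁻¹) * (g * s) := by group
          _ = g * s := by rw [hs1, one_mul]
      exact hTC t ht s hsC
    · have huZ : s * g * s⁻¹ * g⁻¹ ∈ Z1 := hTA s hs g hgA
      have hup : (s * g * s⁻¹ * g⁻¹) ^ p = 1 := huZ.2
      have hord : orderOf (s * g * s⁻¹ * g⁻¹) = p := orderOf_eq_prime hup hs1
      have hzp : Subgroup.zpowers (s * g * s⁻¹ * g⁻¹) = Z1 :=
        Subgroup.eq_of_le_of_card_ge (Subgroup.zpowers_le.mpr huZ)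
          (by rw [Nat.card_zpowers, hord, hZ1card])
      have hv : t * g * t⁻¹ * g⁻¹ ∈ Subgroup.zpowers (s * g * s⁻¹ * g⁻¹) := by
        rw [hzp]
        exact hTA t ht g hgA
      rw [← mem_powers_iff_mem_zpowers] at hv
      obtain ⟨i, hi⟩ := (Submonoid.mem_powers_iff _ _).mp hv
      have h6 : s ^ i * g * (s ^ i)⁻¹ * g⁻¹ = t * g * t⁻¹ * g⁻¹ := by rw [hφpow s hs i, hi]
      have h7 : s ^ i * g * (s ^ i)⁻¹ = t * g * t⁻¹ := mul_right_cancel h6
      have hcg : ((s ^ i)⁻¹ * t) * g = g * ((s ^ i)⁻¹ * t) := by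
        calc (s ^ i)⁻¹ * t * g = (s ^ i)⁻¹ * (t * g * t⁻¹) * t := by group
          _ = (s ^ i)⁻¹ * (s ^ i * g * (s ^ i)⁻¹) * t := by rw [h7]
          _ = g * ((s ^ i)⁻¹ * t) := by group
      have hcC : (s ^ i)⁻¹ * t ∈ C := hcomm_of _ hcg
      have h8 := hTC s hs _ hcC
      have h9 : t * s * t⁻¹ * s⁻¹ =
          s ^ i * (s * ((s ^ i)⁻¹ * t) * s⁻¹ * ((s ^ i)⁻¹ * t)⁻¹)⁻¹ * (s ^ i)⁻¹ := by
        group
      rw [h9]
      exact hZ1N.conj_mem _ (Z1.inv_mem h8) _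
  have hcomm : ∀ x ∈ T, ∀ y ∈ T, x * y * x⁻¹ * y⁻¹ ∈ Subgroup.centralizer (T : Set G) ∧
      (x * y * x⁻¹ * y⁻¹) ^ p = 1 := by
    intro x hx y hy
    have hu := hTT x hx y hy
    exact ⟨fun h _ => hZ1cen _ hu h, hu.2⟩
  have hpow : ∀ x ∈ T, x ^ p ∈ Subgroup.centralizer (T : Set G) := by
    intro x hx y hy
    have hu := hTT y hy x hx
    have hcu : Commute (y * x * y⁻¹ * x⁻¹) x := (hZ1cen _ hu x).symm
    have h1 : y * x * y⁻¹ = (y * x * y⁻¹ * x⁻¹) * x := by group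
    have h2 : y * x ^ p * y⁻¹ = x ^ p := by
      rw [← conj_pow, h1, hcu.mul_pow, hu.2, one_mul]
    calc y * x ^ p = (y * x ^ p * y⁻¹) * y := by group
      _ = x ^ p * y := by rw [h2]
  have hz0 : ∃ z ∈ T ⊓ Subgroup.centralizer (T : Set G), z ^ p ≠ 1 := by
    obtain ⟨a, ha, hap⟩ := ha0
    refine ⟨a ^ p, ⟨hAT (A.pow_mem ha p), ?_⟩, hap⟩
    intro t ht
    exact (hTmem t).mp ht a ha
  have hK := symp_pow_structure hG hsymp T hTchar hpow hcomm hz0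
  obtain ⟨z, hz, hgz⟩ := hK g (hAT hgA)
  have hzA : z ∈ A := hcenC (Subgroup.centralizer_le (show (C : Set G) ⊆ T from hCT) hz.2)
  have hcz : Commute g z⁻¹ := Commute.inv_right (hAab g hgA z hzA)
  have hwp : (g * z⁻¹) ^ p = 1 := by rw [hcz.mul_pow, hgz, inv_pow, mul_inv_cancel]
  have hwZ : g * z⁻¹ ∈ Z1 := ⟨A.mul_mem hgA (A.inv_mem hzA), hwp⟩
  have hgT : ∀ t ∈ T, t * g = g * t := by
    intro t ht
    have h1 : t * (g * z⁻¹) = (g * z⁻¹) * t := hZ1cen _ hwZ t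
    have h2 : t * z = z * t := hz.2 t ht
    calc t * g = t * (g * z⁻¹) * z := by group
      _ = (g * z⁻¹) * t * z := by rw [h1]
      _ = (g * z⁻¹) * (t * z) := by group
      _ = (g * z⁻¹) * (z * t) := by rw [h2]
      _ = g * t := by group
  intro t ht a ha
  have htT : t ∈ T := (hTmem t).mpr ht
  obtain ⟨k, rfl⟩ := Subgroup.mem_zpowers_iff.mp (hgen a ha)
  have hc' : Commute t g := hgT t htT
  exact (hc'.zpow_right k).eq

end claimY

end Cfsg.Agent.Lib.helper14
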