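import Mathlib
import Cfsg.Prelude.Def_MonsterType
import Cfsg.Prelude.Def_Local
import Cfsg.Agent.Lib.helper7.FSimple
import Cfsg.Agent.Lib.helper9.PPrimeCore
import Cfsg.Agent.Lib.helper14.LargeES
import Cfsg.Agent.Lib.helper14.SecRank
import Cfsg.Agent.Lib.helper14.PGroupFrattini
import Cfsg.Agent.Lib.helper14.Basic
import Cfsg.Agent.Lib.helper14.Symp3

set_option autoImplicit false

namespace Cfsg.Agent.Lib.helper14

open Cfsg

section lesgen

variable {G : Type*} [Group G]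

lemma srCj_inv_cancel (g : G) (A : Subgroup G) : srCj g⁻¹ (srCj g A) = A := by
  ext x
  rw [mem_srCj, mem_srCj]
  have e : g⁻¹ * (g⁻¹⁻¹ * x * g⁻¹) * g = x := by group
  rw [e]

lemma srCj_cancel_inv (g : G) (A : Subgroup G) : srCj g (srCj g⁻¹ A) = A := by
  ext x
  rw [mem_srCj, mem_srCj]
  have e : g⁻¹⁻¹ * (g⁻¹ * x * g) * g⁻¹ = x := by group
  rw [e]

lemma srCj_mul (g h : G) (A : Subgroup G) : srCj g (srCj h A) = srCj (g * h) A := by
  ext x
  rw [mem_srCj, mem_srCj, mem_srCj]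
  have e : h⁻¹ * (g⁻¹ * x * g) * h = (g * h)⁻¹ * x * (g * h) := by group
  rw [e]

lemma les_meet [Finite G] {p : ℕ} [Fact p.Prime] (P D : Subgroup G) (hP : IsPGroup p ↥P)
    (hDP : D ≤ P) (hD : D ≠ ⊥) (hn : ∀ a ∈ P, ∀ d ∈ D, a * d * a⁻¹ ∈ D) :
    ∃ d ∈ D, d ≠ 1 ∧ ∀ a ∈ P, a * d = d * a := by
  have : Group.IsNilpotent ↥P := hP.isNilpotent
  have hnorm : (D.subgroupOf P).Normal := by
    constructor
    intro n hn' g
    rw [Subgroup.mem_subgroupOf] at hn' ⊢
    simpa using hn g g.2 n hn'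
  have hne : D.subgroupOf P ≠ ⊥ := by
    intro h
    apply hD
    rw [eq_bot_iff]
    intro d hd
    have : (⟨d, hDP hd⟩ : P) ∈ D.subgroupOf P := Subgroup.mem_subgroupOf.mpr hd
    rw [h, Subgroup.mem_bot] at this
    rw [Subgroup.mem_bot]
    exact congrArg Subtype.val this
  have h1 := Cfsg.Agent.Lib.helper7.nilpotent_normal_inf_center_ne_bot (D.subgroupOf P) hne
  obtain ⟨⟨y, hy⟩, hy1⟩ := (Subgroup.ne_bot_iff_exists_ne_one).mp h1
  refine ⟨(y : G), Subgroup.mem_subgroupOf.mp hy.1, ?_, ?_⟩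
  · intro h
    apply hy1
    apply Subtype.ext
    apply Subtype.ext
    exact h
  · intro a ha
    have := Subgroup.mem_center_iff.mp hy.2 ⟨a, ha⟩
    exact congrArg Subtype.val this

/-- A fixed-point-free involution inverts, so the group is abelian. -/
lemma les_fpf [Finite G] (E : Subgroup G) (z : G) (hzE : ∀ e ∈ E, z * e * z⁻¹ ∈ E)
    (hz2 : z * z = 1) (hfp : ∀ e ∈ E, z * e = e * z → e = 1) :
    ∀ a ∈ E, ∀ b ∈ E, a * b = b * a := by
  have hzinv : z⁻¹ = z := inv_eq_of_mul_eq_one_left hz2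
  have hinj : Function.Injective
      (fun x : E => (⟨(x : G)⁻¹ * (z * x * z⁻¹), E.mul_mem (E.inv_mem x.2) (hzE x x.2)⟩ : E)) := by
    intro x y hxy
    have h1 : (x : G)⁻¹ * (z * x * z⁻¹) = (y : G)⁻¹ * (z * y * z⁻¹) := congrArg Subtype.val hxy
    have h2 : z * ((y : G) * (x : G)⁻¹) = ((y : G) * (x : G)⁻¹) * z := by
      have e1 : z * ((y : G) * (x : G)⁻¹) = (y : G) * ((y : G)⁻¹ * (z * y * z⁻¹)) * z * (x : G)⁻¹ := by
        group
      have e2 : ((y : G) * (x : G)⁻¹) * z = (y : G) * ((x : G)⁻¹ * (z * x * z⁻¹)) * z * (x : G)⁻¹ := by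
        group
      rw [e1, e2, h1]
    have h3 := hfp _ (E.mul_mem y.2 (E.inv_mem x.2)) h2
    apply Subtype.ext
    exact (mul_inv_eq_one.mp h3).symm
  have hsurj := Finite.injective_iff_surjective.mp hinj
  have hinv : ∀ e ∈ E, z * e * z⁻¹ = e⁻¹ := by
    intro e he
    obtain ⟨x, hx⟩ := hsurj ⟨e, he⟩
    have h1 : (x : G)⁻¹ * (z * x * z⁻¹) = e := congrArg Subtype.val hx
    rw [← h1, hzinv]
    have e1 : z * ((x : G)⁻¹ * (z * x * z)) * z = (z * (x : G)⁻¹ * z * x) * (z * z) := by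
      group
    have e2 : ((x : G)⁻¹ * (z * x * z))⁻¹ = z⁻¹ * (x : G)⁻¹ * z⁻¹ * x := by group
    rw [e1, e2, hz2, hzinv, mul_one]
  intro a ha b hb
  have h1 := hinv (a * b) (E.mul_mem ha hb)
  have h2 : z * (a * b) * z⁻¹ = (z * a * z⁻¹) * (z * b * z⁻¹) := by group
  rw [h2, hinv a ha, hinv b hb, mul_inv_rev] at h1
  have h3 := congrArg (fun t => t⁻¹) h1
  simpa using h3.symm

/-- A nonabelian simple group has no involution whose centralizer has order two. -/
lemma les_inv {L : Type*} [Group L] [Finite L] [IsSimpleGroup L] (hna : ¬ IsMulCommutative L)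
    (a : L) (ha1 : a ≠ 1) (hC : ∀ c : L, c * a = a * c → c = 1 ∨ c = a) : False := by
  have hfact : Fact (Nat.Prime 2) := ⟨Nat.prime_two⟩
  have haa : a * a = 1 := by
    rcases hC (a * a) (by rw [mul_assoc]) with h | h
    · exact h
    · exfalso; exact ha1 (mul_left_cancel (a := a) (by rw [h, mul_one]))
  have hord : orderOf a = 2 := orderOf_eq_prime (by rw [pow_two]; exact haa) ha1
  have h2dvd : 2 ∣ Nat.card L := by rw [← hord]; exact orderOf_dvd_natCard a
  have hpz : IsPGroup 2 ↥(Subgroup.zpowers a) :=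
    IsPGroup.of_card (n := 1) (by rw [Nat.card_zpowers, hord]; rfl)
  obtain ⟨S, hS⟩ := hpz.exists_le_sylow
  have haS : a ∈ (S : Subgroup L) := hS (Subgroup.mem_zpowers a)
  have hSne : (S : Subgroup L) ≠ ⊥ := by
    intro h
    rw [h, Subgroup.mem_bot] at haS
    exact ha1 haS
  obtain ⟨d, hd, hd1, hdc⟩ := les_meet (S : Subgroup L) (S : Subgroup L) S.isPGroup' le_rfl hSne
    (fun x hx d hd => (S : Subgroup L).mul_mem ((S : Subgroup L).mul_mem hx hd)
      ((S : Subgroup L).inv_mem hx))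
  have hda : d = a := (hC d (hdc a haS).symm).resolve_left hd1
  have hSall : ∀ s ∈ (S : Subgroup L), s = 1 ∨ s = a := by
    intro s hs
    apply hC
    rw [← hda]
    exact hdc s hs
  have hNC : Subgroup.normalizer ((S : Subgroup L) : Set L)
      ≤ Subgroup.centralizer ((S : Subgroup L) : Set L) := by
    intro n hn
    rw [Subgroup.mem_centralizer_iff]
    have h1 := (Subgroup.mem_normalizer_iff.mp hn a).mp haS
    have h2 : n * a = a * n := by
      rcases hSall _ h1 with h | h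
      · exfalso
        apply ha1
        have e : a = n⁻¹ * (n * a * n⁻¹) * n := by group
        rw [e, h]; group
      · exact mul_inv_eq_iff_eq_mul.mp h
    intro s hs
    rcases hSall s hs with h | h
    · rw [h, one_mul, mul_one]
    · rw [h]; exact h2.symm
  have hnpc : Cfsg.HasNormalPComplement 2 L :=
    ⟨S, (MonoidHom.transferSylow S hNC).ker, inferInstance,
      MonoidHom.ker_transferSylow_isComplement' S hNC⟩
  exact Cfsg.Agent.Lib.helper7.not_npc_of_simple hna h2dvd hnpc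

lemma les_fitting_le_pCore [Finite G]
    (hodd : ∀ K : Subgroup G, K.Normal → Odd (Nat.card K) → K = ⊥) :
    Cfsg.fittingSubgroup G ≤ Cfsg.pCore 2 G := by
  have hFn : (Cfsg.fittingSubgroup G).Normal := Cfsg.Agent.Lib.helper1.fitting_normal G
  have hnil : Group.IsNilpotent ↥(Cfsg.fittingSubgroup G) :=
    Cfsg.Agent.Lib.helper7.fitting_nilpotent G
  apply le_pCore hFn
  have hcard : ∀ p : ℕ, p.Prime → p ∣ Nat.card ↥(Cfsg.fittingSubgroup G) → p = 2 := by
    intro p hp hdvd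
    by_contra hp2
    haveI : Fact p.Prime := ⟨hp⟩
    obtain ⟨P⟩ : Nonempty (Sylow p ↥(Cfsg.fittingSubgroup G)) := inferInstance
    have hPn : (P : Subgroup ↥(Cfsg.fittingSubgroup G)).Normal :=
      Sylow.normal_of_normalizerCondition Group.normalizerCondition_of_isNilpotent P
    haveI hPc : (P : Subgroup ↥(Cfsg.fittingSubgroup G)).Characteristic :=
      Sylow.characteristic_of_normal P hPn
    have hKn := Cfsg.Agent.Lib.helper7.normal_map_subtype_of_char
      (P : Subgroup ↥(Cfsg.fittingSubgroup G))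
    have hKodd : Odd (Nat.card ↥((P : Subgroup ↥(Cfsg.fittingSubgroup G)).map
        (Cfsg.fittingSubgroup G).subtype)) := by
      rw [Subgroup.card_map_of_injective (Subgroup.subtype_injective _)]
      obtain ⟨n, hn⟩ := IsPGroup.iff_card.mp P.isPGroup'
      rw [hn]
      exact Odd.pow (hp.odd_of_ne_two hp2)
    have hbot := hodd _ hKn hKodd
    have hPbot : (P : Subgroup ↥(Cfsg.fittingSubgroup G)) = ⊥ := by
      rw [eq_bot_iff]
      intro x hx
      have : ((x : ↥(Cfsg.fittingSubgroup G)) : G) ∈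
          (P : Subgroup ↥(Cfsg.fittingSubgroup G)).map (Cfsg.fittingSubgroup G).subtype :=
        ⟨x, hx, rfl⟩
      rw [hbot, Subgroup.mem_bot] at this
      rw [Subgroup.mem_bot]
      exact Subtype.ext this
    exact P.ne_bot_of_dvd_card hdvd hPbot
  have hpos : Nat.card ↥(Cfsg.fittingSubgroup G) ≠ 0 := Nat.card_pos.ne'
  have hk := Nat.eq_prime_pow_of_unique_prime_dvd hpos (fun {d} hd hdvd => hcard d hd hdvd)
  exact IsPGroup.of_card hk

lemma les_sylow_of_odd_index {L : Type*} [Group L] [Finite L] (C : Subgroup L)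
    (hC : IsPGroup 2 ↥C) (hodd : Odd C.index) : ∃ R : Sylow 2 L, (R : Subgroup L) = C := by
  have hfact : Fact (Nat.Prime 2) := ⟨Nat.prime_two⟩
  obtain ⟨S, hS⟩ := hC.exists_le_sylow
  refine ⟨S, ?_⟩
  symm
  apply Subgroup.eq_of_le_of_card_ge hS
  obtain ⟨k, hk⟩ := Subgroup.card_dvd_of_le hS
  have h1 : Nat.card C * C.index = Nat.card L := Subgroup.card_mul_index C
  have h2 : Nat.card (S : Subgroup L) * (S : Subgroup L).index = Nat.card L :=
    Subgroup.card_mul_index _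
  obtain ⟨n, hn⟩ := IsPGroup.iff_card.mp S.isPGroup'
  have hk2 : k ∣ 2 ^ n := by rw [← hn, hk]; exact Dvd.intro_left _ rfl
  obtain ⟨j, -, hj⟩ := (Nat.dvd_prime_pow Nat.prime_two).mp hk2
  have hCpos : 0 < Nat.card C := Nat.card_pos
  have h4 : C.index = k * (S : Subgroup L).index := by
    have : Nat.card C * C.index = Nat.card C * (k * (S : Subgroup L).index) := by
      rw [h1, ← h2, hk]; ring
    exact Nat.eq_of_mul_eq_mul_left hCpos this
  have hkodd : Odd k := by
    rw [h4] at hodd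
    exact (Nat.odd_mul.mp hodd).1
  have hj0 : j = 0 := by
    by_contra hj0
    rw [hj] at hkodd
    exact (Nat.not_even_iff_odd.mpr hkodd) ((Nat.even_pow).mpr ⟨even_two, hj0⟩)
  rw [hk, hj, hj0, pow_zero, mul_one]


lemma les_uniq {L B : Subgroup G} (hLB : ∀ x, x ∈ L → x ∈ B → x = 1) {a a' b b' : G}
    (ha : a ∈ L) (ha' : a' ∈ L) (hb : b ∈ B) (hb' : b' ∈ B) (h : a * b = a' * b') :
    a = a' ∧ b = b' := by
  have h1 : a'⁻¹ * a = b' * b⁻¹ := by
    have h0 : a'⁻¹ * (a * b) * b⁻¹ = a'⁻¹ * (a' * b') * b⁻¹ := by rw [h]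
    have e1 : a'⁻¹ * (a * b) * b⁻¹ = a'⁻¹ * a := by group
    have e2 : a'⁻¹ * (a' * b') * b⁻¹ = b' * b⁻¹ := by group
    rw [e1, e2] at h0
    exact h0
  have h2 := hLB _ (L.mul_mem (L.inv_mem ha') ha) (by rw [h1]; exact B.mul_mem hb' (B.inv_mem hb))
  have h3 : a = a' := (inv_mul_eq_one.mp h2).symm
  refine ⟨h3, ?_⟩
  subst h3
  exact mul_left_cancel h

lemma les_zpowers_two {a : G} (haa : a * a = 1) (x : G) (hx : x ∈ Subgroup.zpowers a) :
    x = 1 ∨ x = a := by
  obtain ⟨k, rfl⟩ := Subgroup.mem_zpowers_iff.mp hx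
  have h2 : a ^ (2 : ℤ) = 1 := by rw [zpow_two]; exact haa
  rcases Int.even_or_odd' k with ⟨m, rfl | rfl⟩
  · left; rw [zpow_mul, h2, one_zpow]
  · right; rw [zpow_add, zpow_mul, h2, one_zpow, one_mul, zpow_one]

/-- The intersection of a Sylow subgroup with a normal subgroup is a Sylow subgroup of it. -/
lemma les_sylow_inf_normal [Finite G] {p : ℕ} [Fact p.Prime]
    (N : Subgroup G) [N.Normal] (P : Sylow p G) :
    ∃ P' : Sylow p N, (P' : Subgroup N) = (P : Subgroup G).subgroupOf N := by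
  have hp : IsPGroup p ((P : Subgroup G).subgroupOf N) := P.isPGroup'.comap_subtype
  obtain ⟨Q₀, hQ₀⟩ := hp.exists_le_sylow
  have hp1 : IsPGroup p ((Q₀ : Subgroup N).map N.subtype) := Q₀.isPGroup'.map _
  obtain ⟨P₁, hP₁⟩ := hp1.exists_le_sylow
  obtain ⟨g, hg⟩ := MulAction.exists_smul_eq G P₁ P
  refine ⟨Q₀, (Subgroup.eq_of_le_of_card_ge hQ₀ ?_).symm⟩
  have hmem : ∀ x : (Q₀ : Subgroup N), g * ((x : N) : G) * g⁻¹ ∈ N :=
    fun x => (inferInstance : N.Normal).conj_mem _ (x : N).2 g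
  have hmem2 : ∀ x : (Q₀ : Subgroup N),
      (⟨g * ((x : N) : G) * g⁻¹, hmem x⟩ : N) ∈ (P : Subgroup G).subgroupOf N := by
    intro x
    rw [Subgroup.mem_subgroupOf]
    have h1 : ((x : N) : G) ∈ (P₁ : Subgroup G) := hP₁ ⟨x, x.2, rfl⟩
    have h3 := Subgroup.smul_mem_pointwise_smul _ (MulAut.conj g) _ h1
    rw [← Sylow.pointwise_smul_def, ← Sylow.smul_def, hg] at h3
    exact h3
  refine Nat.card_le_card_of_injective
    (fun x => (⟨⟨g * ((x : N) : G) * g⁻¹, hmem x⟩, hmem2 x⟩ : (P : Subgroup G).subgroupOf N)) ?_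
  intro a b hab
  have h1 : g * ((a : N) : G) * g⁻¹ = g * ((b : N) : G) * g⁻¹ :=
    congrArg (fun z : (P : Subgroup G).subgroupOf N => ((z : N) : G)) hab
  have h2 : ((a : N) : G) = ((b : N) : G) := mul_left_cancel (mul_right_cancel h1)
  exact Subtype.ext (Subtype.ext h2)

lemma les_arith (cL cC cD i k m : ℕ) (h1 : cL * cL = cD * m) (h2 : cC * cC = cD * k)
    (h3 : cL = cC * i) (hD : 0 < cD) (hm : Odd m) : Odd i := by
  have h4 : cD * (k * (i * i)) = cD * m := by
    rw [← h1, h3]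
    calc cD * (k * (i * i)) = (cD * k) * (i * i) := by ring
      _ = (cC * cC) * (i * i) := by rw [h2]
      _ = cC * i * (cC * i) := by ring
  have h5 : k * (i * i) = m := Nat.eq_of_mul_eq_mul_left hD h4
  rw [← h5] at hm
  exact (Nat.odd_mul.mp (Nat.odd_mul.mp hm).2).1

end lesgen

end Cfsg.Agent.Lib.helper14
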