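import Mathlib
import Cfsg.Prelude.Def_MonsterType
import Cfsg.Prelude.Def_Local
import Cfsg.Agent.Lib.helper14.LESLemmas

set_option autoImplicit false

namespace Cfsg.Agent.Lib.helper14

open Cfsg

open scoped commutatorElement

set_option maxHeartbeats 1600000 in
theorem les_c4a {G : Type*} [Group G] [Finite G] (Q : Subgroup G) (z : G)
    (hext : Cfsg.IsExtraspecial 2 ↥Q)
    (hzZQ : ZQ Q z)
    (hzz : z * z = 1)
    (hZQ' : ∀ g, ZQ Q g → g = 1 ∨ g = z)
    (hCQ : ∀ g, (∀ q ∈ Q, q * g = g * q) → g = 1 ∨ g = z)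
    (hHQ : ∀ h, h * z = z * h → ∀ q ∈ Q, h * q * h⁻¹ ∈ Q)
    (hCH : ∀ L : Subgroup G, Cfsg.IsComponent L → ¬ (∀ l ∈ L, l * z = z * l))
    (hF : Cfsg.fittingSubgroup G = ⊥)
    (hzE : z ∈ Cfsg.layer G)
    (L L' : Subgroup G) (hL : Cfsg.IsComponent L) (hL' : Cfsg.IsComponent L') (hLL' : L ≠ L') :
    ∃ (u a : G), u ∈ Q ∧ L ≠ srCj u L ∧ Cfsg.layer G = L ⊔ srCj u L ∧ a ∈ L ∧
      z = a * (u * a * u⁻¹) := by
  have hEn : (Cfsg.layer G).Normal := inferInstance
  have hcompE : ∀ K : Subgroup G, Cfsg.IsComponent K → K ≤ Cfsg.layer G := fun K hK =>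
    Cfsg.Agent.Lib.helper7.comp_le_layer hK
  have hZK : ∀ K : Subgroup G, Cfsg.IsComponent K → ∀ x ∈ K, (∀ k ∈ K, k * x = x * k) →
      x = 1 := by
    intro K hK x hx hc
    have h0 := Cfsg.Agent.Lib.helper7.comp_center_bot hF hK
    have h1 : (⟨x, hx⟩ : ↥K) ∈ Subgroup.center ↥K := by
      rw [Subgroup.mem_center_iff]
      intro g
      apply Subtype.ext
      exact hc g.1 g.2
    rw [h0, Subgroup.mem_bot] at h1
    exact congrArg Subtype.val h1
  have hcommK : ∀ K K' : Subgroup G, Cfsg.IsComponent K → Cfsg.IsComponent K' → K ≠ K' →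
      ∀ x ∈ K, ∀ y ∈ K', x * y = y * x := fun K K' hK hK' hne x hx y hy =>
    Cfsg.Agent.Lib.helper7.comp_comm_elem hK hK' hne hx hy
  obtain ⟨B, hBdef⟩ : ∃ B : Subgroup G,
      B = Cfsg.layer G ⊓ Subgroup.centralizer (L : Set G) := ⟨_, rfl⟩
  have hBmem : ∀ x, x ∈ B ↔ x ∈ Cfsg.layer G ∧ ∀ l ∈ L, l * x = x * l := by
    intro x
    rw [hBdef, Subgroup.mem_inf, Subgroup.mem_centralizer_iff]
    constructor <;> rintro ⟨h1, h2⟩ <;> exact ⟨h1, fun l hl => h2 l hl⟩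
  have hcompB : ∀ K : Subgroup G, Cfsg.IsComponent K → K ≠ L → K ≤ B := fun K hK hne x hx =>
    (hBmem x).mpr ⟨hcompE K hK hx, fun l hl => hcommK L K hL hK (Ne.symm hne) l hl x hx⟩
  have hLB : ∀ x, x ∈ L → x ∈ B → x = 1 := fun x hx hxB =>
    hZK L hL x hx ((hBmem x).mp hxB).2
  have hBnL : B ≤ Subgroup.normalizer (L : Set G) := by
    apply Cfsg.Agent.Lib.helper8.le_normalizer_of_conj_mem
    intro b hb x hx
    have h1 := ((hBmem b).mp hb).2 x hx
    have e : b * x * b⁻¹ = x := by rw [← h1]; group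
    rw [e]; exact hx
  have hELB : Cfsg.layer G ≤ L ⊔ B := by
    apply sSup_le
    intro K hK
    by_cases h : K = L
    · rw [h]; exact le_sup_left
    · exact le_trans (hcompB K hK h) le_sup_right
  obtain ⟨a, haL, b, hbB, hzab⟩ :=
    (Cfsg.Agent.Lib.helper8.mem_sup_iff_of_le_normalizer hBnL z).mp (hELB hzE)
  have hab : a * b = b * a := ((hBmem b).mp hbB).2 a haL
  have ha1 : a ≠ 1 := by
    intro h
    apply hCH L hL
    intro l hl
    rw [hzab, h, one_mul]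
    exact ((hBmem b).mp hbB).2 l hl
  have haa : a * a = 1 := by
    have h1 : (a * a) * (b * b) = 1 * 1 := by
      rw [one_mul, ← hzz, hzab]
      calc a * a * (b * b) = a * (a * b) * b := by group
        _ = a * (b * a) * b := by rw [hab]
        _ = a * b * (a * b) := by group
    exact (les_uniq hLB (L.mul_mem haL haL) L.one_mem (B.mul_mem hbB hbB) B.one_mem h1).1
  have hainv : a⁻¹ = a := inv_eq_of_mul_eq_one_left haa
  have hQL : ¬ ∀ q ∈ Q, ∀ l ∈ L, q * l * q⁻¹ ∈ L := by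
    intro hn
    have hQB : ∀ q ∈ Q, ∀ x ∈ B, q * x * q⁻¹ ∈ B := by
      intro q hq x hx
      rw [hBmem] at hx ⊢
      refine ⟨hEn.conj_mem x hx.1 q, fun l hl => ?_⟩
      have h1 := hx.2 (q⁻¹ * l * q) (by
        have := hn q⁻¹ (Q.inv_mem hq) l hl
        rwa [inv_inv] at this)
      calc l * (q * x * q⁻¹) = q * (q⁻¹ * l * q * x) * q⁻¹ := by group
        _ = q * (x * (q⁻¹ * l * q)) * q⁻¹ := by rw [h1]
        _ = q * x * q⁻¹ * l := by group
    have hac : ∀ q ∈ Q, q * a = a * q := by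
      intro q hq
      have h1 : (q * a * q⁻¹) * (q * b * q⁻¹) = a * b := by
        rw [← hzab]
        have hqz : q * z = z * q := hzZQ.2 q hq
        calc q * a * q⁻¹ * (q * b * q⁻¹) = q * (a * b) * q⁻¹ := by group
          _ = q * z * q⁻¹ := by rw [hzab]
          _ = z := by rw [hqz]; group
      have h2 := (les_uniq hLB (hn q hq a haL) haL (hQB q hq b hbB) hbB h1).1
      exact mul_inv_eq_iff_eq_mul.mp h2
    rcases hCQ a hac with h | h
    · exact ha1 h
    · have hL'B : L' ≤ B := hcompB L' hL' (Ne.symm hLL')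
      apply hCH L' hL'
      intro l hl
      rw [← h]
      exact (((hBmem l).mp (hL'B hl)).2 a haL).symm
  push_neg at hQL
  obtain ⟨u, huQ, l₀, hl₀, hl₀'⟩ := hQL
  obtain ⟨L₂, hL₂def⟩ : ∃ L₂ : Subgroup G, L₂ = srCj u L := ⟨_, rfl⟩
  have hL₂ : Cfsg.IsComponent L₂ := by
    rw [hL₂def]; exact Cfsg.Agent.Lib.helper7.comp_map_equiv (MulAut.conj u) hL
  have hne : L ≠ L₂ := by
    intro h
    apply hl₀'
    have h1 : u * l₀ * u⁻¹ ∈ L₂ := by rw [hL₂def]; exact conj_mem_srCj hl₀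
    rw [h]; exact h1
  have hL₂B : L₂ ≤ B := hcompB L₂ hL₂ (Ne.symm hne)
  have hcomm12 : ∀ x ∈ L, ∀ y ∈ L₂, x * y = y * x := hcommK L L₂ hL hL₂ hne
  have hLz : ∀ c ∈ L, c * a = a * c → c * z = z * c := by
    intro c hc hca
    have hcb := ((hBmem b).mp hbB).2 c hc
    rw [hzab]
    calc c * (a * b) = c * a * b := by group
      _ = a * c * b := by rw [hca]
      _ = a * (c * b) := by group
      _ = a * (b * c) := by rw [hcb]
      _ = a * b * c := by group
  have hyc : ∀ c ∈ L, c * a = a * c → c * (u * c⁻¹ * u⁻¹) ∈ Q := by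
    intro c hc hca
    have h1 := hHQ c (hLz c hc hca) u huQ
    have h2 := Q.mul_mem h1 (Q.inv_mem huQ)
    have e : c * u * c⁻¹ * u⁻¹ = c * (u * c⁻¹ * u⁻¹) := by group
    rwa [e] at h2
  have hsim := Cfsg.Agent.Lib.helper7.comp_simple hL
    (Cfsg.Agent.Lib.helper7.comp_center_bot hF hL)
  have hINV : (∀ c ∈ L, c * a = a * c → c = 1 ∨ c = a) → False := by
    intro h
    haveI := hsim.1
    apply les_inv hsim.2 (⟨a, haL⟩ : ↥L)
    · intro h1; exact ha1 (congrArg Subtype.val h1)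
    · intro c hc
      rcases h c.1 c.2 (congrArg Subtype.val hc) with h1 | h1
      · left; exact Subtype.ext h1
      · right; exact Subtype.ext h1
  have horb : ∀ q ∈ Q, srCj q L = L ∨ srCj q L = L₂ := by
    intro q hq
    by_contra hcon
    push_neg at hcon
    obtain ⟨hq1, hq2⟩ := hcon
    have hK1 : Cfsg.IsComponent (srCj q⁻¹ L) :=
      Cfsg.Agent.Lib.helper7.comp_map_equiv (MulAut.conj q⁻¹) hL
    have hK2 : Cfsg.IsComponent (srCj q⁻¹ L₂) :=
      Cfsg.Agent.Lib.helper7.comp_map_equiv (MulAut.conj q⁻¹) hL₂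
    have hK1ne : srCj q⁻¹ L ≠ L := by
      intro h
      apply hq1
      have h1 := congrArg (srCj q) h
      rw [srCj_cancel_inv] at h1
      exact h1.symm
    have hK2ne : srCj q⁻¹ L₂ ≠ L := by
      intro h
      apply hq2
      have h1 := congrArg (srCj q) h
      rw [srCj_cancel_inv] at h1
      exact h1.symm
    apply hINV
    intro c hc hca
    have hy := hyc c hc hca
    obtain ⟨c₂, hc₂def⟩ : ∃ c₂ : G, c₂ = u * c⁻¹ * u⁻¹ := ⟨_, rfl⟩
    rw [← hc₂def] at hy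
    have hc₂L₂ : c₂ ∈ L₂ := by rw [hL₂def, hc₂def]; exact conj_mem_srCj (L.inv_mem hc)
    have hcomm := hZQ' _ (zq_comm Q hext (Q.inv_mem hq) hy)
    have hc1 : q⁻¹ * c * q ∈ B := hcompB _ hK1 hK1ne (by
      have h1 := conj_mem_srCj (x := q⁻¹) hc
      rwa [inv_inv] at h1)
    have hc2 : q⁻¹ * c₂ * q ∈ B := hcompB _ hK2 hK2ne (by
      have h1 := conj_mem_srCj (x := q⁻¹) hc₂L₂
      rwa [inv_inv] at h1)
    have hc3 : c₂ ∈ B := hL₂B hc₂L₂
    obtain ⟨b', hb'B, hb'⟩ : ∃ b' ∈ B, ⁅q⁻¹, c * c₂⁆ = c⁻¹ * b' := by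
      have hbB' : (q⁻¹ * c * q) * (q⁻¹ * c₂ * q) * c₂⁻¹ ∈ B :=
        B.mul_mem (B.mul_mem hc1 hc2) (B.inv_mem hc3)
      refine ⟨(q⁻¹ * c * q) * (q⁻¹ * c₂ * q) * c₂⁻¹, hbB', ?_⟩
      have hcb := ((hBmem _).mp hbB').2 c⁻¹ (L.inv_mem hc)
      rw [hcb, commutatorElement_def]
      group
    rcases hcomm with h | h
    · left
      rw [hb'] at h
      have h1 := (les_uniq hLB (L.inv_mem hc) L.one_mem hb'B B.one_mem (by rw [h, one_mul])).1
      exact inv_eq_one.mp h1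
    · right
      rw [hb', hzab] at h
      have h1 := (les_uniq hLB (L.inv_mem hc) haL hb'B hbB h).1
      calc c = c⁻¹⁻¹ := (inv_inv c).symm
        _ = a⁻¹ := by rw [h1]
        _ = a := hainv
  have hconjL : ∀ q ∈ Q, ∀ k ∈ L, q * k * q⁻¹ ∈ L ⊔ L₂ := by
    intro q hq k hk
    have h1 := conj_mem_srCj (x := q) hk
    rcases horb q hq with h | h
    · rw [h] at h1; exact Subgroup.mem_sup_left h1
    · rw [h] at h1; exact Subgroup.mem_sup_right h1
  have hconjL₂ : ∀ q ∈ Q, ∀ k ∈ L₂, q * k * q⁻¹ ∈ L ⊔ L₂ := by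
    intro q hq k hk
    have h1 := conj_mem_srCj (x := q) hk
    rw [hL₂def, srCj_mul] at h1
    rcases horb (q * u) (Q.mul_mem hq huQ) with h | h
    · rw [h] at h1; exact Subgroup.mem_sup_left h1
    · rw [h] at h1; exact Subgroup.mem_sup_right h1
  have hconjA : ∀ q ∈ Q, ∀ k ∈ L ⊔ L₂, q * k * q⁻¹ ∈ L ⊔ L₂ := by
    intro q hq k hk
    have h1 := sr_conj_sup_mem (t := q) (K₁ := L) (K₂ := L₂) (K₁' := L ⊔ L₂) (K₂' := L ⊔ L₂)
      (hconjL q hq) (hconjL₂ q hq) k hk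
    rwa [sup_idem] at h1
  obtain ⟨B₂, hB₂def⟩ : ∃ B₂ : Subgroup G,
      B₂ = B ⊓ Subgroup.centralizer (L₂ : Set G) := ⟨_, rfl⟩
  have hB₂mem : ∀ x, x ∈ B₂ ↔ x ∈ B ∧ ∀ l ∈ L₂, l * x = x * l := by
    intro x
    rw [hB₂def, Subgroup.mem_inf, Subgroup.mem_centralizer_iff]
    constructor <;> rintro ⟨h1, h2⟩ <;> exact ⟨h1, fun l hl => h2 l hl⟩
  have hB₂c : ∀ x ∈ B₂, ∀ l ∈ L ⊔ L₂, l * x = x * l := by
    intro x hx l hl
    have hx1 := ((hBmem x).mp ((hB₂mem x).mp hx).1).2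
    have hx2 := ((hB₂mem x).mp hx).2
    have hle : L ⊔ L₂ ≤ Subgroup.centralizer ({x} : Set G) := by
      apply sup_le
      · intro l hl
        rw [Subgroup.mem_centralizer_iff]
        intro y hy
        rw [Set.mem_singleton_iff.mp hy]
        exact (hx1 l hl).symm
      · intro l hl
        rw [Subgroup.mem_centralizer_iff]
        intro y hy
        rw [Set.mem_singleton_iff.mp hy]
        exact (hx2 l hl).symm
    exact (Subgroup.mem_centralizer_iff.mp (hle hl) x (Set.mem_singleton x)).symm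
  have hQB₂ : ∀ q ∈ Q, ∀ x ∈ B₂, q * x * q⁻¹ ∈ B₂ := by
    intro q hq x hx
    have hxB := ((hB₂mem x).mp hx).1
    have key : ∀ l ∈ L ⊔ L₂, l * (q * x * q⁻¹) = q * x * q⁻¹ * l := by
      intro l hl
      have h0 : q⁻¹ * l * q ∈ L ⊔ L₂ := by
        have h1 := hconjA q⁻¹ (Q.inv_mem hq) l hl
        rwa [inv_inv] at h1
      have h1 := hB₂c x hx _ h0
      calc l * (q * x * q⁻¹) = q * (q⁻¹ * l * q * x) * q⁻¹ := by group
        _ = q * (x * (q⁻¹ * l * q)) * q⁻¹ := by rw [h1]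
        _ = q * x * q⁻¹ * l := by group
    rw [hB₂mem, hBmem]
    exact ⟨⟨hEn.conj_mem x ((hBmem x).mp hxB).1 q,
      fun l hl => key l (Subgroup.mem_sup_left hl)⟩,
      fun l hl => key l (Subgroup.mem_sup_right hl)⟩
  have hL₂nL : L₂ ≤ Subgroup.normalizer (L : Set G) := le_trans hL₂B hBnL
  have hAB₂ : ∀ x, x ∈ L ⊔ L₂ → x ∈ B₂ → x = 1 := by
    intro x hxA hxB₂
    obtain ⟨l, hl, l₂, hl₂, rfl⟩ :=
      (Cfsg.Agent.Lib.helper8.mem_sup_iff_of_le_normalizer hL₂nL x).mp hxA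
    have hx1 := ((hBmem _).mp ((hB₂mem _).mp hxB₂).1).2
    have hx2 := ((hB₂mem _).mp hxB₂).2
    have hl1 : l = 1 := by
      apply hZK L hL l hl
      intro k hk
      have h1 := hx1 k hk
      have h2 := hcomm12 k hk l₂ hl₂
      have h3 : k * l * l₂ = l * k * l₂ := by
        calc k * l * l₂ = k * (l * l₂) := by group
          _ = l * l₂ * k := h1
          _ = l * (l₂ * k) := by group
          _ = l * (k * l₂) := by rw [h2]
          _ = l * k * l₂ := by group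
      exact mul_right_cancel h3
    have hl2 : l₂ = 1 := by
      apply hZK L₂ hL₂ l₂ hl₂
      intro k hk
      have h1 := hx2 k hk
      rw [hl1, one_mul] at h1
      exact h1
    rw [hl1, hl2, one_mul]
  have hcompB₂ : ∀ K : Subgroup G, Cfsg.IsComponent K → K ≠ L → K ≠ L₂ → K ≤ B₂ := by
    intro K hK h1 h2 x hx
    rw [hB₂mem]
    exact ⟨hcompB K hK h1 hx, fun l hl => hcommK L₂ K hL₂ hK (Ne.symm h2) l hl x hx⟩
  have hB₂nA : B₂ ≤ Subgroup.normalizer ((L ⊔ L₂ : Subgroup G) : Set G) := by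
    apply Cfsg.Agent.Lib.helper8.le_normalizer_of_conj_mem
    intro y hy x hx
    have h1 := hB₂c y hy x hx
    have e : y * x * y⁻¹ = x := by rw [← h1]; group
    rw [e]; exact hx
  have hEAB₂ : Cfsg.layer G ≤ (L ⊔ L₂) ⊔ B₂ := by
    apply sSup_le
    intro K hK
    by_cases h1 : K = L
    · rw [h1]; exact le_trans le_sup_left le_sup_left
    · by_cases h2 : K = L₂
      · rw [h2]; exact le_trans le_sup_right le_sup_left
      · exact le_trans (hcompB₂ K hK h1 h2) le_sup_right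
  obtain ⟨x, hxA, y, hyB₂, hzxy⟩ :=
    (Cfsg.Agent.Lib.helper8.mem_sup_iff_of_le_normalizer hB₂nA z).mp (hEAB₂ hzE)
  have hxc : ∀ q ∈ Q, q * x = x * q := by
    intro q hq
    have h1 : (q * x * q⁻¹) * (q * y * q⁻¹) = x * y := by
      rw [← hzxy]
      have hqz : q * z = z * q := hzZQ.2 q hq
      calc q * x * q⁻¹ * (q * y * q⁻¹) = q * (x * y) * q⁻¹ := by group
        _ = q * z * q⁻¹ := by rw [hzxy]
        _ = z := by rw [hqz]; group
    have h2 := (les_uniq hAB₂ (hconjA q hq x hxA) hxA (hQB₂ q hq y hyB₂) hyB₂ h1).1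
    exact mul_inv_eq_iff_eq_mul.mp h2
  have hxz : x = z := by
    rcases hCQ x hxc with h | h
    · exfalso
      apply hCH L hL
      intro l hl
      rw [hzxy, h, one_mul]
      exact ((hBmem y).mp ((hB₂mem y).mp hyB₂).1).2 l hl
    · exact h
  have hzA : z ∈ L ⊔ L₂ := by rw [← hxz]; exact hxA
  have hcomps : ∀ K : Subgroup G, Cfsg.IsComponent K → K = L ∨ K = L₂ := by
    intro K hK
    by_contra hcon
    push_neg at hcon
    apply hCH K hK
    intro k hk
    have hkB₂ := hcompB₂ K hK hcon.1 hcon.2 hk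
    exact (hB₂c k hkB₂ z hzA).symm
  have hEeq : Cfsg.layer G = L ⊔ L₂ := by
    apply le_antisymm
    · apply sSup_le
      intro K hK
      rcases hcomps K hK with h | h
      · rw [h]; exact le_sup_left
      · rw [h]; exact le_sup_right
    · exact sup_le (hcompE L hL) (hcompE L₂ hL₂)
  obtain ⟨l, hl, l₂, hl₂, hzl⟩ :=
    (Cfsg.Agent.Lib.helper8.mem_sup_iff_of_le_normalizer hL₂nL z).mp hzA
  have hu1 := les_uniq hLB haL hl hbB (hL₂B hl₂) (hzab.symm.trans hzl)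
  have hbL₂ : b ∈ L₂ := by rw [hu1.2]; exact hl₂
  have hsw : srCj u L₂ = L := by
    have h1 : srCj u L₂ = srCj (u * u) L := by rw [hL₂def, srCj_mul]
    rcases horb (u * u) (Q.mul_mem huQ huQ) with h | h
    · rw [h1, h]
    · exfalso
      apply hne
      have h2 : srCj u L₂ = srCj u L := by rw [h1, h, hL₂def]
      have h3 := congrArg (srCj u⁻¹) h2
      rw [srCj_inv_cancel, srCj_inv_cancel] at h3
      exact h3.symm
  have hbeq : b = u * a * u⁻¹ := by
    have h1 : (u * b * u⁻¹) * (u * a * u⁻¹) = a * b := by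
      rw [← hzab]
      have hzu : u * z = z * u := hzZQ.2 u huQ
      have hba : b * a = a * b := hab.symm
      calc u * b * u⁻¹ * (u * a * u⁻¹) = u * (b * a) * u⁻¹ := by group
        _ = u * z * u⁻¹ := by rw [hba, hzab]
        _ = z := by rw [hzu]; group
    have hubL : u * b * u⁻¹ ∈ L := by
      have h2 := conj_mem_srCj (x := u) hbL₂
      rwa [hsw] at h2
    have huaB : u * a * u⁻¹ ∈ B := hL₂B (by rw [hL₂def]; exact conj_mem_srCj haL)
    exact ((les_uniq hLB hubL haL huaB hbB h1).2).symm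
  refine ⟨u, a, huQ, ?_, ?_, haL, ?_⟩
  · rw [← hL₂def]; exact hne
  · rw [← hL₂def]; exact hEeq
  · rw [← hbeq]; exact hzab

end Cfsg.Agent.Lib.helper14
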