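import Mathlib
import Cfsg.Prelude.Def_MonsterType
import Cfsg.Prelude.Def_Local
import Cfsg.Agent.Lib.helper14.LESLemmas

set_option autoImplicit false

namespace Cfsg.Agent.Lib.helper14

open Cfsg

open scoped commutatorElement

set_option maxHeartbeats 1600000 in
theorem les_c4b {G : Type*} [Group G] [Finite G] (Q : Subgroup G) (z : G)
    (hext : Cfsg.IsExtraspecial 2 ↥Q)
    (hzZQ : ZQ Q z) (hz1 : z ≠ 1) (hzz : z * z = 1)
    (hZQ' : ∀ g, ZQ Q g → g = 1 ∨ g = z)
    (hCQ : ∀ g, (∀ q ∈ Q, q * g = g * q) → g = 1 ∨ g = z)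
    (hHQ : ∀ h, h * z = z * h → ∀ q ∈ Q, h * q * h⁻¹ ∈ Q)
    (hF : Cfsg.fittingSubgroup G = ⊥)
    (L : Subgroup G) (u a : G) (hL : Cfsg.IsComponent L) (huQ : u ∈ Q) (hne : L ≠ srCj u L)
    (hEeq : Cfsg.layer G = L ⊔ srCj u L) (haL : a ∈ L) (hza : z = a * (u * a * u⁻¹)) :
    (∃ R : Sylow 2 ↥L, (R : Subgroup ↥L) = (Subgroup.centralizer ({a} : Set G)).subgroupOf L ∧
      (frattini ↥(R : Subgroup ↥L)).map ((L.subtype).comp (R : Subgroup ↥L).subtype)
        ≤ Subgroup.zpowers a) ∧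
    Q ≠ (Cfsg.pCore 2 ↥(Subgroup.centralizer ({z} : Set G))).map
      (Subgroup.centralizer ({z} : Set G)).subtype := by
  have hfact : Fact (Nat.Prime 2) := ⟨Nat.prime_two⟩
  have hQ2 : IsPGroup 2 ↥Q := hext.1.1
  have hEn : (Cfsg.layer G).Normal := inferInstance
  obtain ⟨L₂, hL₂def⟩ : ∃ L₂ : Subgroup G, L₂ = srCj u L := ⟨_, rfl⟩
  rw [← hL₂def] at hne hEeq
  have hL₂ : Cfsg.IsComponent L₂ := by
    rw [hL₂def]; exact Cfsg.Agent.Lib.helper7.comp_map_equiv (MulAut.conj u) hL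
  obtain ⟨b, hbdef⟩ : ∃ b : G, b = u * a * u⁻¹ := ⟨_, rfl⟩
  rw [← hbdef] at hza
  have hbL₂ : b ∈ L₂ := by rw [hL₂def, hbdef]; exact conj_mem_srCj haL
  have hcomm12 : ∀ x ∈ L, ∀ y ∈ L₂, x * y = y * x := fun x hx y hy =>
    Cfsg.Agent.Lib.helper7.comp_comm_elem hL hL₂ hne hx hy
  have hinf12 : ∀ x, x ∈ L → x ∈ L₂ → x = 1 := fun x hx hx2 =>
    Cfsg.Agent.Lib.helper7.comp_inf_eq_one hL hL₂ hne
      (Cfsg.Agent.Lib.helper7.comp_center_bot hF hL) hx hx2
  have hab : a * b = b * a := hcomm12 a haL b hbL₂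
  have ha1 : a ≠ 1 := by
    intro h
    apply hz1
    rw [hza, hbdef, h]; group
  have haa : a * a = 1 := by
    have h1 : (a * a) * (b * b) = 1 * 1 := by
      rw [one_mul, ← hzz, hza]
      calc a * a * (b * b) = a * (a * b) * b := by group
        _ = a * (b * a) * b := by rw [hab]
        _ = a * b * (a * b) := by group
    exact (les_uniq hinf12 (L.mul_mem haL haL) L.one_mem (L₂.mul_mem hbL₂ hbL₂) L₂.one_mem h1).1
  have hainv : a⁻¹ = a := inv_eq_of_mul_eq_one_left haa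
  have hLz : ∀ c ∈ L, c * a = a * c → c * z = z * c := by
    intro c hc hca
    have hcb := hcomm12 c hc b hbL₂
    rw [hza]
    calc c * (a * b) = c * a * b := by group
      _ = a * c * b := by rw [hca]
      _ = a * (c * b) := by group
      _ = a * (b * c) := by rw [hcb]
      _ = a * b * c := by group
  have hyc : ∀ c ∈ L, c * a = a * c → c * (u * c⁻¹ * u⁻¹) ∈ Q := by
    intro c hc hca
    have h1 := hHQ c (hLz c hc hca) u huQ
    have h2 := Q.mul_mem h1 (Q.inv_mem huQ)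
    have e : c * u * c⁻¹ * u⁻¹ = c * (u * c⁻¹ * u⁻¹) := by group
    rwa [e] at h2
  have hcj : ∀ c ∈ L, u * c * u⁻¹ ∈ L₂ := fun c hc => by
    rw [hL₂def]; exact conj_mem_srCj hc
  have hsim := Cfsg.Agent.Lib.helper7.comp_simple hL
    (Cfsg.Agent.Lib.helper7.comp_center_bot hF hL)
  have hINV : (∀ c ∈ L, c * a = a * c → c = 1 ∨ c = a) → False := by
    intro h
    haveI := hsim.1
    apply les_inv hsim.2 (⟨a, haL⟩ : ↥L)
    · intro h1; exact ha1 (congrArg Subtype.val h1)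
    · intro c hc
      rcases h c.1 c.2 (congrArg Subtype.val hc) with h1 | h1
      · left; exact Subtype.ext h1
      · right; exact Subtype.ext h1
  have hsq : ∀ c ∈ L, c * a = a * c → c * c = 1 ∨ c * c = a := by
    intro c hc hca
    have hy := hyc c hc hca
    have hc2 := hcj c⁻¹ (L.inv_mem hc)
    obtain ⟨c₂, hc₂def⟩ : ∃ c₂ : G, c₂ = u * c⁻¹ * u⁻¹ := ⟨_, rfl⟩
    rw [← hc₂def] at hy hc2
    have h1 := hZQ' _ (zq_sq Q hext hy)
    have hcc := hcomm12 c hc c₂ hc2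
    have e : (c * c₂) ^ 2 = (c * c) * (c₂ * c₂) := by
      rw [pow_two]
      calc c * c₂ * (c * c₂) = c * (c₂ * c) * c₂ := by group
        _ = c * (c * c₂) * c₂ := by rw [← hcc]
        _ = c * c * (c₂ * c₂) := by group
    rw [e] at h1
    rcases h1 with h | h
    · left
      exact (les_uniq hinf12 (L.mul_mem hc hc) L.one_mem (L₂.mul_mem hc2 hc2) L₂.one_mem
        (by rw [h, one_mul])).1
    · right
      rw [hza] at h
      exact (les_uniq hinf12 (L.mul_mem hc hc) haL (L₂.mul_mem hc2 hc2) hbL₂ h).1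
  have hpow4 : ∀ c ∈ L, c * a = a * c → c ^ 4 = 1 := by
    intro c hc hca
    have e : c ^ 4 = (c * c) * (c * c) := by
      rw [show (4 : ℕ) = 2 + 2 from rfl, pow_add, pow_two]
    rw [e]
    rcases hsq c hc hca with h | h
    · rw [h, one_mul]
    · rw [h, haa]
  -- transfer to `L₂`
  have hback : ∀ d ∈ L₂, d * b = b * d → u⁻¹ * d * u ∈ L ∧ (u⁻¹ * d * u) * a = a * (u⁻¹ * d * u) := by
    intro d hd hdb
    refine ⟨?_, ?_⟩
    · have h1 := hd
      rw [hL₂def, mem_srCj] at h1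
      exact h1
    · rw [hbdef] at hdb
      calc u⁻¹ * d * u * a = u⁻¹ * (d * (u * a * u⁻¹)) * u := by group
        _ = u⁻¹ * (u * a * u⁻¹ * d) * u := by rw [hdb]
        _ = a * (u⁻¹ * d * u) := by group
  have hpow4' : ∀ d ∈ L₂, d * b = b * d → d ^ 4 = 1 := by
    intro d hd hdb
    obtain ⟨h1, h2⟩ := hback d hd hdb
    have h3 := hpow4 _ h1 h2
    have e : d = u * (u⁻¹ * d * u) * u⁻¹ := by group
    rw [e, conj_pow, h3]; group
  have hL₂nL : L₂ ≤ Subgroup.normalizer (L : Set G) := by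
    apply Cfsg.Agent.Lib.helper8.le_normalizer_of_conj_mem
    intro y hy x hx
    have h1 := hcomm12 x hx y hy
    have e : y * x * y⁻¹ = x := by rw [← h1]; group
    rw [e]; exact hx
  have hdec : ∀ x, x ∈ Cfsg.layer G → x * z = z * x →
      ∃ l ∈ L, ∃ l₂ ∈ L₂, x = l * l₂ ∧ l * a = a * l ∧ l₂ * b = b * l₂ := by
    intro x hxE hxz
    rw [hEeq] at hxE
    obtain ⟨l, hl, l₂, hl₂, rfl⟩ :=
      (Cfsg.Agent.Lib.helper8.mem_sup_iff_of_le_normalizer hL₂nL x).mp hxE
    have h1 : (l * a) * (l₂ * b) = (a * l) * (b * l₂) := by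
      have e1 : l * l₂ * (a * b) = (l * a) * (l₂ * b) := by
        calc l * l₂ * (a * b) = l * (l₂ * a) * b := by group
          _ = l * (a * l₂) * b := by rw [hcomm12 a haL l₂ hl₂]
          _ = l * a * (l₂ * b) := by group
      have e2 : a * b * (l * l₂) = (a * l) * (b * l₂) := by
        calc a * b * (l * l₂) = a * (b * l) * l₂ := by group
          _ = a * (l * b) * l₂ := by rw [hcomm12 l hl b hbL₂]
          _ = a * l * (b * l₂) := by group
      rw [← e1, ← e2, ← hza]; exact hxz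
    have h2 := les_uniq hinf12 (L.mul_mem hl haL) (L.mul_mem haL hl) (L₂.mul_mem hl₂ hbL₂)
      (L₂.mul_mem hbL₂ hl₂) h1
    exact ⟨l, hl, l₂, hl₂, rfl, h2.1, h2.2⟩
  obtain ⟨H, hHdef⟩ : ∃ H : Subgroup G, H = Subgroup.centralizer ({z} : Set G) := ⟨_, rfl⟩
  have hHmem : ∀ g, g ∈ H ↔ g * z = z * g := fun g => by
    rw [hHdef, Subgroup.mem_centralizer_iff]
    constructor
    · intro h; exact (h z rfl).symm
    · intro h y hy
      rw [Set.mem_singleton_iff.mp hy]; exact h.symm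
  obtain ⟨CL, hCLdef⟩ : ∃ CL : Subgroup ↥L,
      CL = (Subgroup.centralizer ({a} : Set G)).subgroupOf L := ⟨_, rfl⟩
  have hCLmem : ∀ c : ↥L, c ∈ CL ↔ (c : G) * a = a * (c : G) := by
    intro c
    rw [hCLdef, Subgroup.mem_subgroupOf, Subgroup.mem_centralizer_iff]
    constructor
    · intro h; exact (h a rfl).symm
    · intro h y hy; rw [Set.mem_singleton_iff.mp hy]; exact h.symm
  have hCL2 : IsPGroup 2 ↥CL := by
    intro g
    refine ⟨2, ?_⟩
    have hg := (hCLmem g.1).mp g.2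
    have h4 := hpow4 g.1.1 g.1.2 hg
    apply Subtype.ext
    apply Subtype.ext
    simpa using h4
  have hoddCL : Odd CL.index := by
    obtain ⟨T₀, hT₀⟩ := hQ2.exists_le_sylow
    have hT₀z : ∀ t ∈ (T₀ : Subgroup G), t * z = z * t := by
      have hne0 : (T₀ : Subgroup G) ≠ ⊥ := by
        intro h
        have h1 := hT₀ hzZQ.1
        rw [h, Subgroup.mem_bot] at h1
        exact hz1 h1
      obtain ⟨d, hd, hd1, hdc⟩ := les_meet (T₀ : Subgroup G) (T₀ : Subgroup G) T₀.isPGroup'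
        le_rfl hne0 (fun x hx d hd => (T₀ : Subgroup G).mul_mem
          ((T₀ : Subgroup G).mul_mem hx hd) ((T₀ : Subgroup G).inv_mem hx))
      have hdz : d = z := (hCQ d (fun q hq => hdc q (hT₀ hq))).resolve_left hd1
      intro t ht
      rw [← hdz]; exact hdc t ht
    have hT₀H : (T₀ : Subgroup G) ≤ H := fun t ht => (hHmem t).mpr (hT₀z t ht)
    obtain ⟨P', hP'⟩ := les_sylow_inf_normal (Cfsg.layer G) T₀
    have h2 : ¬ 2 ∣ (P' : Subgroup ↥(Cfsg.layer G)).index := P'.not_dvd_index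
    have hle : (P' : Subgroup ↥(Cfsg.layer G)) ≤ H.subgroupOf (Cfsg.layer G) := by
      rw [hP']
      intro x hx
      rw [Subgroup.mem_subgroupOf] at hx ⊢
      exact hT₀H hx
    have h3 : ¬ 2 ∣ (H.subgroupOf (Cfsg.layer G)).index := fun h =>
      h2 (dvd_trans h (Subgroup.index_dvd_of_le hle))
    have hm : Odd (H.subgroupOf (Cfsg.layer G)).index :=
      Nat.not_even_iff_odd.mp (fun h => h3 (even_iff_two_dvd.mp h))
    -- cardinalities
    have hcE : Nat.card ↥(H ⊓ Cfsg.layer G) * (H.subgroupOf (Cfsg.layer G)).index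
        = Nat.card ↥(Cfsg.layer G) := by
      rw [← Subgroup.subgroupOf_map_subtype,
        Subgroup.card_map_of_injective (Subgroup.subtype_injective _)]
      exact Subgroup.card_mul_index _
    have hcLL : Nat.card ↥(Cfsg.layer G) = Nat.card ↥L * Nat.card ↥L := by
      have h4 := sr_card_sup L L₂ (fun x hx y hy => by
        have h5 := hcomm12 x hx y hy
        have e : x * y * x⁻¹ = y := by rw [h5]; group
        rw [e]; exact hy)
      have h5 : L ⊓ L₂ = ⊥ := by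
        rw [eq_bot_iff]
        intro x hx
        rw [Subgroup.mem_bot]
        exact hinf12 x hx.1 hx.2
      rw [h5, Subgroup.card_bot, mul_one, hL₂def, card_srCj, ← hL₂def, ← hEeq] at h4
      exact h4
    obtain ⟨C₁, hC₁def⟩ : ∃ C₁ : Subgroup G,
        C₁ = Subgroup.centralizer ({a} : Set G) ⊓ L := ⟨_, rfl⟩
    have hC₁mem : ∀ x, x ∈ C₁ ↔ x ∈ L ∧ x * a = a * x := by
      intro x
      rw [hC₁def, Subgroup.mem_inf, Subgroup.mem_centralizer_iff]
      constructor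
      · rintro ⟨h4, h5⟩; exact ⟨h5, (h4 a rfl).symm⟩
      · rintro ⟨h4, h5⟩
        refine ⟨fun y hy => ?_, h4⟩
        rw [Set.mem_singleton_iff.mp hy]; exact h5.symm
    obtain ⟨C₂, hC₂def⟩ : ∃ C₂ : Subgroup G, C₂ = srCj u C₁ := ⟨_, rfl⟩
    have hC₂L₂ : C₂ ≤ L₂ := by
      rw [hC₂def, hL₂def]
      exact srCj_mono (fun x hx => ((hC₁mem x).mp hx).1)
    have hDle : H ⊓ Cfsg.layer G ≤ C₁ ⊔ C₂ := by
      intro x hx
      obtain ⟨l, hl, l₂, hl₂, rfl, h4, h5⟩ := hdec x hx.2 ((hHmem x).mp hx.1)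
      apply Subgroup.mul_mem_sup
      · exact (hC₁mem l).mpr ⟨hl, h4⟩
      · rw [hC₂def, mem_srCj, hC₁mem]
        exact hback l₂ hl₂ h5
    have hcCC : Nat.card ↥(C₁ ⊔ C₂) ∣ Nat.card ↥C₁ * Nat.card ↥C₁ := by
      have h4 := sr_card_sup C₁ C₂ (fun x hx y hy => by
        have h5 := hcomm12 x ((hC₁mem x).mp hx).1 y (hC₂L₂ hy)
        have e : x * y * x⁻¹ = y := by rw [h5]; group
        rw [e]; exact hy)
      have h6 : Nat.card ↥C₂ = Nat.card ↥C₁ := by rw [hC₂def]; exact card_srCj u C₁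
      rw [h6] at h4
      exact Dvd.intro _ h4
    obtain ⟨k, hk⟩ := dvd_trans (Subgroup.card_dvd_of_le hDle) hcCC
    have hcCL : Nat.card ↥CL = Nat.card ↥C₁ := by
      rw [hC₁def, ← Subgroup.subgroupOf_map_subtype,
        Subgroup.card_map_of_injective (Subgroup.subtype_injective _), hCLdef]
    have hcL : Nat.card ↥L = Nat.card ↥C₁ * CL.index := by
      rw [← hcCL]; exact (Subgroup.card_mul_index CL).symm
    exact les_arith (Nat.card ↥L) (Nat.card ↥C₁) (Nat.card ↥(H ⊓ Cfsg.layer G)) CL.index k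
      (H.subgroupOf (Cfsg.layer G)).index (by rw [← hcLL]; exact hcE.symm) hk hcL
      Nat.card_pos hm
  obtain ⟨S, hS⟩ := les_sylow_of_odd_index CL hCL2 hoddCL
  have hfr : (frattini ↥(S : Subgroup ↥L)).map ((L.subtype).comp (S : Subgroup ↥L).subtype)
      ≤ Subgroup.zpowers a := by
    have hSmem : ∀ x : ↥(S : Subgroup ↥L), ((x : ↥L) : G) * a = a * ((x : ↥L) : G) := by
      intro x
      have h1 : (x : ↥L) ∈ CL := by rw [← hS]; exact x.2
      exact (hCLmem _).mp h1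
    have hza1 : ∀ g : G, g = 1 ∨ g = a → g ∈ Subgroup.zpowers a := by
      rintro g (h | h)
      · rw [h]; exact Subgroup.one_mem _
      · rw [h]; exact Subgroup.mem_zpowers a
    have hsqz : ∀ x : ↥(S : Subgroup ↥L),
        ((x : ↥L) : G) * ((x : ↥L) : G) ∈ Subgroup.zpowers a :=
      fun x => hza1 _ (hsq _ (x : ↥L).2 (hSmem x))
    obtain ⟨N, hNdef⟩ : ∃ N : Subgroup ↥(S : Subgroup ↥L),
        N = (Subgroup.zpowers a).comap ((L.subtype).comp (S : Subgroup ↥L).subtype) := ⟨_, rfl⟩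
    have hNmem : ∀ x : ↥(S : Subgroup ↥L), x ∈ N ↔ ((x : ↥L) : G) ∈ Subgroup.zpowers a := by
      intro x
      rw [hNdef, Subgroup.mem_comap]
      rfl
    have hNn : N.Normal := by
      constructor
      intro n hn g
      rw [hNmem] at hn ⊢
      have e : (((g * n * g⁻¹ : ↥(S : Subgroup ↥L)) : ↥L) : G)
          = ((g : ↥L) : G) * ((n : ↥L) : G) * ((g : ↥L) : G)⁻¹ := rfl
      rw [e]
      rcases les_zpowers_two haa _ hn with h | h
      · rw [h, mul_one, mul_inv_cancel]; exact Subgroup.one_mem _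
      · rw [h, hSmem g, mul_assoc, mul_inv_cancel, mul_one]; exact Subgroup.mem_zpowers a
    have hcomm : commutator ↥(S : Subgroup ↥L) ≤ N := by
      rw [commutator_def, Subgroup.commutator_le]
      intro x _ y _
      rw [hNmem]
      have e : (((⁅x, y⁆ : ↥(S : Subgroup ↥L)) : ↥L) : G)
          = (x.1.1 * y.1.1 * (x.1.1 * y.1.1)) * (y.1.1⁻¹ * (x.1.1 * x.1.1)⁻¹ * y.1.1)
            * (y.1.1 * y.1.1)⁻¹ := by
        rw [commutatorElement_def]
        show x.1.1 * y.1.1 * x.1.1⁻¹ * y.1.1⁻¹ = _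
        group
      rw [e]
      apply Subgroup.mul_mem
      · apply Subgroup.mul_mem
        · exact hsqz (x * y)
        · rcases hsq _ x.1.2 (hSmem x) with h | h
          · rw [h, inv_one, mul_one, inv_mul_cancel]; exact Subgroup.one_mem _
          · rw [h]
            have hy := hSmem y
            have e2 : y.1.1⁻¹ * a⁻¹ * y.1.1 = a := by
              rw [hainv, mul_assoc, ← hy, ← mul_assoc, inv_mul_cancel, one_mul]
            rw [e2]; exact Subgroup.mem_zpowers a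
      · exact Subgroup.inv_mem _ (hsqz y)
    have hpow : ∀ x : ↥(S : Subgroup ↥L), x ^ 2 ∈ N := by
      intro x
      rw [hNmem]
      have e : (((x ^ 2 : ↥(S : Subgroup ↥L)) : ↥L) : G) = x.1.1 * x.1.1 := by
        rw [pow_two]; rfl
      rw [e]; exact hsqz x
    haveI := hNn
    have h := frattini_le_of_elementary_quotient' 2 N hcomm hpow
    rw [Subgroup.map_le_iff_le_comap, ← hNdef]
    exact h
  refine ⟨⟨S, by rw [hS, hCLdef], hfr⟩, ?_⟩
  intro hQeq
  rw [← hHdef] at hQeq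
  have hDn : ((Cfsg.layer G).subgroupOf H).Normal := hEn.subgroupOf H
  have hD2 : IsPGroup 2 ↥((Cfsg.layer G).subgroupOf H) := by
    intro g
    refine ⟨2, ?_⟩
    have hgE : g.1.1 ∈ Cfsg.layer G := Subgroup.mem_subgroupOf.mp g.2
    obtain ⟨l, hl, l₂, hl₂, hgl, h4, h5⟩ := hdec g.1.1 hgE ((hHmem _).mp g.1.2)
    have h6 : g.1.1 ^ 4 = 1 := by
      have hc : Commute l l₂ := hcomm12 l hl l₂ hl₂
      rw [hgl, hc.mul_pow, hpow4 l hl h4, hpow4' l₂ hl₂ h5, one_mul]
    apply Subtype.ext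
    apply Subtype.ext
    simpa using h6
  have hle := le_pCore hDn hD2
  apply hINV
  intro c hc hca
  have hcH : c ∈ H := (hHmem c).mpr (hLz c hc hca)
  have hcQ : c ∈ Q := by
    rw [hQeq]
    refine ⟨⟨c, hcH⟩, hle ?_, rfl⟩
    rw [Subgroup.mem_subgroupOf, hEeq]
    exact Subgroup.mem_sup_left hc
  have h1 := hZQ' _ (zq_comm Q hext hcQ huQ)
  have e : ⁅c, u⁆ = c * (u * c⁻¹ * u⁻¹) := by rw [commutatorElement_def]; group
  rw [e] at h1
  have hc2 := hcj c⁻¹ (L.inv_mem hc)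
  rcases h1 with h | h
  · left
    exact (les_uniq hinf12 hc L.one_mem hc2 L₂.one_mem (by rw [h, one_mul])).1
  · right
    rw [hza] at h
    exact (les_uniq hinf12 hc haL hc2 hbL₂ h).1

end Cfsg.Agent.Lib.helper14
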