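import Mathlib
import Cfsg.Prelude.Def_MonsterType
import Cfsg.Prelude.Def_Local
import Cfsg.Agent.Lib.helper14.LESC4a
import Cfsg.Agent.Lib.helper14.LESC4b

set_option autoImplicit false

namespace Cfsg.Agent.Lib.helper14

open Cfsg


section lesmain

open scoped commutatorElement

set_option maxHeartbeats 3200000 in
theorem les_struct {G : Type*} [Group G] [Finite G] (Q : Subgroup G)
    (hQ : Cfsg.IsLargeExtraspecial Q) (z : G)
    (hz : ((Subgroup.center ↥Q).map Q.subtype) = Subgroup.zpowers z) (M : Subgroup G)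
    (hM : M = Subgroup.normalClosure ({z} : Set G)) :
    Q.Normal ∨ (IsMulCommutative ↥M ∧ Cfsg.generalizedFittingSubgroup G = Cfsg.pCore 2 G) ∨ (M = Cfsg.generalizedFittingSubgroup G ∧ IsSimpleGroup ↥M ∧ ¬ IsMulCommutative ↥M) ∨ (M = Cfsg.generalizedFittingSubgroup G ∧ ∃ (L : Subgroup G) (u : G), u ∈ Q ∧ IsSimpleGroup ↥L ∧ ¬ IsMulCommutative ↥L ∧ L ⊓ (L).map (MulAut.conj u).toMonoidHom = ⊥ ∧ (∀ x ∈ L, ∀ y ∈ (L).map (MulAut.conj u).toMonoidHom, x * y = y * x) ∧ L ⊔ (L).map (MulAut.conj u).toMonoidHom = M ∧ ∃ z₁ ∈ L, z = z₁ * (u * z₁ * u⁻¹) ∧ (∃ R : Sylow 2 ↥L, (R : Subgroup ↥L) = (Subgroup.centralizer ({z₁} : Set G)).subgroupOf L ∧ (frattini ↥(R : Subgroup ↥L)).map ((L.subtype).comp (R : Subgroup ↥L).subtype) ≤ Subgroup.zpowers z₁) ∧ Q ≠ (Cfsg.pCore 2 ↥(Subgroup.centralizer ({z} : Set G))).map (Subgroup.centralizer ({z} : Set G)).subtype) := by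
  have hfact : Fact (Nat.Prime 2) := ⟨Nat.prime_two⟩
  obtain ⟨hext, hcent, hnorm, hodd⟩ := hQ
  have hQ2 : IsPGroup 2 ↥Q := hext.1.1
  have hZQ : ∀ g, ZQ Q g ↔ g ∈ Subgroup.zpowers z := fun g => by
    rw [← hz, mem_center_map_iff]
  have hzZQ : ZQ Q z := (hZQ z).mpr (Subgroup.mem_zpowers z)
  have hzQ : z ∈ Q := hzZQ.1
  have hz1 : z ≠ 1 := by
    intro h
    have hc : Nat.card (Subgroup.center ↥Q) = 2 := hext.2
    have h2 := Subgroup.card_map_of_injective (K := Subgroup.center ↥Q) Q.subtype_injective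
    rw [hz, h, Subgroup.zpowers_one_eq_bot, Subgroup.card_bot, hc] at h2
    omega
  have hZQ' : ∀ g, ZQ Q g → g = 1 ∨ g = z := by
    intro g hg
    by_cases h1 : g = 1
    · exact Or.inl h1
    · exact Or.inr (zq_unique Q hext hg hzZQ h1 hz1)
  have hzz : z * z = 1 := by
    have h1 : ZQ Q (z * z) := ⟨Q.mul_mem hzQ hzQ, fun q hq => by
      rw [← mul_assoc, hzZQ.2 q hq, mul_assoc, hzZQ.2 q hq, mul_assoc]⟩
    rcases hZQ' _ h1 with h | h
    · exact h
    · exfalso; exact hz1 (mul_left_cancel (a := z) (by rw [h, mul_one]))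
  have hzinv : z⁻¹ = z := inv_eq_of_mul_eq_one_left hzz
  have hCQ : ∀ g, (∀ q ∈ Q, q * g = g * q) → g = 1 ∨ g = z := by
    intro g hg
    have h1 : g ∈ Subgroup.centralizer (Q : Set G) := by
      rw [Subgroup.mem_centralizer_iff]; exact hg
    rw [hcent, mem_center_map_iff] at h1
    exact hZQ' g h1
  have hHQ : ∀ h, h * z = z * h → ∀ q ∈ Q, h * q * h⁻¹ ∈ Q := by
    intro h hh q hq
    have h1 : h ∈ Subgroup.centralizer
        (((Subgroup.center ↥Q).map Q.subtype : Subgroup G) : Set G) := by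
      rw [hz, Subgroup.mem_centralizer_iff]
      intro y hy
      obtain ⟨k, rfl⟩ := Subgroup.mem_zpowers_iff.mp hy
      have hc : Commute z h := hh.symm
      exact (hc.zpow_left k).eq
    exact (Subgroup.mem_normalizer_iff.mp (hnorm h1) q).mp hq
  have hNQ : ∀ N : Subgroup G, (∀ n ∈ N, n * z = z * n) → (∀ q ∈ Q, ∀ n ∈ N, q * n * q⁻¹ ∈ N) →
      z ∉ N → N = ⊥ := by
    intro N hNH hQN hzN
    have hNQbot : N ⊓ Q = ⊥ := by
      by_contra hne
      obtain ⟨d, hd, hd1, hdc⟩ := les_meet Q (N ⊓ Q) hQ2 inf_le_right hne (fun a ha d hd =>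
        ⟨hQN a ha d hd.1, Q.mul_mem (Q.mul_mem ha hd.2) (Q.inv_mem ha)⟩)
      have hdz : d = z := (hZQ' d ⟨hd.2, hdc⟩).resolve_left hd1
      exact hzN (hdz ▸ hd.1)
    rw [eq_bot_iff]
    intro n hn
    rw [Subgroup.mem_bot]
    have hc : ∀ q ∈ Q, q * n = n * q := by
      intro q hq
      have h1 : n * q * n⁻¹ * q⁻¹ ∈ N ⊓ Q := by
        constructor
        · have := N.mul_mem hn (hQN q hq n⁻¹ (N.inv_mem hn))
          have e : n * (q * n⁻¹ * q⁻¹) = n * q * n⁻¹ * q⁻¹ := by group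
          rwa [e] at this
        · exact Q.mul_mem (hHQ n (hNH n hn) q hq) (Q.inv_mem hq)
      rw [hNQbot, Subgroup.mem_bot] at h1
      exact (mul_inv_eq_iff_eq_mul.mp (mul_inv_eq_one.mp h1)).symm
    rcases hCQ n hc with h | h
    · exact h
    · exact absurd (h ▸ hn) hzN
  obtain ⟨H, hHdef⟩ : ∃ H : Subgroup G, H = Subgroup.centralizer ({z} : Set G) := ⟨_, rfl⟩
  have hHmem : ∀ g, g ∈ H ↔ g * z = z * g := fun g => by
    rw [hHdef, Subgroup.mem_centralizer_iff]
    constructor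
    · intro h; exact (h z rfl).symm
    · intro h y hy
      rw [Set.mem_singleton_iff.mp hy]; exact h.symm
  have hQH : Q ≤ H := fun q hq => (hHmem q).mpr (hzZQ.2 q hq)
  have hQnH : (Q.subgroupOf H).Normal := by
    constructor
    intro n hn g
    rw [Subgroup.mem_subgroupOf] at hn ⊢
    simpa using hHQ g ((hHmem g).mp g.2) n hn
  have hCH : ∀ L : Subgroup G, Cfsg.IsComponent L → ¬ L ≤ H := by
    intro L hL hLH
    have hcomp := Cfsg.Agent.Lib.helper7.comp_subgroupOf hL hLH
    have hsolv : Group.IsSolvable ↥(Q.subgroupOf H) := by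
      have hp : IsPGroup 2 ↥(Q.subgroupOf H) := hQ2.comap_subtype
      haveI := hp.isNilpotent
      infer_instance
    have hcomm := Cfsg.Agent.Lib.helper7.layer_comm_solvable_normal (Q.subgroupOf H) hsolv
    have hle := Cfsg.Agent.Lib.helper7.comp_le_layer hcomp
    have hc : ∀ l ∈ L, ∀ q ∈ Q, q * l = l * q := by
      intro l hl q hq
      have h1 : ⁅(⟨l, hLH hl⟩ : ↥H), ⟨q, hQH hq⟩⁆ ∈ ⁅Cfsg.layer ↥H, Q.subgroupOf H⁆ :=
        Subgroup.commutator_mem_commutator (hle (Subgroup.mem_subgroupOf.mpr hl))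
          (Subgroup.mem_subgroupOf.mpr hq)
      rw [hcomm, Subgroup.mem_bot] at h1
      have h2 : l * q * l⁻¹ * q⁻¹ = 1 := congrArg Subtype.val h1
      exact (mul_inv_eq_iff_eq_mul.mp (mul_inv_eq_one.mp h2)).symm
    apply Cfsg.Agent.Lib.helper7.qs_not_solvable hL.2
    have hLc : IsMulCommutative ↥L := ⟨⟨fun x y => by
      apply Subtype.ext
      show (x : G) * (y : G) = (y : G) * (x : G)
      rcases hCQ x.1 (hc x.1 x.2) with h | h <;> rcases hCQ y.1 (hc y.1 y.2) with h' | h' <;>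
        rw [h, h'] <;> simp⟩⟩
    exact Cfsg.Agent.Lib.helper7.solvable_of_isMulComm hLc
  have hppc : Cfsg.pPrimeCore 2 G = ⊥ := by
    apply hodd
    · have h1 := Cfsg.Agent.Lib.helper9.pPrimeCore_coprime 2 G
      exact Nat.coprime_two_right.mp h1
    · intro q _
      have hn := Cfsg.Agent.Lib.helper9.ppc_normal 2 G
      rw [Subgroup.mem_normalizer_iff]
      intro x
      constructor
      · intro hx; exact hn.conj_mem x hx q
      · intro hx
        have := hn.conj_mem _ hx q⁻¹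
        have e : q⁻¹ * (q * x * q⁻¹) * q⁻¹⁻¹ = x := by group
        rwa [e] at this
  have hoddN : ∀ K : Subgroup G, K.Normal → Odd (Nat.card K) → K = ⊥ := by
    intro K hK hKodd
    apply hodd K hKodd
    intro q _
    rw [Subgroup.mem_normalizer_iff]
    intro x
    constructor
    · intro hx; exact hK.conj_mem x hx q
    · intro hx
      have := hK.conj_mem _ hx q⁻¹
      have e : q⁻¹ * (q * x * q⁻¹) * q⁻¹⁻¹ = x := by group
      rwa [e] at this
  have hUn : (Cfsg.pCore 2 G).Normal := pCore_normal' 2 G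
  have hU2 : IsPGroup 2 ↥(Cfsg.pCore 2 G) := isPGroup_pCore 2 G
  have hEn : (Cfsg.layer G).Normal := inferInstance
  by_cases hzU : z ∈ Cfsg.pCore 2 G
  · -- Case A
    right; left
    have hNn : (Cfsg.pCore 2 G ⊓ Subgroup.centralizer (Cfsg.pCore 2 G : Set G)).Normal :=
      inferInstance
    have hzN : z ∈ Cfsg.pCore 2 G ⊓ Subgroup.centralizer (Cfsg.pCore 2 G : Set G) := by
      by_contra hzN
      have hNbot := hNQ _ (fun n hn => by
        have := Subgroup.mem_centralizer_iff.mp hn.2 z hzU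
        exact this.symm) (fun q _ n hn => hNn.conj_mem n hn q) hzN
      have hUne : Cfsg.pCore 2 G ≠ ⊥ := by
        intro h
        rw [h, Subgroup.mem_bot] at hzU
        exact hz1 hzU
      obtain ⟨d, hd, hd1, hdc⟩ := les_meet (Cfsg.pCore 2 G) (Cfsg.pCore 2 G) hU2 le_rfl hUne
        (fun a ha d hd => (Cfsg.pCore 2 G).mul_mem ((Cfsg.pCore 2 G).mul_mem ha hd)
          ((Cfsg.pCore 2 G).inv_mem ha))
      have hdN : d ∈ Cfsg.pCore 2 G ⊓ Subgroup.centralizer (Cfsg.pCore 2 G : Set G) :=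
        ⟨hd, Subgroup.mem_centralizer_iff.mpr (fun h hh => hdc h hh)⟩
      rw [hNbot, Subgroup.mem_bot] at hdN
      exact hd1 hdN
    have hMN : M ≤ Cfsg.pCore 2 G ⊓ Subgroup.centralizer (Cfsg.pCore 2 G : Set G) := by
      rw [hM]
      exact Subgroup.normalClosure_le_normal (Set.singleton_subset_iff.mpr hzN)
    refine ⟨⟨⟨fun a b => ?_⟩⟩, ?_⟩
    · apply Subtype.ext
      have ha := hMN a.2
      have hb := hMN b.2
      exact (Subgroup.mem_centralizer_iff.mp ha.2 b.1 hb.1).symm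
    · have hlayer : Cfsg.layer G = ⊥ := by
        rw [eq_bot_iff]
        apply sSup_le
        intro L hL
        exfalso
        apply hCH L hL
        have hsolvU : Group.IsSolvable ↥(Cfsg.pCore 2 G) := by
          haveI := hU2.isNilpotent
          infer_instance
        have hcomm := Cfsg.Agent.Lib.helper7.layer_comm_solvable_normal (Cfsg.pCore 2 G) hsolvU
        intro l hl
        rw [hHmem]
        have h1 : ⁅l, z⁆ ∈ ⁅Cfsg.layer G, Cfsg.pCore 2 G⁆ :=
          Subgroup.commutator_mem_commutator (Cfsg.Agent.Lib.helper7.comp_le_layer hL hl) hzU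
        rw [hcomm, Subgroup.mem_bot, commutatorElement_def] at h1
        exact mul_inv_eq_iff_eq_mul.mp (mul_inv_eq_one.mp h1)
      unfold Cfsg.generalizedFittingSubgroup
      rw [hlayer, bot_sup_eq]
      apply le_antisymm (les_fitting_le_pCore hoddN)
      exact Cfsg.Agent.Lib.helper7.le_fitting hUn hU2.isNilpotent
  · -- Case B
    right; right
    have hU : Cfsg.pCore 2 G = ⊥ := by
      by_contra hUne
      have hN0 := hNQ (Cfsg.pCore 2 G ⊓ H) (fun n hn => (hHmem n).mp hn.2)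
        (fun q hq n hn => ⟨hUn.conj_mem n hn.1 q,
          H.mul_mem (H.mul_mem (hQH hq) hn.2) (H.inv_mem (hQH hq))⟩) (fun h => hzU h.1)
      have hord : orderOf z = 2 := orderOf_eq_prime (by rw [pow_two]; exact hzz) hz1
      have hpz : IsPGroup 2 ↥(Subgroup.zpowers z) :=
        IsPGroup.of_card (n := 1) (by rw [Nat.card_zpowers, hord]; rfl)
      haveI := hUn
      have hW : IsPGroup 2 ↥(Cfsg.pCore 2 G ⊔ Subgroup.zpowers z) :=
        IsPGroup.to_sup_of_normal_left hU2 hpz
      obtain ⟨d, hd, hd1, hdc⟩ := les_meet (Cfsg.pCore 2 G ⊔ Subgroup.zpowers z)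
        (Cfsg.pCore 2 G) hW le_sup_left hUne (fun a _ d hd => hUn.conj_mem d hd a)
      have hdN : d ∈ Cfsg.pCore 2 G ⊓ H :=
        ⟨hd, (hHmem d).mpr (hdc z (Subgroup.mem_sup_right (Subgroup.mem_zpowers z))).symm⟩
      rw [hN0, Subgroup.mem_bot] at hdN
      exact hd1 hdN
    have hF : Cfsg.fittingSubgroup G = ⊥ := Cfsg.Agent.Lib.helper7.fitting_bot_of_cores hppc hU
    have hFstar : Cfsg.generalizedFittingSubgroup G = Cfsg.layer G := by
      unfold Cfsg.generalizedFittingSubgroup; rw [hF, sup_bot_eq]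
    have hCE : Subgroup.centralizer (Cfsg.layer G : Set G) ≤ Cfsg.layer G := by
      have := Cfsg.Agent.Lib.helper7.centralizer_genFitting_le G
      rwa [hFstar] at this
    have hzE : z ∈ Cfsg.layer G := by
      by_contra hzE
      have hN0 := hNQ (Cfsg.layer G ⊓ H) (fun n hn => (hHmem n).mp hn.2)
        (fun q hq n hn => ⟨hEn.conj_mem n hn.1 q,
          H.mul_mem (H.mul_mem (hQH hq) hn.2) (H.inv_mem (hQH hq))⟩) (fun h => hzE h.1)
      have hab := les_fpf (Cfsg.layer G) z (fun e he => hEn.conj_mem e he z) hzz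
        (fun e he hc => by
          have h1 : e ∈ Cfsg.layer G ⊓ H := ⟨he, (hHmem e).mpr hc.symm⟩
          rw [hN0, Subgroup.mem_bot] at h1
          exact h1)
      have hEc : IsMulCommutative ↥(Cfsg.layer G) :=
        ⟨⟨fun a b => Subtype.ext (hab a a.2 b b.2)⟩⟩
      have hEF := Cfsg.Agent.Lib.helper7.le_fitting hEn
        (Cfsg.Agent.Lib.helper7.nilpotent_of_isMulComm hEc)
      rw [hF] at hEF
      apply hzE
      apply hCE
      rw [Subgroup.mem_centralizer_iff]
      intro h hh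
      have := hEF hh
      rw [Subgroup.mem_bot] at this
      rw [this, one_mul, mul_one]
    have hMn : M.Normal := by rw [hM]; exact Subgroup.normalClosure_normal
    have hzM : z ∈ M := by rw [hM]; exact Subgroup.subset_normalClosure (Set.mem_singleton z)
    have hME : M ≤ Cfsg.layer G := by
      rw [hM]; exact Subgroup.normalClosure_le_normal (Set.singleton_subset_iff.mpr hzE)
    have hCMn : (Subgroup.centralizer (M : Set G)).Normal := inferInstance
    have hCM : Subgroup.centralizer (M : Set G) = ⊥ := by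
      apply hNQ
      · intro n hn
        exact (Subgroup.mem_centralizer_iff.mp hn z hzM).symm
      · intro q _ n hn
        exact hCMn.conj_mem n hn q
      · intro hzC
        have hIn : (M ⊓ Subgroup.centralizer (M : Set G)).Normal := inferInstance
        have hIc : IsMulCommutative ↥(M ⊓ Subgroup.centralizer (M : Set G)) :=
          ⟨⟨fun a b => Subtype.ext ((Subgroup.mem_centralizer_iff.mp a.2.2 b.1 b.2.1).symm)⟩⟩
        have h1 := Cfsg.Agent.Lib.helper7.le_fitting hIn
          (Cfsg.Agent.Lib.helper7.nilpotent_of_isMulComm hIc)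
          (⟨hzM, hzC⟩ : z ∈ M ⊓ Subgroup.centralizer (M : Set G))
        rw [hF, Subgroup.mem_bot] at h1
        exact hz1 h1
    have hEM : Cfsg.layer G ≤ M := by
      apply sSup_le
      intro L hL
      rcases Cfsg.Agent.Lib.helper7.comp_le_or_comm L M hL (Subgroup.Normal.isSubnormal hMn)
        with h | h
      · exact h
      · exfalso
        rw [Subgroup.commutator_eq_bot_iff_le_centralizer, hCM] at h
        have hnt := Cfsg.Agent.Lib.helper7.qs_nontrivial hL.2
        obtain ⟨x, y, hxy⟩ := hnt.exists_pair_ne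
        apply hxy
        apply Subtype.ext
        have hx := h x.2
        have hy := h y.2
        rw [Subgroup.mem_bot] at hx hy
        rw [hx, hy]
    have hMeq : M = Cfsg.generalizedFittingSubgroup G := by
      rw [hFstar]; exact le_antisymm hME hEM
    have hMeqE : M = Cfsg.layer G := le_antisymm hME hEM
    by_cases huniq : ∀ L₁ L₂ : Subgroup G, Cfsg.IsComponent L₁ → Cfsg.IsComponent L₂ → L₁ = L₂
    · left
      have hne : Nontrivial G := ⟨⟨z, 1, hz1⟩⟩
      have h1 := Cfsg.Agent.Lib.helper7.fstar_simple_of_unique hne hF huniq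
      subst hMeq
      exact ⟨rfl, h1⟩
    · right
      push_neg at huniq
      obtain ⟨L₀, L', hL₀, hL', hLL'⟩ := huniq
      have hCH' : ∀ K : Subgroup G, Cfsg.IsComponent K → ¬ (∀ l ∈ K, l * z = z * l) :=
        fun K hK h => hCH K hK (fun l hl => (hHmem l).mpr (h l hl))
      obtain ⟨u, a, huQ, hne, hEeq, haL, hza⟩ := les_c4a Q z hext hzZQ hzz hZQ' hCQ hHQ hCH' hF
        hzE L₀ L' hL₀ hL' hLL'
      obtain ⟨hR, hQne⟩ := les_c4b Q z hext hzZQ hz1 hzz hZQ' hCQ hHQ hF L₀ u a hL₀ huQ hne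
        hEeq haL hza
      have hsim := Cfsg.Agent.Lib.helper7.comp_simple hL₀
        (Cfsg.Agent.Lib.helper7.comp_center_bot hF hL₀)
      have hL₂ : Cfsg.IsComponent (srCj u L₀) :=
        Cfsg.Agent.Lib.helper7.comp_map_equiv (MulAut.conj u) hL₀
      refine ⟨hMeq, L₀, u, huQ, hsim.1, hsim.2, ?_, ?_, ?_, a, haL, hza, hR, hQne⟩
      · rw [eq_bot_iff]
        intro x hx
        rw [Subgroup.mem_bot]
        exact Cfsg.Agent.Lib.helper7.comp_inf_eq_one hL₀ hL₂ hne
          (Cfsg.Agent.Lib.helper7.comp_center_bot hF hL₀) hx.1 hx.2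
      · intro x hx y hy
        exact Cfsg.Agent.Lib.helper7.comp_comm_elem hL₀ hL₂ hne hx hy
      · rw [hMeqE]; exact hEeq.symm

end lesmain

end Cfsg.Agent.Lib.helper14
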