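import Cfsg.Agent.Lib.helper14.QuadKill

/-!
# Elements with `(u - 1)^(p-1) = 0` centralize normalized abelian `p'`-groups
(library, seat helper14): the Hall–Higman bound for abelian `p'`-groups.
-/

set_option autoImplicit false
set_option linter.style.haveILetI false

namespace Cfsg.Agent.Lib.helper14

open Polynomial in
/-- over `ℤ`: `1 + X + ⋯ + X^(p-1) = (X - 1)^(p-1) + p Q`. -/
theorem geom_sum_eq_pow_add (p : ℕ) [hp : Fact p.Prime] : ∃ Q : Polynomial ℤ,
    (∑ i ∈ Finset.range p, (X : Polynomial ℤ) ^ i) = (X - 1) ^ (p - 1) + C (p : ℤ) * Q := by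
  set D : Polynomial ℤ := (∑ i ∈ Finset.range p, (X : Polynomial ℤ) ^ i) - (X - 1) ^ (p - 1) with hD
  have hmap : D.map (Int.castRingHom (ZMod p)) = 0 := by
    rw [hD, Polynomial.map_sub, Polynomial.map_sum, Polynomial.map_pow, Polynomial.map_sub,
      Polynomial.map_X, Polynomial.map_one]
    simp only [Polynomial.map_pow, Polynomial.map_X]
    rw [sub_eq_zero]
    have h1 : ((X : Polynomial (ZMod p)) - 1) * ∑ i ∈ Finset.range p, (X : Polynomial (ZMod p)) ^ i =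
        X ^ p - 1 := mul_geom_sum _ _
    have h2 : ((X : Polynomial (ZMod p)) - 1) ^ p = X ^ p - 1 := by
      rw [sub_pow_char, one_pow]
    have h3 : ((X : Polynomial (ZMod p)) - 1) * ((X : Polynomial (ZMod p)) - 1) ^ (p - 1) =
        X ^ p - 1 := by
      rw [← pow_succ', Nat.sub_add_cancel hp.out.pos, h2]
    have h4 : ((X : Polynomial (ZMod p)) - 1) ≠ 0 := by
      have := Polynomial.X_sub_C_ne_zero (1 : ZMod p)
      simpa using this
    exact mul_left_cancel₀ h4 (h1.trans h3.symm)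
  have hdvd : C (p : ℤ) ∣ D := by
    rw [Polynomial.C_dvd_iff_dvd_coeff]
    intro i
    have h1 : (D.map (Int.castRingHom (ZMod p))).coeff i = 0 := by rw [hmap]; simp
    rw [Polynomial.coeff_map] at h1
    exact (ZMod.intCast_zmod_eq_zero_iff_dvd _ p).1 h1
  obtain ⟨Q, hQ⟩ := hdvd
  exact ⟨Q, by rw [← hQ, hD]; ring⟩

theorem norm_zero_of_pow {E : Type*} [Ring E] {p : ℕ} [hp : Fact p.Prime] (hE : (p : E) = 0)
    (x : E) (hx : (x - 1) ^ (p - 1) = 0) : ∑ i ∈ Finset.range p, x ^ i = 0 := by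
  obtain ⟨Q, hQ⟩ := geom_sum_eq_pow_add p
  have h1 := congrArg (Polynomial.aeval x) hQ
  simp only [map_sum, map_pow, Polynomial.aeval_X, map_add, map_sub, map_one, map_mul,
    Polynomial.aeval_C] at h1
  rw [h1, hx, zero_add]
  have : (algebraMap ℤ E) (p : ℤ) = 0 := by
    rw [eq_intCast]; simpa using hE
  rw [this, zero_mul]

theorem pow_p_of_pow {E : Type*} [Ring E] {p : ℕ} [hp : Fact p.Prime] (hE : (p : E) = 0)
    (x : E) (hx : (x - 1) ^ (p - 1) = 0) : x ^ p = 1 := by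
  have h1 : (x - 1) * ∑ i ∈ Finset.range p, x ^ i = x ^ p - 1 := mul_geom_sum _ _
  rw [norm_zero_of_pow hE x hx, mul_zero] at h1
  exact (sub_eq_zero.1 h1.symm)

theorem norm_fpf {E : Type*} [Ring E] {p : ℕ} [hp : Fact p.Prime]
    (hE : (p : E) = 0) (u : Eˣ) (hup : u ^ p = 1)
    (hN : ∑ i ∈ Finset.range p, ((u ^ i : Eˣ) : E) = 0)
    (T : Subgroup Eˣ) [Finite T]
    (hcop : (Nat.card T).Coprime p) (hn : ∀ r ∈ T, u * r * u⁻¹ ∈ T)
    (hfpf : ∀ w ∈ T, u * w * u⁻¹ = w → w = 1) : ∀ w ∈ T, w = 1 := by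
  classical
  have : Fintype T := Fintype.ofFinite T
  set s : E := ∑ w : T, ((w : Eˣ) : E) with hs
  -- (i)
  have hi : ∀ i : ℕ, 0 < i → i < p →
      ∑ w : T, (((w : Eˣ) * u ^ i * (w : Eˣ)⁻¹ : Eˣ) : E) = s * ((u ^ i : Eˣ) : E) := by
    intro i hi0 hip
    let σ : T → T := fun w => ⟨(w : Eˣ) * (u ^ i * (w : Eˣ)⁻¹ * (u ^ i)⁻¹),
      T.mul_mem w.2 (conj_pow_mem T u hn i _ (T.inv_mem w.2))⟩
    have hσinj : Function.Injective σ := by
      intro w w' hww
      have h1 : (w : Eˣ) * (u ^ i * (w : Eˣ)⁻¹ * (u ^ i)⁻¹) =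
          (w' : Eˣ) * (u ^ i * (w' : Eˣ)⁻¹ * (u ^ i)⁻¹) := congrArg Subtype.val hww
      set d : Eˣ := (w' : Eˣ)⁻¹ * (w : Eˣ) with hd
      have hdT : d ∈ T := T.mul_mem (T.inv_mem w'.2) w.2
      have hcd : u ^ i * d * (u ^ i)⁻¹ = d := by
        have ha : u ^ i * (w : Eˣ)⁻¹ * (u ^ i)⁻¹ ∈ T := conj_pow_mem T u hn i _ (T.inv_mem w.2)
        have hb : u ^ i * (w' : Eˣ)⁻¹ * (u ^ i)⁻¹ ∈ T := conj_pow_mem T u hn i _ (T.inv_mem w'.2)
        have h2 : u ^ i * d * (u ^ i)⁻¹ =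
            (u ^ i * (w' : Eˣ)⁻¹ * (u ^ i)⁻¹) * (u ^ i * (w : Eˣ)⁻¹ * (u ^ i)⁻¹)⁻¹ := by
          rw [hd]; group
        rw [h2]
        -- from h1: w * A = w' * B  =>  B * A⁻¹ = w'⁻¹ * w
        have h3 : (u ^ i * (w' : Eˣ)⁻¹ * (u ^ i)⁻¹) =
            (w' : Eˣ)⁻¹ * ((w : Eˣ) * (u ^ i * (w : Eˣ)⁻¹ * (u ^ i)⁻¹)) := by
          rw [h1]; group
        rw [h3, hd]; group
      have hd1 : d = 1 := hfpf d hdT (fixed_of_pow_fixed u d hup i hi0 hip hcd)
      apply Subtype.ext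
      have : (w : Eˣ) = (w' : Eˣ) * d := by rw [hd]; group
      rw [this, hd1, mul_one]
    have hσbij : Function.Bijective σ := Finite.injective_iff_bijective.1 hσinj
    have h4 : ∀ w : T, (((w : Eˣ) * u ^ i * (w : Eˣ)⁻¹ : Eˣ) : E) =
        (((σ w : T) : Eˣ) : E) * ((u ^ i : Eˣ) : E) := by
      intro w
      rw [← Units.val_mul]
      congr 1
      show (w : Eˣ) * u ^ i * (w : Eˣ)⁻¹ = (w : Eˣ) * (u ^ i * (w : Eˣ)⁻¹ * (u ^ i)⁻¹) * u ^ i
      group
    rw [Finset.sum_congr rfl (fun w _ => h4 w), ← Finset.sum_mul]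
    congr 1
    exact Function.Bijective.sum_comp hσbij (fun w : T => ((w : Eˣ) : E))
  -- (ii)
  have hii : (Nat.card T : E) = s := by
    have h0 : ∑ w : T, (((w : Eˣ) : E) * (∑ i ∈ Finset.range p, ((u ^ i : Eˣ) : E)) *
        (((w : Eˣ)⁻¹ : Eˣ) : E)) = 0 := by
      rw [hN]; simp
    have h1 : ∀ w : T, (((w : Eˣ) : E) * (∑ i ∈ Finset.range p, ((u ^ i : Eˣ) : E)) *
        (((w : Eˣ)⁻¹ : Eˣ) : E)) =
        ∑ i ∈ Finset.range p, (((w : Eˣ) * u ^ i * (w : Eˣ)⁻¹ : Eˣ) : E) := by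
      intro w
      rw [Finset.mul_sum, Finset.sum_mul]
      simp [Units.val_mul]
    rw [Finset.sum_congr rfl (fun w _ => h1 w), Finset.sum_comm] at h0
    rw [Finset.range_eq_Ico, Finset.sum_eq_sum_Ico_succ_bot hp.out.pos] at h0
    have h2 : ∑ w : T, (((w : Eˣ) * u ^ 0 * (w : Eˣ)⁻¹ : Eˣ) : E) = (Nat.card T : E) := by
      simp [Nat.card_eq_fintype_card]
    rw [h2] at h0
    have h3 : ∑ i ∈ Finset.Ico (0 + 1) p, ∑ w : T, (((w : Eˣ) * u ^ i * (w : Eˣ)⁻¹ : Eˣ) : E) =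
        ∑ i ∈ Finset.Ico (0 + 1) p, s * ((u ^ i : Eˣ) : E) := by
      apply Finset.sum_congr rfl
      intro i hi'
      rw [Finset.mem_Ico] at hi'
      exact hi i (by omega) hi'.2
    rw [h3, ← Finset.mul_sum] at h0
    have h4 : ∑ i ∈ Finset.Ico (0 + 1) p, ((u ^ i : Eˣ) : E) = -1 := by
      have := hN
      rw [Finset.range_eq_Ico, Finset.sum_eq_sum_Ico_succ_bot hp.out.pos] at this
      simp only [pow_zero, Units.val_one] at this
      exact eq_neg_of_add_eq_zero_right this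
    rw [h4] at h0
    have : (Nat.card T : E) - s = 0 := by rw [← h0]; noncomm_ring
    exact sub_eq_zero.1 this
  -- (iii)
  intro w₀ hw₀
  have h5 : ((w₀ : Eˣ) : E) * s = s := by
    rw [hs, Finset.mul_sum]
    let τ : T → T := fun w => ⟨w₀ * (w : Eˣ), T.mul_mem hw₀ w.2⟩
    have hτ : Function.Bijective τ := by
      apply Finite.injective_iff_bijective.1
      intro a b hab
      have : w₀ * (a : Eˣ) = w₀ * (b : Eˣ) := congrArg Subtype.val hab
      exact Subtype.ext (mul_left_cancel this)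
    have h6 : ∀ w : T, ((w₀ : Eˣ) : E) * ((w : Eˣ) : E) = (((τ w : T) : Eˣ) : E) := by
      intro w; rw [← Units.val_mul]
    rw [Finset.sum_congr rfl (fun w _ => h6 w)]
    exact Function.Bijective.sum_comp hτ (fun w : T => ((w : Eˣ) : E))
  rw [← hii] at h5
  obtain ⟨a, b, hab⟩ : ∃ a b : ℤ, (Nat.card T : ℤ) * a + (p : ℤ) * b = 1 := by
    have := Int.isCoprime_iff_gcd_eq_one.2
      (by exact_mod_cast hcop : Int.gcd (Nat.card T : ℤ) (p : ℤ) = 1)
    obtain ⟨a, b, hab⟩ := this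
    exact ⟨a, b, by linarith⟩
  have h7 : (Nat.card T : E) * (a : E) = 1 := by
    have := congrArg (fun z : ℤ => (z : E)) hab
    simp only [Int.cast_add, Int.cast_mul, Int.cast_natCast, Int.cast_one] at this
    rw [hE, zero_mul, add_zero] at this
    exact this
  apply Units.ext
  have h8 : ((w₀ : Eˣ) : E) = ((w₀ : Eˣ) : E) * (Nat.card T : E) * (a : E) := by
    rw [mul_assoc, h7, mul_one]
  rw [h8, h5, h7]; rfl


/-- units `u` with `u^p = 1` and `1 + u + ⋯ + u^(p-1) = 0` centralize normalized abelian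
`p'`-groups of units. -/
theorem norm_kill_ring' {E : Type*} [Ring E] {p : ℕ} [hp : Fact p.Prime]
    (hE : (p : E) = 0) (u : Eˣ) (hup : u ^ p = 1)
    (hN : ∑ i ∈ Finset.range p, ((u ^ i : Eˣ) : E) = 0)
    (R : Subgroup Eˣ) [Finite R] (hRc : ∀ r ∈ R, ∀ s ∈ R, r * s = s * r)
    (hcop : (Nat.card R).Coprime p) (hn : ∀ r ∈ R, u * r * u⁻¹ ∈ R) :
    ∀ r ∈ R, u * r * u⁻¹ = r := by
  let δ : R →* Eˣ :=
    { toFun := fun r => (r : Eˣ)⁻¹ * (u * r * u⁻¹)
      map_one' := by simp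
      map_mul' := by
        intro r s
        have hx : (r : Eˣ)⁻¹ * (u * r * u⁻¹) ∈ R := R.mul_mem (R.inv_mem r.2) (hn r r.2)
        have hc := hRc _ (R.inv_mem s.2) _ hx
        show ((r * s : R) : Eˣ)⁻¹ * (u * ((r * s : R) : Eˣ) * u⁻¹) =
          (r : Eˣ)⁻¹ * (u * r * u⁻¹) * ((s : Eˣ)⁻¹ * (u * s * u⁻¹))
        rw [Subgroup.coe_mul]
        calc ((r : Eˣ) * (s : Eˣ))⁻¹ * (u * ((r : Eˣ) * (s : Eˣ)) * u⁻¹)
            = ((s : Eˣ)⁻¹ * ((r : Eˣ)⁻¹ * (u * r * u⁻¹))) * (u * s * u⁻¹) := by group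
          _ = (((r : Eˣ)⁻¹ * (u * r * u⁻¹)) * (s : Eˣ)⁻¹) * (u * s * u⁻¹) := by rw [hc]
          _ = (r : Eˣ)⁻¹ * (u * r * u⁻¹) * ((s : Eˣ)⁻¹ * (u * s * u⁻¹)) := by group }
  have hδ : ∀ r : R, δ r = (r : Eˣ)⁻¹ * (u * r * u⁻¹) := fun r => rfl
  have hTR : δ.range ≤ R := by
    rintro _ ⟨r, rfl⟩
    rw [hδ]; exact R.mul_mem (R.inv_mem r.2) (hn r r.2)
  have hfin : Finite δ.range := Finite.of_injective (fun x : δ.range => (⟨x.1, hTR x.2⟩ : R))
    (fun a b hab => Subtype.ext (congrArg (fun z : R => (z : Eˣ)) hab))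
  have hcopT : (Nat.card δ.range).Coprime p :=
    Nat.Coprime.coprime_dvd_left (Subgroup.card_range_dvd δ) hcop
  have hnT : ∀ r ∈ δ.range, u * r * u⁻¹ ∈ δ.range := by
    rintro _ ⟨r, rfl⟩
    refine ⟨⟨u * r * u⁻¹, hn r r.2⟩, ?_⟩
    rw [hδ, hδ]; show (u * (r : Eˣ) * u⁻¹)⁻¹ * (u * (u * (r : Eˣ) * u⁻¹) * u⁻¹) = _
    group
  have hfpf : ∀ w ∈ δ.range, u * w * u⁻¹ = w → w = 1 := by
    rintro _ ⟨r, rfl⟩ hfix
    set w : Eˣ := δ r with hw
    have hur : u * (r : Eˣ) * u⁻¹ = r * w := by rw [hw, hδ]; group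
    have hind : ∀ i : ℕ, u ^ i * (r : Eˣ) * (u ^ i)⁻¹ = r * w ^ i := by
      intro i
      induction i with
      | zero => simp
      | succ i ih =>
        calc u ^ (i + 1) * (r : Eˣ) * (u ^ (i + 1))⁻¹
            = u * (u ^ i * (r : Eˣ) * (u ^ i)⁻¹) * u⁻¹ := by rw [pow_succ']; group
          _ = u * (r * w ^ i) * u⁻¹ := by rw [ih]
          _ = (u * r * u⁻¹) * (u * w * u⁻¹) ^ i := by rw [conj_pow]; group
          _ = r * w ^ (i + 1) := by rw [hur, hfix, pow_succ']; group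
    have hwp : w ^ p = 1 := by
      have := hind p
      rw [hup] at this
      simp only [one_mul, inv_one, mul_one] at this
      exact (mul_eq_left.1 this.symm)
    have h1 : orderOf w ∣ p := orderOf_dvd_of_pow_eq_one hwp
    have h2 : orderOf w ∣ Nat.card δ.range := by
      have := orderOf_dvd_natCard (⟨w, ⟨r, rfl⟩⟩ : δ.range)
      rwa [← Subgroup.orderOf_coe] at this
    have h3 : orderOf w = 1 := Nat.Coprime.eq_one_of_dvd (Nat.Coprime.coprime_dvd_left h2 hcopT) h1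
    exact orderOf_eq_one_iff.1 h3
  have hT := norm_fpf hE u hup hN δ.range hcopT hnT hfpf
  intro r hr
  have h1 := hT (δ ⟨r, hr⟩) ⟨_, rfl⟩
  rw [hδ] at h1
  have : u * r * u⁻¹ = r * ((r : Eˣ)⁻¹ * (u * r * u⁻¹)) := by group
  rw [this]
  show r * ((r : Eˣ)⁻¹ * (u * r * u⁻¹)) = r
  rw [h1, mul_one]


/-- **Hall–Higman for abelian `p'`-groups, ring version.** -/
theorem norm_kill_ring {E : Type*} [Ring E] {p : ℕ} [hp : Fact p.Prime]
    (hE : (p : E) = 0) (u : Eˣ) (hu : ((u : E) - 1) ^ (p - 1) = 0)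
    (R : Subgroup Eˣ) [Finite R] (hRc : ∀ r ∈ R, ∀ s ∈ R, r * s = s * r)
    (hcop : (Nat.card R).Coprime p) (hn : ∀ r ∈ R, u * r * u⁻¹ ∈ R) :
    ∀ r ∈ R, u * r * u⁻¹ = r := by
  have hup : u ^ p = 1 := by
    apply Units.ext
    rw [Units.val_pow_eq_pow_val]
    exact pow_p_of_pow hE _ hu
  have hN : ∑ i ∈ Finset.range p, ((u ^ i : Eˣ) : E) = 0 := by
    have := norm_zero_of_pow hE _ hu
    simpa [Units.val_pow_eq_pow_val] using this
  exact norm_kill_ring' hE u hup hN R hRc hcop hn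

/-- **Hall–Higman for abelian `p'`-groups, group version.** `V` a normal elementary abelian
`p`-subgroup, `a` with `[V, a, …, a] = 1` (`p - 1` times), `K` an `a`-invariant subgroup that is
abelian and of exponent prime to `p` modulo `C_G(V)`.  Then `[a, K] ≤ C_G(V)`. -/
theorem norm_kill_group {G : Type*} [Group G] [Finite G] {p : ℕ} [hp : Fact p.Prime]
    (V : Subgroup G) [hVn : V.Normal] (hVc : ∀ v ∈ V, ∀ w ∈ V, v * w = w * v)
    (hVp : ∀ v ∈ V, v ^ p = 1) (a : G)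
    (hq : ∀ v ∈ V, (fun w : G => a * w * a⁻¹ * w⁻¹)^[p - 1] v = 1)
    (K : Subgroup G) (hKa : ∀ x ∈ K, a * x * a⁻¹ ∈ K)
    (hKc : ∀ x ∈ K, ∀ y ∈ K, x * y * x⁻¹ * y⁻¹ ∈ Subgroup.centralizer (V : Set G))
    (m : ℕ) (hm : m.Coprime p) (hKm : ∀ x ∈ K, x ^ m ∈ Subgroup.centralizer (V : Set G)) :
    ∀ x ∈ K, a * x * a⁻¹ * x⁻¹ ∈ Subgroup.centralizer (V : Set G) := by
  letI : CommGroup V :=
    { (inferInstance : Group V) with mul_comm := fun v w => Subtype.ext (hVc v v.2 w w.2) }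
  let ρ : G →* AddMonoid.End (Additive V) :=
    { toFun := fun g => MonoidHom.toAdditive ((MulAut.conjNormal g : MulAut V).toMonoidHom)
      map_one' := by
        refine DFunLike.ext _ _ (fun v => ?_)
        rw [map_one]; rfl
      map_mul' := by
        intro g h
        refine DFunLike.ext _ _ (fun v => ?_)
        rw [map_mul]; rfl }
  have hρ : ∀ (g : G) (v : V), ρ g (Additive.ofMul v) =
      Additive.ofMul (MulAut.conjNormal g v) := fun g v => rfl
  have hρ1 : ∀ g : G, g ∈ Subgroup.centralizer (V : Set G) → ρ g = 1 := by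
    intro g hg
    refine DFunLike.ext _ _ (fun v => ?_)
    obtain ⟨v, rfl⟩ := Additive.ofMul.surjective v
    rw [hρ]
    show _ = Additive.ofMul v
    congr 1
    apply Subtype.ext
    rw [MulAut.conjNormal_apply]
    have := Subgroup.mem_centralizer_iff.1 hg v v.2
    rw [← this]; group
  have hρ2 : ∀ g : G, ρ g = 1 → g ∈ Subgroup.centralizer (V : Set G) := by
    intro g hg
    rw [Subgroup.mem_centralizer_iff]
    intro v hv
    have h1 := hρ g ⟨v, hv⟩
    rw [hg] at h1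
    have h2 : MulAut.conjNormal g (⟨v, hv⟩ : V) = ⟨v, hv⟩ := (Additive.ofMul.injective h1).symm
    have h3 := congrArg Subtype.val h2
    rw [MulAut.conjNormal_apply] at h3
    simp only at h3
    calc v * g = (g * v * g⁻¹) * g := by rw [h3]
      _ = g * v := by group
  have hE : ((p : ℕ) : AddMonoid.End (Additive V)) = 0 := by
    refine DFunLike.ext _ _ (fun v => ?_)
    obtain ⟨v, rfl⟩ := Additive.ofMul.surjective v
    rw [AddMonoid.End.natCast_apply]
    show Additive.ofMul (v ^ p) = 0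
    have : v ^ p = 1 := Subtype.ext (by rw [Subgroup.coe_pow]; exact hVp v v.2)
    rw [this]; rfl
  set ρu : G →* (AddMonoid.End (Additive V))ˣ := ρ.toHomUnits with hρu
  have hρu_coe : ∀ g : G, ((ρu g : (AddMonoid.End (Additive V))ˣ) : AddMonoid.End (Additive V)) =
      ρ g := fun g => rfl
  have hρu1 : ∀ g : G, ρu g = 1 ↔ g ∈ Subgroup.centralizer (V : Set G) := by
    intro g
    constructor
    · intro h
      apply hρ2
      have := congrArg Units.val h
      rw [hρu_coe] at this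
      exact this
    · intro h
      apply Units.ext
      rw [hρu_coe, hρ1 g h]; rfl
  -- the commutator map on `V`
  let cV : V → V := fun w => MulAut.conjNormal a w * w⁻¹
  have hcV : ∀ (n : ℕ) (v : V), ((cV^[n] v : V) : G) =
      (fun w : G => a * w * a⁻¹ * w⁻¹)^[n] (v : G) := by
    intro n
    induction n with
    | zero => intro v; rfl
    | succ n ih =>
      intro v
      rw [Function.iterate_succ_apply, Function.iterate_succ_apply, ih]
      congr 1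
  have hpow : ∀ (n : ℕ) (v : V), ((ρ a - 1) ^ n) (Additive.ofMul v) =
      Additive.ofMul (cV^[n] v) := by
    intro n
    induction n with
    | zero => intro v; rfl
    | succ n ih =>
      intro v
      rw [pow_succ, Function.iterate_succ_apply]
      show ((ρ a - 1) ^ n) ((ρ a - 1) (Additive.ofMul v)) = _
      have h1 : (ρ a - 1) (Additive.ofMul v) = Additive.ofMul (cV v) := by
        show ρ a (Additive.ofMul v) - Additive.ofMul v = _
        rw [hρ, ← ofMul_div, div_eq_mul_inv]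
      rw [h1, ih]
  have hu : (((ρu a : (AddMonoid.End (Additive V))ˣ) : AddMonoid.End (Additive V)) - 1) ^ (p - 1)
      = 0 := by
    rw [hρu_coe]
    refine DFunLike.ext _ _ (fun v => ?_)
    obtain ⟨v, rfl⟩ := Additive.ofMul.surjective v
    rw [hpow]
    have h1 : cV^[p - 1] v = 1 := Subtype.ext (by rw [hcV]; exact hq v v.2)
    rw [h1]; rfl
  have hRc : ∀ r ∈ K.map ρu, ∀ s ∈ K.map ρu, r * s = s * r := by
    rintro _ ⟨x, hx, rfl⟩ _ ⟨y, hy, rfl⟩
    have h1 := (hρu1 _).2 (hKc x hx y hy)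
    rw [map_mul, map_mul, map_mul, map_inv, map_inv] at h1
    calc ρu x * ρu y = (ρu x * ρu y * (ρu x)⁻¹ * (ρu y)⁻¹) * (ρu y * ρu x) := by group
      _ = ρu y * ρu x := by rw [h1, one_mul]
  haveI : Finite (K.map ρu) :=
    Finite.of_surjective (ρu.subgroupMap K) (ρu.subgroupMap_surjective K)
  have hcop : (Nat.card (K.map ρu)).Coprime p := by
    apply card_coprime_of_forall_pow m p hm
    rintro ⟨_, ⟨x, hx, rfl⟩⟩
    apply Subtype.ext
    rw [Subgroup.coe_pow, ← map_pow]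
    exact (hρu1 _).2 (hKm x hx)
  have hn : ∀ r ∈ K.map ρu, ρu a * r * (ρu a)⁻¹ ∈ K.map ρu := by
    rintro _ ⟨x, hx, rfl⟩
    exact ⟨a * x * a⁻¹, hKa x hx, by rw [map_mul, map_mul, map_inv]⟩
  have hmain := norm_kill_ring hE (ρu a) hu (K.map ρu) hRc hcop hn
  intro x hx
  rw [← hρu1, map_mul, map_mul, map_mul, map_inv, map_inv]
  have := hmain (ρu x) ⟨x, hx, rfl⟩
  rw [this]; group

end Cfsg.Agent.Lib.helper14
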