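import Mathlib

namespace Cfsg.Agent.Lib.helper14.S1456M1

theorem exists_small_centralizer {G : Type*} [Group G] [Finite G] (p : ℕ) [Fact p.Prime]
    (P : Subgroup G) (hP : IsPGroup p P) (E : Subgroup G) (hEP : E ≤ P)
    (hEc : ∀ a ∈ E, ∀ b ∈ E, a * b = b * a) (hEp : ∀ a ∈ E, a ^ p = 1)
    (hr : ∀ B : Subgroup G, B ≤ P → B ≤ Subgroup.centralizer (E : Set G) →
      (∀ a ∈ B, ∀ b ∈ B, a * b = b * a) → (∀ b ∈ B, b ^ p = 1) → Nat.card B ≤ p ^ 2) :
    ∃ e ∈ P, e ^ p = 1 ∧ ∀ B : Subgroup G, B ≤ P → (∀ b ∈ B, b * e = e * b) →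
      (∀ a ∈ B, ∀ b ∈ B, a * b = b * a) → (∀ b ∈ B, b ^ p = 1) → Nat.card B ≤ p ^ 2 := by
  classical
  by_cases hcen : ∀ e ∈ E, ∀ x ∈ P, x * e = e * x
  · refine ⟨1, P.one_mem, one_pow p, ?_⟩
    intro B hBP _ hBc hBp
    refine hr B hBP ?_ hBc hBp
    intro b hb
    rw [Subgroup.mem_centralizer_iff]
    intro e he
    exact (hcen e he b (hBP hb)).symm
  · push Not at hcen
    obtain ⟨e, heE, x, hxP, hxe⟩ := hcen
    refine ⟨e, hEP heE, hEp e heE, ?_⟩
    intro B hBP hBe hBc hBp
    refine hr B hBP ?_ hBc hBp
    let Z1 : Subgroup G :=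
      { carrier := {z | z ∈ P ∧ z ^ p = 1 ∧ ∀ y ∈ P, y * z = z * y}
        mul_mem' := by
          rintro a b ⟨ha1, ha2, ha3⟩ ⟨hb1, hb2, hb3⟩
          refine ⟨P.mul_mem ha1 hb1, ?_, ?_⟩
          · have hc : Commute a b := (ha3 b hb1).symm
            rw [hc.mul_pow, ha2, hb2, one_mul]
          · intro y hy
            rw [← mul_assoc, ha3 y hy, mul_assoc, hb3 y hy, mul_assoc]
        one_mem' := ⟨P.one_mem, one_pow p, fun y _ => by rw [mul_one, one_mul]⟩
        inv_mem' := by
          rintro a ⟨ha1, ha2, ha3⟩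
          refine ⟨P.inv_mem ha1, by rw [inv_pow, ha2, inv_one], ?_⟩
          intro y hy
          have h := ha3 y hy
          have hc : Commute y a := h
          exact hc.inv_right }
    have hZ1P : Z1 ≤ P := fun z hz => hz.1
    have heZ1 : e ∉ Z1 := fun h => hxe (h.2.2 x hxP)
    have hZ1ne : Z1 ≠ ⊥ := by
      have hPnt : Nontrivial P := by
        refine ⟨⟨⟨e, hEP heE⟩, 1, ?_⟩⟩
        intro h
        have he1 : e = 1 := by simpa using congrArg Subtype.val h
        apply hxe
        rw [he1, mul_one, one_mul]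
      have := hPnt
      have hcnt : Nontrivial (Subgroup.center P) := hP.center_nontrivial
      have hcp : IsPGroup p (Subgroup.center P) := hP.to_subgroup _
      have hdvd : p ∣ Nat.card (Subgroup.center P) := by
        rcases hcp.card_eq_or_dvd with h | h
        · exfalso
          have := Finite.one_lt_card (α := Subgroup.center P)
          omega
        · exact h
      obtain ⟨z, hz⟩ := exists_prime_orderOf_dvd_card' p hdvd
      intro hbot
      have hzmem : ((z : P) : G) ∈ Z1 := by
        refine ⟨(z : P).2, ?_, ?_⟩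
        · have h1 : z ^ p = 1 := by rw [← hz]; exact pow_orderOf_eq_one z
          have h2 := congrArg (fun w : Subgroup.center P => ((w : P) : G)) h1
          simpa using h2
        · intro y hy
          have h1 := Subgroup.mem_center_iff.mp z.2 ⟨y, hy⟩
          have h2 := congrArg (fun w : P => (w : G)) h1
          simpa using h2
      rw [hbot, Subgroup.mem_bot] at hzmem
      have hz1 : z = 1 := by
        apply Subtype.ext; apply Subtype.ext; simpa using hzmem
      rw [hz1, orderOf_one] at hz
      exact (Fact.out : p.Prime).one_lt.ne hz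
    set A : Subgroup G := E ⊔ Z1 with hA
    have hAP : A ≤ P := sup_le hEP hZ1P
    have hAcE : A ≤ Subgroup.centralizer (E : Set G) := by
      refine sup_le ?_ ?_
      · intro a ha
        rw [Subgroup.mem_centralizer_iff]
        intro b hb
        exact hEc b hb a ha
      · intro z hz
        rw [Subgroup.mem_centralizer_iff]
        intro b hb
        exact hz.2.2 b (hEP hb)
    have hAcZ : A ≤ Subgroup.centralizer (Z1 : Set G) := by
      refine sup_le ?_ ?_
      · intro a ha
        rw [Subgroup.mem_centralizer_iff]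
        intro z hz
        exact (hz.2.2 a (hEP ha)).symm
      · intro z hz
        rw [Subgroup.mem_centralizer_iff]
        intro w hw
        exact hz.2.2 w (hZ1P hw)
    have hAcomm : ∀ a ∈ A, ∀ b ∈ A, a * b = b * a := by
      intro a ha b hb
      have h1 : A ≤ Subgroup.centralizer ({a} : Set G) := by
        refine sup_le ?_ ?_
        · intro c hc
          rw [Subgroup.mem_centralizer_iff]
          intro a' ha'
          rw [Set.mem_singleton_iff] at ha'
          subst ha'
          exact ((Subgroup.mem_centralizer_iff.mp (hAcE ha)) c hc).symm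
        · intro c hc
          rw [Subgroup.mem_centralizer_iff]
          intro a' ha'
          rw [Set.mem_singleton_iff] at ha'
          subst ha'
          exact ((Subgroup.mem_centralizer_iff.mp (hAcZ ha)) c hc).symm
      exact (Subgroup.mem_centralizer_iff.mp (h1 hb)) a rfl
    have hAexp : ∀ a ∈ A, a ^ p = 1 := by
      let T : Subgroup G :=
        { carrier := {g | g ∈ A ∧ g ^ p = 1}
          mul_mem' := by
            rintro a b ⟨ha1, ha2⟩ ⟨hb1, hb2⟩
            refine ⟨A.mul_mem ha1 hb1, ?_⟩
            have hc : Commute a b := hAcomm a ha1 b hb1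
            rw [hc.mul_pow, ha2, hb2, one_mul]
          one_mem' := ⟨A.one_mem, one_pow p⟩
          inv_mem' := by
            rintro a ⟨ha1, ha2⟩
            exact ⟨A.inv_mem ha1, by rw [inv_pow, ha2, inv_one]⟩ }
      have hAT : A ≤ T := by
        refine sup_le ?_ ?_
        · intro a ha
          exact ⟨Subgroup.mem_sup_left ha, hEp a ha⟩
        · intro z hz
          exact ⟨Subgroup.mem_sup_right hz, hz.2.1⟩
      intro a ha
      exact (hAT ha).2
    have hAcard : Nat.card A ≤ p ^ 2 := hr A hAP hAcE hAcomm hAexp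
    set D : Subgroup G := Subgroup.zpowers e ⊔ Z1 with hD
    have hDA : D ≤ A := sup_le_sup_right ((Subgroup.zpowers_le).mpr heE) Z1
    have hZ1D : Z1 ≤ D := le_sup_right
    have heD : e ∈ D := Subgroup.mem_sup_left (Subgroup.mem_zpowers e)
    have hDp : IsPGroup p D := hP.to_le (hDA.trans hAP)
    have hZp : IsPGroup p Z1 := hP.to_le hZ1P
    obtain ⟨m, hm⟩ := hDp.exists_card_eq
    obtain ⟨l, hl⟩ := hZp.exists_card_eq
    have hp1 : 1 < p := (Fact.out : p.Prime).one_lt
    have hl1 : 1 ≤ l := by
      by_contra hcon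
      have h0 : l = 0 := by omega
      rw [h0, pow_zero] at hl
      exact hZ1ne ((Subgroup.card_eq_one).mp hl)
    have hlm : l < m := by
      by_contra hcon
      have hle : Nat.card D ≤ Nat.card Z1 := by
        rw [hm, hl]; exact Nat.pow_le_pow_right hp1.le (by omega)
      have h := Subgroup.eq_of_le_of_card_ge hZ1D hle
      exact heZ1 (h ▸ heD)
    have hDcard : p ^ 2 ≤ Nat.card D := by
      rw [hm]; exact Nat.pow_le_pow_right hp1.le (by omega)
    have hDeqA : D = A := Subgroup.eq_of_le_of_card_ge hDA (hAcard.trans hDcard)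
    have hDcB : D ≤ Subgroup.centralizer (B : Set G) := by
      refine sup_le ?_ ?_
      · rw [Subgroup.zpowers_le, Subgroup.mem_centralizer_iff]
        intro b hb
        exact hBe b hb
      · intro z hz
        rw [Subgroup.mem_centralizer_iff]
        intro b hb
        exact hz.2.2 b (hBP hb)
    intro b hb
    rw [Subgroup.mem_centralizer_iff]
    intro a ha
    have haD : a ∈ D := hDeqA ▸ (Subgroup.mem_sup_left ha : a ∈ A)
    exact ((Subgroup.mem_centralizer_iff.mp (hDcB haD)) b hb).symm

end Cfsg.Agent.Lib.helper14.S1456M1
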