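import Mathlib
import Cfsg.Prelude.Def_ClassificationK
import Cfsg.Agent.S0065

set_option autoImplicit false

namespace Cfsg.Agent.Lib.helper14

section Symp4

variable {T : Type*} [Group T]

/-- The subgroup generated by the squares. -/
def sqSub (T : Type*) [Group T] : Subgroup T := Subgroup.closure (Set.range (fun x : T => x * x))

instance sqSub_characteristic : (sqSub T).Characteristic := by
  rw [Subgroup.characteristic_iff_map_le]
  intro φ
  unfold sqSub
  rw [MonoidHom.map_closure]
  apply Subgroup.closure_mono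
  rintro _ ⟨_, ⟨x, rfl⟩, rfl⟩
  exact ⟨φ x, by simp⟩

theorem sq_mem_sqSub (x : T) : x * x ∈ sqSub T := Subgroup.subset_closure ⟨x, rfl⟩

/-- In a finite cyclic group, two non-identity elements with trivial square coincide. -/
theorem cyclic_invol_unique {A : Type*} [Group A] [Finite A] [IsCyclic A] {u v : A}
    (hu : u * u = 1) (hv : v * v = 1) (hu1 : u ≠ 1) (hv1 : v ≠ 1) : u = v := by
  classical
  have := Fintype.ofFinite A
  have h := IsCyclic.card_pow_eq_one_le (α := A) (n := 2) (by norm_num)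
  by_contra hne
  have hsub : ({1, u, v} : Finset A) ⊆ Finset.univ.filter (fun a : A => a ^ 2 = 1) := by
    intro a ha
    simp only [Finset.mem_insert, Finset.mem_singleton] at ha
    simp only [Finset.mem_filter, Finset.mem_univ, true_and]
    rcases ha with rfl | rfl | rfl
    · simp
    · rw [pow_two]; exact hu
    · rw [pow_two]; exact hv
  have hc : ({1, u, v} : Finset A).card = 3 := by
    rw [Finset.card_insert_of_notMem, Finset.card_insert_of_notMem, Finset.card_singleton]
    · simpa using hne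
    · simp only [Finset.mem_insert, Finset.mem_singleton]
      push Not
      exact ⟨fun h => hu1 h.symm, fun h => hv1 h.symm⟩
  have := Finset.card_le_card hsub
  omega

/-- Conjugation acts on a cyclic normal subgroup of exponent dividing 4 trivially or by inversion. -/
theorem conj_cyclic4 (Z : Subgroup T) [Z.Normal] (hc : IsCyclic ↥Z) (h4 : ∀ w ∈ Z, w ^ 4 = 1) (x : T) :
    (∀ w ∈ Z, x * w * x⁻¹ = w) ∨ (∀ w ∈ Z, x * w * x⁻¹ = w⁻¹) := by
  obtain ⟨⟨c, hcZ⟩, hgen⟩ := IsCyclic.exists_generator (α := ↥Z)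
  have hpow : ∀ w ∈ Z, ∃ j : ℤ, c ^ j = w := by
    intro w hw
    obtain ⟨j, hj⟩ := Subgroup.mem_zpowers_iff.mp (hgen ⟨w, hw⟩)
    refine ⟨j, ?_⟩
    have := congrArg Subtype.val hj
    simpa using this
  have hc4 : c ^ 4 = 1 := h4 c hcZ
  have hc' : x * c * x⁻¹ ∈ Z := Subgroup.Normal.conj_mem inferInstance c hcZ x
  obtain ⟨k, hk⟩ := hpow _ hc'
  have hconj : ∀ j : ℤ, x * c ^ j * x⁻¹ = (x * c * x⁻¹) ^ j := fun j => (conj_zpow).symm
  have hkmod : c ^ k = c ^ (k % 4) := by
    conv_lhs => rw [← Int.mul_ediv_add_emod k 4]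
    rw [zpow_add, zpow_mul]
    have : c ^ (4 : ℤ) = 1 := by exact_mod_cast hc4
    rw [this, one_zpow, one_mul]
  have hk4 : 0 ≤ k % 4 ∧ k % 4 < 4 := ⟨Int.emod_nonneg _ (by norm_num), Int.emod_lt_of_pos _ (by norm_num)⟩
  have htriv : c = 1 → (∀ w ∈ Z, x * w * x⁻¹ = w) := by
    intro h1 w hw
    obtain ⟨j, hj⟩ := hpow w hw
    rw [← hj, h1]; simp
  have hcases : k % 4 = 0 ∨ k % 4 = 1 ∨ k % 4 = 2 ∨ k % 4 = 3 := by omega
  rcases hcases with h | h | h | h
  · left
    apply htriv
    rw [hkmod, h, zpow_zero] at hk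
    have : c = x⁻¹ * (x * c * x⁻¹) * x := by group
    rw [this, ← hk]; group
  · left
    intro w hw
    obtain ⟨j, hj⟩ := hpow w hw
    rw [hkmod, h, zpow_one] at hk
    rw [← hj, hconj, ← hk]
  · left
    apply htriv
    rw [hkmod, h] at hk
    have h2 : (x * c * x⁻¹) ^ (2 : ℤ) = 1 := by
      rw [← hk, ← zpow_mul]
      exact_mod_cast hc4
    rw [← hconj] at h2
    have hcc : c ^ (2 : ℤ) = 1 := by
      have : c ^ (2 : ℤ) = x⁻¹ * (x * c ^ (2 : ℤ) * x⁻¹) * x := by group
      rw [this, h2]; group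
    rw [hcc] at hk
    have : c = x⁻¹ * (x * c * x⁻¹) * x := by group
    rw [this, ← hk]; group
  · right
    intro w hw
    obtain ⟨j, hj⟩ := hpow w hw
    rw [hkmod, h] at hk
    have hinv : c ^ (3 : ℤ) = c⁻¹ := by
      have h1 : c ^ (3 : ℤ) * c = 1 := by
        have : c ^ (3 : ℤ) * c = c ^ (4 : ℤ) := by
          rw [show (4 : ℤ) = 3 + 1 by norm_num, zpow_add, zpow_one]
        rw [this]; exact_mod_cast hc4
      exact eq_inv_of_mul_eq_one_left h1
    rw [hinv] at hk
    rw [← hj, hconj, ← hk, inv_zpow]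

/-- In a 2-group of symplectic type and exponent dividing 4, every square is `1` or the central
involution `z`, and so is every central element of square `1`. -/
theorem symp4_sq [Finite T] (hS : Cfsg.IsOfSymplecticType T) (h4 : ∀ q : T, q ^ 4 = 1) (z : T)
    (hz : z ∈ Subgroup.center T) (hz1 : z ≠ 1) (hzz : z * z = 1) :
    (∀ x : T, x * x = 1 ∨ x * x = z) ∧ (∀ c ∈ Subgroup.center T, c * c = 1 → c = 1 ∨ c = z) := by
  classical
  -- the centre is cyclic
  have hZc : IsCyclic ↥(Subgroup.center T) := hS.2 (Subgroup.center T) inferInstance inferInstance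
  have hcen : ∀ c ∈ Subgroup.center T, c * c = 1 → c = 1 ∨ c = z := by
    intro c hc hcc
    by_cases h1 : c = 1
    · left; exact h1
    · right
      have := cyclic_invol_unique (A := ↥(Subgroup.center T)) (u := ⟨c, hc⟩) (v := ⟨z, hz⟩)
        (Subtype.ext hcc) (Subtype.ext hzz) (fun h => h1 (congrArg Subtype.val h))
        (fun h => hz1 (congrArg Subtype.val h))
      exact congrArg Subtype.val this
  refine ⟨?_, hcen⟩
  -- the subgroup of squares and its centre
  set N : Subgroup T := sqSub T with hN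
  set ZN : Subgroup T := N ⊓ Subgroup.centralizer (N : Set T) with hZN
  have hNchar : N.Characteristic := sqSub_characteristic
  have hZNchar : ZN.Characteristic := inferInstance
  have hZNcomm : IsMulCommutative ↥ZN := by
    rw [isMulCommutative_iff]
    intro a b
    apply Subtype.ext
    exact Subgroup.mem_centralizer_iff.mp b.2.2 a a.2.1
  have hZNc : IsCyclic ↥ZN := hS.2 ZN inferInstance hZNcomm
  have hZN4 : ∀ w ∈ ZN, w ^ 4 = 1 := fun w _ => h4 w
  -- `N` is abelian
  have hNab : N ≤ Subgroup.centralizer (N : Set T) := by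
    by_contra hnot
    have : Group.IsNilpotent T := hS.1.isNilpotent
    have hbar : N.map (QuotientGroup.mk' ZN) ≠ ⊥ := by
      intro h
      apply hnot
      intro n hn
      have : QuotientGroup.mk' ZN n ∈ N.map (QuotientGroup.mk' ZN) := ⟨n, hn, rfl⟩
      rw [h, Subgroup.mem_bot] at this
      have h2 : n ∈ ZN := (QuotientGroup.eq_one_iff n).mp this
      exact h2.2
    have : (N.map (QuotientGroup.mk' ZN)).Normal :=
      Subgroup.Normal.map inferInstance _ (QuotientGroup.mk'_surjective ZN)
    have hne := Cfsg.Agent.S0065.normal_inf_center_ne_bot (N.map (QuotientGroup.mk' ZN)) hbar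
    obtain ⟨⟨yb', hyb'⟩, hyb1⟩ := (Subgroup.ne_bot_iff_exists_ne_one).mp hne
    obtain ⟨y₀, hy₀N, hy₀⟩ := hyb'.1
    have hy₀Z : y₀ ∉ ZN := by
      intro h
      apply hyb1
      apply Subtype.ext
      show yb' = 1
      rw [← hy₀]
      exact (QuotientGroup.eq_one_iff y₀).mpr h
    have hy₀c : ∀ x : T, y₀⁻¹ * x⁻¹ * y₀ * x ∈ ZN := by
      intro x
      rw [← QuotientGroup.eq_one_iff]
      have hc := Subgroup.mem_center_iff.mp hyb'.2 (QuotientGroup.mk' ZN x)
      rw [← hy₀] at hc
      have : ((y₀⁻¹ * x⁻¹ * y₀ * x : T) : T ⧸ ZN) =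
          (QuotientGroup.mk' ZN y₀)⁻¹ * (QuotientGroup.mk' ZN x)⁻¹ * (QuotientGroup.mk' ZN y₀ * QuotientGroup.mk' ZN x) := by
        simp [mul_assoc]
      rw [this, ← hc]
      group
    -- choose `y` with `y * y ∈ ZN`
    obtain ⟨y, hyN, hyZ, hyc, hyy⟩ : ∃ y : T, y ∈ N ∧ y ∉ ZN ∧ (∀ x : T, y⁻¹ * x⁻¹ * y * x ∈ ZN) ∧
        y * y ∈ ZN := by
      by_cases hsq : y₀ * y₀ ∈ ZN
      · exact ⟨y₀, hy₀N, hy₀Z, hy₀c, hsq⟩
      · refine ⟨y₀ * y₀, N.mul_mem hy₀N hy₀N, hsq, ?_, ?_⟩
        · intro x
          have h1 := hy₀c x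
          have h2 : y₀⁻¹ * (y₀⁻¹ * x⁻¹ * y₀ * x) * y₀ ∈ ZN := by
            have := Subgroup.Normal.conj_mem (inferInstance : ZN.Normal) _ h1 y₀⁻¹
            simpa using this
          have : (y₀ * y₀)⁻¹ * x⁻¹ * (y₀ * y₀) * x =
              (y₀⁻¹ * (y₀⁻¹ * x⁻¹ * y₀ * x) * y₀) * (y₀⁻¹ * x⁻¹ * y₀ * x) := by group
          rw [this]
          exact ZN.mul_mem h2 h1
        · have : y₀ * y₀ * (y₀ * y₀) = y₀ ^ 4 := by
            simp only [pow_succ, pow_zero, one_mul, mul_assoc]
          rw [this, h4]; exact ZN.one_mem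
    apply hyZ
    refine ⟨hyN, ?_⟩
    -- every square commutes with `y`
    have hkey : ∀ x : T, (x * x) * y = y * (x * x) := by
      intro x
      have hd : y⁻¹ * x * y * x⁻¹ ∈ ZN := by
        have := hyc x⁻¹
        simpa using this
      set d := y⁻¹ * x * y * x⁻¹ with hd_def
      have hxy : x * y * x⁻¹ = y * d := by rw [hd_def]; group
      have hyd : y * d = d * y := (Subgroup.mem_centralizer_iff.mp hd.2 y hyN)
      have hgoal : x * (x * y * x⁻¹) * x⁻¹ = y := by
        rw [hxy]
        have e1 : x * (y * d) * x⁻¹ = (x * y * x⁻¹) * (x * d * x⁻¹) := by group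
        rw [e1, hxy]
        rcases conj_cyclic4 ZN hZNc hZN4 x with hall | hall
        · -- trivial action: use `y * y ∈ ZN`
          rw [hall d hd]
          have h2 := hall (y * y) hyy
          have e2 : x * (y * y) * x⁻¹ = (x * y * x⁻¹) * (x * y * x⁻¹) := by group
          rw [e2, hxy] at h2
          have e3 : y * d * (y * d) = y * y * (d * d) := by
            calc y * d * (y * d) = y * (d * y) * d := by group
              _ = y * (y * d) * d := by rw [hyd]
              _ = y * y * (d * d) := by group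
          rw [e3] at h2
          have hdd : d * d = 1 := mul_eq_left.mp h2
          calc y * d * d = y * (d * d) := by group
            _ = y := by rw [hdd, mul_one]
        · rw [hall d hd]; group
      calc (x * x) * y = (x * (x * y * x⁻¹) * x⁻¹) * (x * x) := by group
        _ = y * (x * x) := by rw [hgoal]
    have hle : N ≤ Subgroup.centralizer ({y} : Set T) := by
      rw [hN]
      unfold sqSub
      rw [Subgroup.closure_le]
      rintro _ ⟨x, rfl⟩
      show x * x ∈ Subgroup.centralizer ({y} : Set T)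
      rw [Subgroup.mem_centralizer_singleton_iff]
      exact hkey x
    show y ∈ Subgroup.centralizer (N : Set T)
    rw [Subgroup.mem_centralizer_iff]
    intro n hn
    exact Subgroup.mem_centralizer_singleton_iff.mp (hle hn)
  -- squares
  intro x
  by_cases h1 : x * x = 1
  · left; exact h1
  · right
    have hsZ : x * x ∈ ZN := ⟨sq_mem_sqSub x, hNab (sq_mem_sqSub x)⟩
    have hss : (x * x) * (x * x) = 1 := by
      have : (x * x) * (x * x) = x ^ 4 := by
        simp only [pow_succ, pow_zero, one_mul, mul_assoc]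
      rw [this, h4]
    have hcent : x * x ∈ Subgroup.center T := by
      rw [Subgroup.mem_center_iff]
      intro t
      have htZ : t * (x * x) * t⁻¹ ∈ ZN := Subgroup.Normal.conj_mem inferInstance _ hsZ t
      have ht2 : (t * (x * x) * t⁻¹) * (t * (x * x) * t⁻¹) = 1 := by
        calc (t * (x * x) * t⁻¹) * (t * (x * x) * t⁻¹) = t * ((x * x) * (x * x)) * t⁻¹ := by group
          _ = 1 := by rw [hss]; group
      have ht1 : t * (x * x) * t⁻¹ ≠ 1 := by
        intro h
        apply h1
        calc x * x = t⁻¹ * (t * (x * x) * t⁻¹) * t := by group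
          _ = 1 := by rw [h]; group
      have := cyclic_invol_unique (A := ↥ZN) (u := ⟨t * (x * x) * t⁻¹, htZ⟩) (v := ⟨x * x, hsZ⟩)
        (Subtype.ext ht2) (Subtype.ext hss) (fun h => ht1 (congrArg Subtype.val h))
        (fun h => h1 (congrArg Subtype.val h))
      have h3 : t * (x * x) * t⁻¹ = x * x := congrArg Subtype.val this
      calc t * (x * x) = (t * (x * x) * t⁻¹) * t := by group
        _ = x * x * t := by rw [h3]
    rcases hcen _ hcent hss with h | h
    · exact absurd h h1
    · exact h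

end Symp4

end Cfsg.Agent.Lib.helper14
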