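import Mathlib
import Cfsg.Prelude.Def_ClassificationK
import Cfsg.Prelude.Def_Local
import Cfsg.Agent.Lib.helper14.Symp4
import Cfsg.Agent.Lib.helper14.LES11
import Cfsg.Agent.Lib.helper14.LES8
import Cfsg.Agent.Lib.helper7.FStar

set_option autoImplicit false

namespace Cfsg.Agent.Lib.helper14

open Cfsg.Agent.Lib.helper8

universe u

section Symp4Main

variable {G : Type u} [Group G]

theorem four_mem (z a : G) (hz2 : z * z = 1) (ha2 : a * a = 1) (hcomm : a * z = z * a) (x : G) :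
    x ∈ Subgroup.closure ({z, a} : Set G) ↔ x = 1 ∨ x = z ∨ x = a ∨ x = z * a := by
  have h0 : ({z, a} : Set G) = {z} ∪ {a} := Set.insert_eq z {a}
  rw [h0, Subgroup.closure_union, ← Subgroup.zpowers_eq_closure,
    ← Subgroup.zpowers_eq_closure]
  have hn : Subgroup.zpowers a ≤ Subgroup.normalizer (Subgroup.zpowers z : Set G) := by
    rw [Subgroup.zpowers_le]
    apply Subgroup.centralizer_le_normalizer
    rw [Subgroup.mem_centralizer_iff]
    intro t ht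
    rcases (mem_zpowers_of_sq hz2 t).mp ht with h | h
    · rw [h]; simp
    · rw [h]; exact hcomm.symm
  rw [mem_sup_iff_of_le_normalizer hn]
  constructor
  · rintro ⟨n, hn', b, hb, hx⟩
    rcases (mem_zpowers_of_sq hz2 n).mp hn' with h1 | h1 <;>
      rcases (mem_zpowers_of_sq ha2 b).mp hb with h2 | h2
    · left; rw [hx, h1, h2, mul_one]
    · right; right; left; rw [hx, h1, h2, one_mul]
    · right; left; rw [hx, h1, h2, mul_one]
    · right; right; right; rw [hx, h1, h2]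
  · rintro (h | h | h | h)
    · exact ⟨1, Subgroup.one_mem _, 1, Subgroup.one_mem _, by rw [h, mul_one]⟩
    · exact ⟨z, Subgroup.mem_zpowers z, 1, Subgroup.one_mem _, by rw [h, mul_one]⟩
    · exact ⟨1, Subgroup.one_mem _, a, Subgroup.mem_zpowers a, by rw [h, one_mul]⟩
    · exact ⟨z, Subgroup.mem_zpowers z, a, Subgroup.mem_zpowers a, h⟩

theorem es4_of_symp [Finite G] (z : G) (hz : orderOf z = 2)
    (hQ : Cfsg.IsOfSymplecticType
      ↥(Cfsg.generalizedFittingSubgroup ↥(Subgroup.centralizer ({z} : Set G))))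
    (h4 : ∀ q ∈ (Cfsg.generalizedFittingSubgroup ↥(Subgroup.centralizer ({z} : Set G))).map
      (Subgroup.centralizer ({z} : Set G)).subtype, q ^ 4 = 1) :
    ES4 ((Cfsg.generalizedFittingSubgroup ↥(Subgroup.centralizer ({z} : Set G))).map
      (Subgroup.centralizer ({z} : Set G)).subtype) z := by
  classical
  obtain ⟨C, hC⟩ : ∃ C : Subgroup G, C = Subgroup.centralizer ({z} : Set G) := ⟨_, rfl⟩
  rw [← hC] at hQ h4 ⊢
  obtain ⟨F, hF⟩ : ∃ F : Subgroup ↥C, F = Cfsg.generalizedFittingSubgroup ↥C := ⟨_, rfl⟩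
  rw [← hF] at hQ h4 ⊢
  have hz1 : z ≠ 1 := by
    intro h; rw [h, orderOf_one] at hz; norm_num at hz
  have hzz : z * z = 1 := by
    have := pow_orderOf_eq_one z; rw [hz, pow_two] at this; exact this
  have hmC : ∀ x : G, x ∈ C ↔ x * z = z * x := by
    intro x; rw [hC]; exact Subgroup.mem_centralizer_singleton_iff
  have hzC : z ∈ C := (hmC z).mpr rfl
  have hself : ∀ c : ↥C, (∀ f ∈ F, f * c = c * f) → c ∈ F := by
    intro c hc
    rw [hF]
    apply Cfsg.Agent.Lib.helper7.centralizer_genFitting_le ↥C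
    rw [Subgroup.mem_centralizer_iff, ← hF]
    exact hc
  have hzF : (⟨z, hzC⟩ : ↥C) ∈ F := by
    apply hself
    intro f _
    apply Subtype.ext
    exact (hmC f.1).mp f.2
  have hmQ : ∀ x : G, x ∈ F.map C.subtype ↔ ∃ hx : x ∈ C, (⟨x, hx⟩ : ↥C) ∈ F := by
    intro x
    constructor
    · rintro ⟨f, hf, rfl⟩
      exact ⟨f.2, hf⟩
    · rintro ⟨hx, hf⟩
      exact ⟨⟨x, hx⟩, hf, rfl⟩
  have h4' : ∀ q : ↥F, q ^ 4 = 1 := by
    intro q
    apply Subtype.ext; apply Subtype.ext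
    have := h4 ((q : ↥C) : G) ((hmQ _).mpr ⟨q.1.2, q.2⟩)
    simpa using this
  have hzcen : (⟨⟨z, hzC⟩, hzF⟩ : ↥F) ∈ Subgroup.center ↥F := by
    rw [Subgroup.mem_center_iff]
    intro f
    apply Subtype.ext; apply Subtype.ext
    exact (hmC f.1.1).mp f.1.2
  obtain ⟨hsq, hcen⟩ := symp4_sq hQ h4' ⟨⟨z, hzC⟩, hzF⟩ hzcen
    (by intro h; exact hz1 (congrArg (fun t : ↥F => ((t : ↥C) : G)) h))
    (by apply Subtype.ext; apply Subtype.ext; exact hzz)
  have hsqs : ∀ x ∈ F.map C.subtype, x * x = 1 ∨ x * x = z := by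
    intro x hx
    obtain ⟨hxC, hxF⟩ := (hmQ x).mp hx
    rcases hsq ⟨⟨x, hxC⟩, hxF⟩ with e | e
    · left; exact congrArg (fun t : ↥F => ((t : ↥C) : G)) e
    · right; exact congrArg (fun t : ↥F => ((t : ↥C) : G)) e
  refine ⟨(hmQ z).mpr ⟨hzC, hzF⟩, hz1, hzz, ?_, ?_, hsqs, ?_, ?_, ?_⟩
  · intro x hx
    obtain ⟨hxC, _⟩ := (hmQ x).mp hx
    exact (hmC x).mp hxC
  · intro x hx y hy
    have e : x * y * x⁻¹ * y⁻¹ = (x * x) * ((x⁻¹ * y) * (x⁻¹ * y)) * (y⁻¹ * y⁻¹) := by group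
    rw [e]
    have h1 := hsqs x hx
    have h2 := hsqs (x⁻¹ * y) (Subgroup.mul_mem _ (Subgroup.inv_mem _ hx) hy)
    have h3 := hsqs y⁻¹ (Subgroup.inv_mem _ hy)
    rcases h1 with h1 | h1 <;> rcases h2 with h2 | h2 <;> rcases h3 with h3 | h3 <;>
      rw [h1, h2, h3] <;> simp [hzz]
  · intro x hx hc hxx
    obtain ⟨hxC, hxF⟩ := (hmQ x).mp hx
    have hxcen : (⟨⟨x, hxC⟩, hxF⟩ : ↥F) ∈ Subgroup.center ↥F := by
      rw [Subgroup.mem_center_iff]
      intro f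
      apply Subtype.ext; apply Subtype.ext
      exact hc f.1.1 ((hmQ _).mpr ⟨f.1.2, f.2⟩)
    rcases hcen _ hxcen (by apply Subtype.ext; apply Subtype.ext; exact hxx) with e | e
    · left; exact congrArg (fun t : ↥F => ((t : ↥C) : G)) e
    · right; exact congrArg (fun t : ↥F => ((t : ↥C) : G)) e
  · intro h hh
    have hhC : h ∈ C := (hmC h).mpr (hh z ((hmQ z).mpr ⟨hzC, hzF⟩))
    refine (hmQ h).mpr ⟨hhC, hself _ ?_⟩
    intro f hf
    apply Subtype.ext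
    exact (hh f.1 ((hmQ _).mpr ⟨f.2, hf⟩)).symm
  · intro h hh y hy
    have hhC : h ∈ C := (hmC h).mpr hh
    obtain ⟨hyC, hyF⟩ := (hmQ y).mp hy
    have hn : F.Normal := by rw [hF]; exact Cfsg.Agent.Lib.helper7.genFitting_normal ↥C
    have : (⟨h, hhC⟩ : ↥C) * ⟨y, hyC⟩ * (⟨h, hhC⟩ : ↥C)⁻¹ ∈ F := hn.conj_mem _ hyF _
    exact (hmQ _).mpr ⟨_, this⟩

theorem s1774_core {Q : Subgroup G} {z : G} (hE : ES4 Q z) (g : G) (hne : g * z * g⁻¹ ≠ z)
    (hin : g * z * g⁻¹ ∈ Q) :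
    z ∈ Q.map (MulAut.conj g).toMonoidHom ∧
      ∀ u ∈ Subgroup.closure ({z, g * z * g⁻¹} : Set G),
        ∀ v ∈ Subgroup.closure ({z, g * z * g⁻¹} : Set G),
        u ≠ 1 → v ≠ 1 → u ≠ v →
          ∃ x ∈ Q ⊔ Q.map (MulAut.conj g).toMonoidHom,
            x * z * x⁻¹ = u ∧ x * (g * z * g⁻¹) * x⁻¹ = v := by
  obtain ⟨a, ha_def⟩ : ∃ a : G, a = g * z * g⁻¹ := ⟨_, rfl⟩
  rw [← ha_def] at hne hin ⊢
  obtain ⟨P, hP_def⟩ : ∃ P : Subgroup G, P = Q.map (MulAut.conj g).toMonoidHom := ⟨_, rfl⟩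
  have hP : ES4 P a := by rw [hP_def, ha_def]; exact hE.conj g
  have hzP : z ∈ P := by rw [hP_def]; exact les4_sym hE g (by rw [← ha_def]; exact hin)
  rw [← hP_def]
  refine ⟨hzP, ?_⟩
  have hzz := hE.sq
  have haa := hP.sq
  have hz1 := hE.ne
  have ha1 := hP.ne
  have hcomm : a * z = z * a := hE.cen a hin
  obtain ⟨v₀, hv₀Q, hv₀⟩ := hE.exists_v hin haa ha1 hne
  obtain ⟨w, hwP, hw⟩ := hP.exists_v hzP hzz hz1 (Ne.symm hne)
  have hv₀z : v₀ * z * v₀⁻¹ = z := by rw [hE.cen v₀ hv₀Q]; group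
  have hwa : w * a * w⁻¹ = a := by rw [hP.cen w hwP]; group
  have hv₀X : v₀ ∈ Q ⊔ P := (le_sup_left : Q ≤ Q ⊔ P) hv₀Q
  have hwX : w ∈ Q ⊔ P := (le_sup_right : P ≤ Q ⊔ P) hwP
  have hv₀za : v₀ * (z * a) * v₀⁻¹ = a := by
    calc v₀ * (z * a) * v₀⁻¹ = (v₀ * z * v₀⁻¹) * (v₀ * a * v₀⁻¹) := by group
      _ = z * (z * a) := by rw [hv₀z, hv₀]
      _ = a := by rw [← mul_assoc, hzz, one_mul]
  have hw' : w * z * w⁻¹ = z * a := by rw [hw, hcomm]
  have hwza : w * (z * a) * w⁻¹ = z := by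
    calc w * (z * a) * w⁻¹ = (w * z * w⁻¹) * (w * a * w⁻¹) := by group
      _ = (z * a) * a := by rw [hw', hwa]
      _ = z * (a * a) := by group
      _ = z := by rw [haa, mul_one]
  intro u hu v hv hu1 hv1 huv
  rw [four_mem z a hzz haa hcomm] at hu hv
  rcases hu with h | h | h | h
  · exact absurd h hu1
  · rcases hv with h' | h' | h' | h'
    · exact absurd h' hv1
    · exact absurd (h.trans h'.symm) huv
    · refine ⟨1, Subgroup.one_mem _, ?_, ?_⟩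
      · rw [h]; group
      · rw [h']; group
    · exact ⟨v₀, hv₀X, by rw [h, hv₀z], by rw [h', hv₀]⟩
  · rcases hv with h' | h' | h' | h'
    · exact absurd h' hv1
    · refine ⟨w * v₀ * w, Subgroup.mul_mem _ (Subgroup.mul_mem _ hwX hv₀X) hwX, ?_, ?_⟩
      · rw [h]
        calc w * v₀ * w * z * (w * v₀ * w)⁻¹ = w * (v₀ * (w * z * w⁻¹) * v₀⁻¹) * w⁻¹ := by group
          _ = a := by rw [hw', hv₀za, hwa]
      · rw [h']
        calc w * v₀ * w * a * (w * v₀ * w)⁻¹ = w * (v₀ * (w * a * w⁻¹) * v₀⁻¹) * w⁻¹ := by group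
          _ = z := by rw [hwa, hv₀, hwza]
    · exact absurd (h.trans h'.symm) huv
    · refine ⟨v₀ * w, Subgroup.mul_mem _ hv₀X hwX, ?_, ?_⟩
      · rw [h]
        calc v₀ * w * z * (v₀ * w)⁻¹ = v₀ * (w * z * w⁻¹) * v₀⁻¹ := by group
          _ = a := by rw [hw', hv₀za]
      · rw [h']
        calc v₀ * w * a * (v₀ * w)⁻¹ = v₀ * (w * a * w⁻¹) * v₀⁻¹ := by group
          _ = z * a := by rw [hwa, hv₀]
  · rcases hv with h' | h' | h' | h'
    · exact absurd h' hv1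
    · refine ⟨w * v₀, Subgroup.mul_mem _ hwX hv₀X, ?_, ?_⟩
      · rw [h]
        calc w * v₀ * z * (w * v₀)⁻¹ = w * (v₀ * z * v₀⁻¹) * w⁻¹ := by group
          _ = z * a := by rw [hv₀z, hw']
      · rw [h']
        calc w * v₀ * a * (w * v₀)⁻¹ = w * (v₀ * a * v₀⁻¹) * w⁻¹ := by group
          _ = z := by rw [hv₀, hwza]
    · exact ⟨w, hwX, by rw [h, hw'], by rw [h', hwa]⟩
    · exact absurd (h.trans h'.symm) huv

end Symp4Main

end Cfsg.Agent.Lib.helper14
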