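import Mathlib
import Cfsg.Prelude.Def_Transfer
import Cfsg.Prelude.Def_CaseTheorems
import Cfsg.Prelude.Def_PLocal
import Cfsg.Agent.Lib.helper1.SelfCent
import Cfsg.Agent.Lib.helper14.Symp1
import Cfsg.Agent.Lib.helper14.Symp2
import Cfsg.Agent.Lib.helper14.Symp3

set_option autoImplicit false

namespace Cfsg.Agent.Lib.helper14

open Cfsg

lemma symp_QD_top {G : Type*} [Group G] (h : Cfsg.IsQuasiDihedral G) :
    Cfsg.IsQuasiDihedral ↥(⊤ : Subgroup G) := by
  obtain ⟨n, hn, hcard, x, y, hx, hy, hxy⟩ := h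
  refine ⟨n, hn, by rw [Subgroup.card_top]; exact hcard, ⟨x, Subgroup.mem_top x⟩,
    ⟨y, Subgroup.mem_top y⟩, ?_, ?_, ?_⟩
  · rw [← hx]; exact Subgroup.orderOf_mk x _
  · rw [← hy]; exact Subgroup.orderOf_mk y _
  · apply Subtype.ext
    simpa using hxy

section main

variable {G : Type*} [Group G] [Finite G] {p : ℕ} [Fact p.Prime]

lemma symp_case1 (hG : IsPGroup p G)
    (hsymp : ∀ A : Subgroup G, A.Characteristic → IsMulCommutative A → IsCyclic A)
    (A : Subgroup G) (hAchar : A.Characteristic) (hAcyc : IsCyclic A)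
    (hCA : Subgroup.centralizer (A : Set G) = A) :
    ∃ E R : Subgroup G, (∀ e ∈ E, ∀ r ∈ R, e * r = r * e) ∧ E ⊔ R = ⊤ ∧
      (E = ⊥ ∨ Cfsg.IsExtraspecial p ↥E) ∧
      (IsCyclic R ∨ (p = 2 ∧ 16 ≤ Nat.card R ∧
        ((∃ m, Nonempty (↥R ≃* DihedralGroup m)) ∨ (∃ m, Nonempty (↥R ≃* QuaternionGroup m)) ∨
          Cfsg.IsQuasiDihedral ↥R))) := by
  classical
  have hpp : p.Prime := Fact.out
  have hAN : A.Normal := symp_char_normal hAchar
  by_cases hab : IsMulCommutative G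
  · have hAtop : A = ⊤ := by
      rw [← hCA, Subgroup.centralizer_eq_top_iff_subset]
      intro a _
      rw [SetLike.mem_coe, Subgroup.mem_center_iff]
      intro g
      exact mul_comm' g a
    refine ⟨⊥, ⊤, ?_, by simp, Or.inl rfl, Or.inl ?_⟩
    · intro e he r _
      rw [Subgroup.mem_bot.mp he]
      simp
    · rw [← hAtop]
      exact hAcyc
  · obtain ⟨n, hn⟩ := IsPGroup.iff_card.mp (hG.to_subgroup A)
    have hna : ∃ x y : G, x * y ≠ y * x := by
      by_contra h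
      push_neg at h
      exact hab ⟨⟨h⟩⟩
    rcases Cfsg.Agent.Lib.helper1.pgroup_cyclic_self_centralizing hG hab A hAcyc n hn hCA with
      ⟨hp2, hcard, hiso⟩ | ⟨-, hEA, hcardW, hWchar⟩
    · by_cases h16 : 16 ≤ Nat.card G
      · refine ⟨⊥, ⊤, ?_, by simp, Or.inl rfl, Or.inr ⟨hp2, ?_, ?_⟩⟩
        · intro e he r _
          rw [Subgroup.mem_bot.mp he]
          simp
        · rw [Subgroup.card_top]
          exact h16
        · rcases hiso with ⟨m, ⟨e⟩⟩ | ⟨m, ⟨e⟩⟩ | hQD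
          · exact Or.inl ⟨m, ⟨Subgroup.topEquiv.trans e⟩⟩
          · exact Or.inr (Or.inl ⟨m, ⟨Subgroup.topEquiv.trans e⟩⟩)
          · exact Or.inr (Or.inr (symp_QD_top hQD))
      · obtain ⟨j, hj3, hj⟩ := symp_card_ge_cube hG hna
        have hj' : j = 3 := by
          rw [hp2] at hj
          have h4 : j < 4 := by
            by_contra hge
            have : 2 ^ 4 ≤ 2 ^ j := Nat.pow_le_pow_right (by norm_num) (by omega)
            omega
          omega
        have hcard3 : Nat.card ↥(⊤ : Subgroup G) = p ^ 3 := by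
          rw [Subgroup.card_top, hj, hj']
        have hES : Cfsg.IsExtraspecial p ↥(⊤ : Subgroup G) :=
          symp_extraspecial_of_card_cube hcard3 (by
            obtain ⟨x, y, hxy⟩ := hna
            exact ⟨⟨x, Subgroup.mem_top x⟩, ⟨y, Subgroup.mem_top y⟩,
              fun h => hxy (congrArg Subtype.val h)⟩)
        refine ⟨⊤, ⊥, ?_, by simp, Or.inr hES, Or.inl inferInstance⟩
        intro e _ r hr
        rw [Subgroup.mem_bot.mp hr]
        simp
    · exfalso
      have hWcyc := hsymp _ hWchar hEA.1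
      have hdvd := symp_card_dvd_of_pow le_rfl hWcyc hEA.2
      rw [hcardW] at hdvd
      have h1 := Nat.le_of_dvd hpp.pos hdvd
      have h2 := hpp.one_lt
      nlinarith

theorem symp_main (hG : IsPGroup p G)
    (hsymp : ∀ A : Subgroup G, A.Characteristic → IsMulCommutative A → IsCyclic A) :
    ∃ E R : Subgroup G, (∀ e ∈ E, ∀ r ∈ R, e * r = r * e) ∧ E ⊔ R = ⊤ ∧
      (E = ⊥ ∨ Cfsg.IsExtraspecial p ↥E) ∧
      (IsCyclic R ∨ (p = 2 ∧ 16 ≤ Nat.card R ∧
        ((∃ m, Nonempty (↥R ≃* DihedralGroup m)) ∨ (∃ m, Nonempty (↥R ≃* QuaternionGroup m)) ∨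
          Cfsg.IsQuasiDihedral ↥R))) := by
  classical
  have hpp : p.Prime := Fact.out
  let S : Set (Subgroup G) := {B | B.Characteristic ∧ ∀ a ∈ B, ∀ b ∈ B, a * b = b * a}
  have hSne : S.Nonempty := ⟨⊥, Subgroup.botCharacteristic, fun a ha b hb => by
    rw [Subgroup.mem_bot.mp ha, Subgroup.mem_bot.mp hb]⟩
  obtain ⟨A, ⟨hAchar, hAab⟩, hAmax⟩ :=
    Set.exists_max_image S (fun B => Nat.card B) (Set.toFinite S) hSne
  have hmax : ∀ B : Subgroup G, B.Characteristic → (∀ a ∈ B, ∀ b ∈ B, a * b = b * a) →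
      Nat.card B ≤ Nat.card A := fun B h1 h2 => hAmax B ⟨h1, h2⟩
  have hAcyc : IsCyclic A := hsymp A hAchar ⟨⟨fun a b => Subtype.ext (hAab a a.2 b b.2)⟩⟩
  have hAN : A.Normal := symp_char_normal hAchar
  have hAcen : A ≤ Subgroup.centralizer (A : Set G) := fun a ha b hb => hAab b hb a ha
  by_cases hCA : Subgroup.centralizer (A : Set G) ≤ A
  · exact symp_case1 hG hsymp A hAchar hAcyc (le_antisymm hCA hAcen)
  obtain ⟨C, hCchar, hAC, hCcenA, hcenC, hCneA, hCpow, hCcomm⟩ :=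
    symp_exists_C hG A hAchar hAab hmax hCA
  have hZ1char : (sympOmega p A hAab).Characteristic := sympOmega_char hAchar
  have hZ1N : (sympOmega p A hAab).Normal := symp_char_normal hZ1char
  have hZ1A : sympOmega p A hAab ≤ A := sympOmega_le
  have hAne : ∃ a ∈ A, a ≠ 1 := by
    by_contra hcon
    push_neg at hcon
    have hAbot : A = ⊥ := (Subgroup.eq_bot_iff_forall _).mpr hcon
    have hnt : Nontrivial G := by
      by_contra hnt
      rw [not_nontrivial_iff_subsingleton] at hnt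
      apply hCA
      intro x _
      rw [Subsingleton.elim x 1]
      exact A.one_mem
    have hcn := hG.center_nontrivial
    have h1 : Nat.card (Subgroup.center G) ≤ Nat.card A :=
      hmax _ Subgroup.centerCharacteristic (fun a ha b _ => (Subgroup.mem_center_iff.mp ha b).symm)
    rw [hAbot, Subgroup.card_bot] at h1
    have h2 : Nat.card (Subgroup.center G) = 1 := le_antisymm h1 Nat.card_pos
    exact (Subgroup.nontrivial_iff_ne_bot _).mp hcn (Subgroup.card_eq_one.mp h2)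
  have hZ1card : Nat.card (sympOmega p A hAab) = p := by
    have hdvd : Nat.card (sympOmega p A hAab) ∣ p := sympOmega_card_dvd hAcyc
    obtain ⟨a, ha, ha1⟩ := hAne
    obtain ⟨m, hm1, hmp⟩ := symp_exists_order_p hG ha1
    have hne : Nat.card (sympOmega p A hAab) ≠ 1 := by
      intro h
      have hbot := Subgroup.card_eq_one.mp h
      have hmem : a ^ m ∈ sympOmega p A hAab := ⟨A.pow_mem ha m, hmp⟩
      rw [hbot, Subgroup.mem_bot] at hmem
      exact hm1 hmem
    exact ((Nat.dvd_prime hpp).mp hdvd).resolve_left hne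
  have hZ1cenG : sympOmega p A hAab ≤ Subgroup.center G :=
    symp_central_of_card_prime hG _ hZ1card
  have hZ1cen : ∀ z ∈ sympOmega p A hAab, ∀ g : G, g * z = z * g :=
    fun z hz g => Subgroup.mem_center_iff.mp (hZ1cenG hz) g
  set Z1 : Subgroup G := sympOmega p A hAab with hZ1def
  have hpowZ1 : ∀ a ∈ A, a ^ p = 1 → a ∈ Z1 := fun a ha h => ⟨ha, h⟩
  have hcommZ1 : ∀ x ∈ C, ∀ y ∈ C, x * y * x⁻¹ * y⁻¹ ∈ Z1 := by
    intro x hx y hy
    have hu : x * y * x⁻¹ * y⁻¹ ∈ A := hCcomm y hy x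
    refine ⟨hu, symp_comm_pow p ?_ ?_⟩
    · exact hCcenA hy _ hu
    · exact (hCcenA hx _ (hCpow y hy)).symm
  have hC6 : (∃ a ∈ A, a ^ p ≠ 1) → ∀ c ∈ C, ∃ z ∈ A, c ^ p = z ^ p := by
    rintro ⟨a, ha, hap⟩ c hc
    obtain ⟨z, hz, hzp⟩ := symp_pow_structure hG hsymp C hCchar
      (fun x hx => by rw [hcenC]; exact hCpow x hx)
      (fun x hx y hy => ⟨by rw [hcenC]; exact hZ1A (hcommZ1 x hx y hy), (hcommZ1 x hx y hy).2⟩)
      ⟨a, ⟨hAC ha, by rw [hcenC]; exact ha⟩, hap⟩ c hc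
    exact ⟨z, by have := hz.2; rwa [hcenC] at this, hzp⟩
  obtain ⟨E, hEC, hZ1E, hEA, hCEA⟩ :=
    symp_exists_E A C Z1 hZ1A hZ1cen hAC hCcenA hcommZ1 hpowZ1 hC6
  have hEcenA : ∀ e ∈ E, ∀ a ∈ A, e * a = a * e := fun e he a ha => (hCcenA (hEC he) a ha).symm
  have hcommE : ∀ x ∈ E, ∀ y ∈ E, x * y * x⁻¹ * y⁻¹ ∈ Z1 :=
    fun x hx y hy => hcommZ1 x (hEC hx) y (hEC hy)
  have hpowE : ∀ x ∈ E, x ^ p ∈ Z1 := fun x hx => hEA ⟨E.pow_mem hx p, hCpow x (hEC hx)⟩
  have hkey : ∀ x : G, (∀ e ∈ E, x * e = e * x) → (∀ a ∈ A, x * a = a * x) → x ∈ A := by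
    intro x hxE hxA
    rw [← hcenC]
    intro c hc
    obtain ⟨e, he, a, ha, rfl⟩ := hCEA c hc
    calc e * a * x = e * (a * x) := mul_assoc _ _ _
      _ = e * (x * a) := by rw [hxA a ha]
      _ = (e * x) * a := (mul_assoc _ _ _).symm
      _ = (x * e) * a := by rw [hxE e he]
      _ = x * (e * a) := mul_assoc _ _ _
  have hEcen : ∀ x ∈ E, (∀ y ∈ E, x * y = y * x) → x ∈ Z1 :=
    fun x hx h => hEA ⟨hx, hkey x h (hEcenA x hx)⟩
  have hEna : ∃ x ∈ E, ∃ y ∈ E, x * y ≠ y * x := by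
    by_contra hcon
    push_neg at hcon
    apply hCneA
    intro c hc
    obtain ⟨e, he, a, ha, rfl⟩ := hCEA c hc
    exact A.mul_mem (hZ1A (hEcen e he (hcon e he))) ha
  have hEes : Cfsg.IsExtraspecial p ↥E :=
    symp_E_extraspecial hG E Z1 hZ1card hZ1E hZ1cen hcommE hpowE hEcen hEna
  have hGE : ∀ g : G, ∀ x ∈ E, g * x * g⁻¹ * x⁻¹ ∈ Z1 := by
    intro g x hx
    have hu : g * x * g⁻¹ * x⁻¹ ∈ A := hCcomm x (hEC hx) g
    refine ⟨hu, symp_comm_pow p ?_ ?_⟩
    · exact hCcenA (hEC hx) _ hu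
    · exact hZ1cen _ (hpowE x hx) g
  have hEN : E.Normal := ⟨fun e he g => by
    have h1 : g * e * g⁻¹ = (g * e * g⁻¹ * e⁻¹) * e := by group
    rw [h1]
    exact E.mul_mem (hZ1E (hGE g e he)) he⟩
  have hRN : (Subgroup.centralizer (E : Set G)).Normal := inferInstance
  set R : Subgroup G := Subgroup.centralizer (E : Set G) with hRdef
  have hER : ∀ e ∈ E, ∀ r ∈ R, e * r = r * e := fun e he r hr => hr e he
  have hAR : A ≤ R := fun a ha e he => hEcenA e he a ha
  have hZ1R : Z1 ≤ R := hZ1A.trans hAR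
  have hinf : E ⊓ R = Z1 := by
    apply le_antisymm
    · rintro x ⟨hxE, hxR⟩
      exact hEcen x hxE (fun y hy => (hxR y hy).symm)
    · exact le_inf hZ1E hZ1R
  have hsup : E ⊔ R = ⊤ := by
    have h1 := symp_idx hG ⊤ Z1 Z1 hZ1card.le (fun a ha b _ => (hZ1cen a ha b).symm)
      (fun y _ z hz => hZ1cen z hz y) (fun y _ z hz => hZ1cen z hz y) (Nat.card E) E le_rfl hZ1E
      (fun y _ h hh => hGE y h hh)
    have h2 := symp_card_sup E R
    rw [hinf, hZ1card] at h2
    rw [top_inf_eq, Subgroup.card_top, hZ1card] at h1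
    have h3 : Nat.card G ≤ Nat.card ↥(E ⊔ R) := by
      have : Nat.card G * p ≤ Nat.card ↥(E ⊔ R) * p := by rw [h2]; exact h1
      exact Nat.le_of_mul_le_mul_right this hpp.pos
    exact Subgroup.eq_top_of_le_card _ h3
  have hG' : ∀ g : G, ∃ e ∈ E, ∃ r ∈ R, g = e * r := by
    intro g
    have hg : g ∈ E ⊔ R := hsup ▸ Subgroup.mem_top g
    obtain ⟨e, he, r, hr, h⟩ := Subgroup.mem_sup_of_normal_right.mp hg
    exact ⟨e, he, r, hr, h.symm⟩
  have hRA : ∀ x ∈ R, (∀ a ∈ A, x * a = a * x) → x ∈ A :=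
    fun x hx h => hkey x (fun e he => (hx e he).symm) h
  have hcenAC : Subgroup.centralizer (A : Set G) ≤ C := by
    intro x hx
    obtain ⟨e, he, r, hr, rfl⟩ := hG' x
    have hrA : r ∈ A := by
      apply hRA r hr
      intro a ha
      have h1 : a * (e * r) = e * r * a := hx a ha
      have h2 : e * a = a * e := hEcenA e he a ha
      calc r * a = e⁻¹ * (e * r * a) := by group
        _ = e⁻¹ * (a * (e * r)) := by rw [h1]
        _ = e⁻¹ * (a * e) * r := by group
        _ = e⁻¹ * (e * a) * r := by rw [h2]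
        _ = a * r := by group
    exact C.mul_mem (hEC he) (hAC hrA)
  by_cases hRab : ∀ x ∈ R, ∀ y ∈ R, x * y = y * x
  · have hRA' : R = A :=
      le_antisymm (fun x hx => hRA x hx (fun a ha => hRab x hx a (hAR ha))) hAR
    exact ⟨E, R, hER, hsup, Or.inr hEes, Or.inl (hRA' ▸ hAcyc)⟩
  push_neg at hRab
  have hP9 : Nat.card R = p ^ 3 → ∃ E R : Subgroup G, (∀ e ∈ E, ∀ r ∈ R, e * r = r * e) ∧
      E ⊔ R = ⊤ ∧ (E = ⊥ ∨ Cfsg.IsExtraspecial p ↥E) ∧
      (IsCyclic R ∨ (p = 2 ∧ 16 ≤ Nat.card R ∧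
        ((∃ m, Nonempty (↥R ≃* DihedralGroup m)) ∨ (∃ m, Nonempty (↥R ≃* QuaternionGroup m)) ∨
          Cfsg.IsQuasiDihedral ↥R))) := by
    intro hR3
    have hes := symp_P9 hG E R Z1 hZ1card hZ1cen hZ1R hER hG'
      (fun x hx => Subgroup.mem_centralizer_iff.mpr (fun e he => (hx e he).symm))
      hcommE hpowE hR3 hRab
    refine ⟨⊤, ⊥, ?_, by simp, Or.inr hes, Or.inl inferInstance⟩
    intro e _ r hr
    rw [Subgroup.mem_bot.mp hr]
    simp
  have hUN : (A.subgroupOf R).Normal := inferInstance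
  have hUequiv : ↥(A.subgroupOf R) ≃* ↥A := Subgroup.subgroupOfEquivOfLe hAR
  have hUcyc : IsCyclic ↥(A.subgroupOf R) :=
    isCyclic_of_surjective hUequiv.symm.toMonoidHom hUequiv.symm.surjective
  obtain ⟨n, hn⟩ := IsPGroup.iff_card.mp (hG.to_subgroup A)
  have hUcard : Nat.card ↥(A.subgroupOf R) = p ^ n := by
    rw [Nat.card_congr hUequiv.toEquiv, hn]
  have hUcen : Subgroup.centralizer ((A.subgroupOf R : Subgroup ↥R) : Set ↥R) = A.subgroupOf R := by
    apply le_antisymm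
    · intro x hx
      rw [Subgroup.mem_subgroupOf]
      apply hRA x x.2
      intro a ha
      have := hx ⟨a, hAR ha⟩ (Subgroup.mem_subgroupOf.mpr ha)
      exact (congrArg Subtype.val this).symm
    · intro x hx y hy
      apply Subtype.ext
      exact hAab _ (Subgroup.mem_subgroupOf.mp hy) _ (Subgroup.mem_subgroupOf.mp hx)
  have hRna : ¬ IsMulCommutative ↥R := by
    rintro ⟨⟨h⟩⟩
    obtain ⟨x, hx, y, hy, hxy⟩ := hRab
    exact hxy (congrArg Subtype.val (h ⟨x, hx⟩ ⟨y, hy⟩))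
  have hRp : IsPGroup p ↥R := hG.to_subgroup R
  obtain ⟨j, hj3, hj⟩ := symp_card_ge_cube hRp (by
    obtain ⟨x, hx, y, hy, hxy⟩ := hRab
    exact ⟨⟨x, hx⟩, ⟨y, hy⟩, fun h => hxy (congrArg Subtype.val h)⟩)
  rcases Cfsg.Agent.Lib.helper1.pgroup_cyclic_self_centralizing hRp hRna (A.subgroupOf R) hUcyc n
    hUcard hUcen with ⟨hp2, hcard, hiso⟩ | ⟨hrel, -, -, -⟩
  · by_cases h16 : 16 ≤ Nat.card R
    · exact ⟨E, R, hER, hsup, Or.inr hEes, Or.inr ⟨hp2, h16, hiso⟩⟩
    · apply hP9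
      have hj' : j = 3 := by
        rw [hp2] at hj
        have h4 : j < 4 := by
          by_contra hge
          have : 2 ^ 4 ≤ 2 ^ j := Nat.pow_le_pow_right (by norm_num) (by omega)
          omega
        omega
      rw [hj, hj']
  · by_cases hsmall : ∀ a ∈ A, (a ^ p) ^ p = 1
    · apply hP9
      have hle : powerClosure p 1 (A.subgroupOf R) ≤ Subgroup.center ↥R := by
        unfold powerClosure
        rw [Subgroup.closure_le]
        rintro _ ⟨x, hx, rfl⟩
        rw [SetLike.mem_coe, Subgroup.mem_center_iff]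
        intro g
        apply Subtype.ext
        have hxA : (x : G) ∈ A := Subgroup.mem_subgroupOf.mp hx
        have hz : (x : G) ^ p ∈ Z1 := ⟨A.pow_mem hxA p, hsmall _ hxA⟩
        simpa using hZ1cen _ hz (g : G)
      have htop : Subgroup.centralizer (powerClosure p 1 (A.subgroupOf R) : Set ↥R) = ⊤ := by
        rw [Subgroup.centralizer_eq_top_iff_subset]
        exact hle
      rw [htop, Subgroup.relIndex_top_right] at hrel
      have hcardR : Nat.card ↥R = Nat.card ↥(A.subgroupOf R) * p := by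
        rw [← hrel]
        exact (Subgroup.card_mul_index _).symm
      have hAdvd : Nat.card A ∣ p ^ 2 :=
        symp_card_dvd_of_pow le_rfl hAcyc (fun a ha => by rw [pow_two, pow_mul]; exact hsmall a ha)
      have hAle : Nat.card A ≤ p ^ 2 := Nat.le_of_dvd (pow_pos hpp.pos 2) hAdvd
      rw [Nat.card_congr hUequiv.toEquiv] at hcardR
      have hle3 : p ^ j ≤ p ^ 3 := by
        rw [← hj, hcardR, pow_succ]
        exact Nat.mul_le_mul_right p hAle
      have hj' : j ≤ 3 := (Nat.pow_le_pow_iff_right hpp.one_lt).mp hle3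
      have hj3' : j = 3 := le_antisymm hj' hj3
      rw [hj, hj3']
    · push_neg at hsmall
      exfalso
      obtain ⟨a₀, ha₀, ha₀p⟩ := hsmall
      have hAp : ∃ a ∈ A, a ^ p ≠ 1 := ⟨a₀, ha₀, fun h => ha₀p (by rw [h, one_pow])⟩
      have hY := symp_T_le hG hsymp A C hAchar hAcyc hAab hAC hCcenA hcenAC hcenC.le hCcomm
        (hC6 hAp) hZ1card hZ1cen ⟨a₀, ha₀, ha₀p⟩
      have hle : Subgroup.centralizer (powerClosure p 1 (A.subgroupOf R) : Set ↥R) ≤
          A.subgroupOf R := by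
        intro x hx
        rw [Subgroup.mem_subgroupOf]
        apply hRA x x.2
        apply hY
        intro a ha
        have hmem : (⟨a, hAR ha⟩ : ↥R) ^ (p ^ 1) ∈ powerClosure p 1 (A.subgroupOf R) :=
          Subgroup.subset_closure ⟨⟨a, hAR ha⟩, Subgroup.mem_subgroupOf.mpr ha, rfl⟩
        have h2 := congrArg Subtype.val (hx _ hmem)
        simpa using h2.symm
      have h1 : (A.subgroupOf R).relIndex
          (Subgroup.centralizer (powerClosure p 1 (A.subgroupOf R) : Set ↥R)) = 1 :=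
        Subgroup.relIndex_eq_one.mpr hle
      rw [h1] at hrel
      exact hpp.one_lt.ne hrel

end main

end Cfsg.Agent.Lib.helper14
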